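import Cfsg.Statements.S2330
import Cfsg.Agent.Lib.SL2.Torus

set_option autoImplicit false
open Cfsg

namespace Cfsg.Agent.S2330

open SL2 in
theorem aux {F : Type*} [Field F] [Finite F] :
    Nat.card (ConjClasses (Matrix.GeneralLinearGroup (Fin 2) F)) = Nat.card F ^ 2 - 1 := by
  classical
  let f : GL (Fin 2) F → {a : F // a ≠ 0} ⊕ (F × Fˣ) := fun g =>
    if h : IsScal g.1 then Sum.inl ⟨g.1 0 0, fun h0 => g.det_ne_zero (by
      rw [Matrix.det_fin_two, h0, h.1]; simp)⟩
    else Sum.inr (g.1.trace, Matrix.GeneralLinearGroup.det g)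
  rw [card_conjClasses_of_invariant' f]
  · rw [Nat.card_sum, Nat.card_prod, card_ne_zero, Nat.card_units]
    obtain ⟨k, hk⟩ : ∃ k, Nat.card F = k + 1 := ⟨Nat.card F - 1, by have := one_lt_card (F := F); omega⟩
    rw [hk, Nat.add_sub_cancel]
    symm
    apply Nat.sub_eq_of_eq_add
    ring
  · intro g h
    rw [GL_isConj_iff']
    by_cases hg : IsScal g.1 <;> by_cases hh : IsScal h.1 <;> simp only [f, hg, hh] <;> simp
    · constructor
      · rintro rfl; rfl
      · intro e
        apply Units.ext
        rw [hg.eq_smul, hh.eq_smul, e]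
    · rintro rfl; exact hh hg
    · intro _
      rw [Units.ext_iff]; rfl
  · rintro (⟨a, ha⟩ | ⟨t, d⟩)
    · refine ⟨Matrix.GeneralLinearGroup.mkOfDetNeZero (a • 1) (by simp [ha]), ?_⟩
      simp [f, isScal_smul_one]
    · refine ⟨Matrix.GeneralLinearGroup.mkOfDetNeZero (comp t d) (by simp), ?_⟩
      simp [f, not_isScal_comp, Units.ext_iff]

/-- Over a finite field with q elements, the general linear group GL₂ has exactly q² − 1 conjugacy classes. -/
theorem result {F : Type*} [Field F] [Fintype F] :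
    Nat.card (ConjClasses (Matrix.GeneralLinearGroup (Fin 2) F)) = Fintype.card F ^ 2 - 1 := by
  rw [aux, Nat.card_eq_fintype_card]

end Cfsg.Agent.S2330
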