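import Cfsg.Statements.S2036
import Cfsg.Agent.Lib.Mult.M22.Main
import Cfsg.Agent.Lib.Mult.M22.Cov
import Cfsg.Agent.Lib.Id.M22

set_option autoImplicit false
open Cfsg

namespace Cfsg.Agent.S2036

open Cfsg.Agent.Mult

/-- The Schur multiplier of the Mathieu group M₂₂ (the permutations in the automorphism group of the length-24 binary code that fix each of two given points) is cyclic of order 12; here the Schur multiplier is described through stem extensions, as in the definitions: surjective homomorphisms onto the group from a finite group, whose kernel is central in that finite group and contained in that finite group's commutator subgroup. -/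
theorem result : Cfsg.HasCyclicSchurMultiplier ↥Cfsg.Spor.M22 12 := by
  obtain ⟨e⟩ := Cfsg.Agent.Id.M22.iso
  exact hasSchurMultiplier_congr e.symm
    ((Cfsg.Agent.Mult.M22.mb.ub_coprime (by norm_num)).hasSchurMultiplier
      (Cfsg.Agent.Mult.M22.ex.coprime (by norm_num)))

end Cfsg.Agent.S2036
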