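import Cfsg.Statements.S2040
import Cfsg.Agent.Lib.Id.J2
import Cfsg.Agent.Lib.Mult.J2.Main
import Cfsg.Agent.Lib.Mult.J2.Cov

set_option autoImplicit false
open Cfsg

namespace Cfsg.Agent.S2040

open Cfsg.Agent.Mult

/-- The Schur multiplier of the Hall–Janko group J₂ (the icosian reflection group modulo its centre) is cyclic of order 2; here the Schur multiplier is described through stem extensions, as in the definitions: surjective homomorphisms onto the group from a finite group, whose kernel is central in that finite group and contained in that finite group's commutator subgroup. -/
theorem result : Cfsg.HasCyclicSchurMultiplier Cfsg.Spor.J2 2 := by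
  obtain ⟨e⟩ := Cfsg.Agent.Id.J2.iso
  exact hasSchurMultiplier_congr e.symm (J2.mb.ub_one.hasSchurMultiplier J2.ex)

end Cfsg.Agent.S2040
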