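import Cfsg.Statements.S2045
import Cfsg.Agent.Lib.Mult.Co3.Main
import Cfsg.Agent.Lib.Id.Co3

set_option autoImplicit false
open Cfsg

namespace Cfsg.Agent.S2045

open Cfsg.Agent.Mult

/-- The Schur multiplier of the Conway group Co₃ (the stabiliser of a vector of the second shortest length in the rank-24 lattice) is trivial; here the Schur multiplier is described through stem extensions, as in the definitions: surjective homomorphisms onto the group from a finite group, whose kernel is central in that finite group and contained in that finite group's commutator subgroup. -/
theorem result : Cfsg.HasCyclicSchurMultiplier ↥Cfsg.Spor.Co3 1 := by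
  obtain ⟨e⟩ := Cfsg.Agent.Id.Co3.iso
  exact hasSchurMultiplier_congr e.symm Cfsg.Agent.Mult.Co3.mb.trivial

end Cfsg.Agent.S2045
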