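import Cfsg.Statements.S2049
import Cfsg.Agent.Lib.Id.He
import Cfsg.Agent.Lib.Mult.He.Main

set_option autoImplicit false
open Cfsg

namespace Cfsg.Agent.S2049

open Cfsg.Agent.Mult

/-- The Schur multiplier of the Held group (the finitely presented group of the definitions) is trivial; here the Schur multiplier is described through stem extensions, as in the definitions: surjective homomorphisms onto the group from a finite group, whose kernel is central in that finite group and contained in that finite group's commutator subgroup. -/
theorem result : Cfsg.HasCyclicSchurMultiplier Cfsg.Spor.He 1 := by
  obtain ⟨e⟩ := Cfsg.Agent.Id.He.iso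
  exact hasSchurMultiplier_congr e.symm He.mb.trivial

end Cfsg.Agent.S2049
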