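import Cfsg.Statements.S2052
import Cfsg.Agent.Lib.Id.ON
import Cfsg.Agent.Lib.Mult.ON.Main
import Cfsg.Agent.Lib.Mult.ON.Cov

set_option autoImplicit false
open Cfsg

namespace Cfsg.Agent.S2052

open Cfsg.Agent.Mult

/-- The Schur multiplier of the O'Nan group (the finitely presented group of the definitions) is cyclic of order 3; here the Schur multiplier is described through stem extensions, as in the definitions: surjective homomorphisms onto the group from a finite group, whose kernel is central in that finite group and contained in that finite group's commutator subgroup. -/
theorem result : Cfsg.HasCyclicSchurMultiplier Cfsg.Spor.ON 3 := by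
  obtain ⟨e⟩ := Cfsg.Agent.Id.ON.iso
  exact hasSchurMultiplier_congr e.symm (ON.mb.ub_one.hasSchurMultiplier ON.ex)

end Cfsg.Agent.S2052
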