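import Cfsg.Statements.S2086
import Cfsg.Agent.Lib.SLn.Mult
import Cfsg.Agent.Lib.SL2.Mult2

set_option autoImplicit false
open Cfsg

namespace Cfsg.Agent.S2086

/-- Schur multipliers of the linear groups: for n ≥ 2 and a field F with q elements (q ≥ 4 when n = 2), apart from the five exceptional pairs (n, q) = (2, 4), (2, 9), (3, 2), (3, 4), (4, 2), the Schur multiplier of PSL_n(F) is cyclic of order gcd(n, q − 1); here the Schur multiplier is described through stem extensions, as in the definitions. -/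
theorem result {F : Type*} [Field F] [Fintype F] {q : ℕ} (hF : Fintype.card F = q) (n : ℕ) (hn : 2 ≤ n) (h2 : n = 2 → 4 ≤ q) (hexc : (n, q) ∉ ({(2, 4), (2, 9), (3, 2), (3, 4), (4, 2)} : Set (ℕ × ℕ))) : Cfsg.HasCyclicSchurMultiplier (Matrix.ProjectiveSpecialLinearGroup (Fin n) F) (Nat.gcd n (q - 1)) := by
  subst hF
  simp only [Set.mem_insert_iff, Set.mem_singleton_iff, Prod.mk.injEq, not_or, not_and] at hexc
  obtain ⟨e1, e2, e3, e4, e5⟩ := hexc
  rw [← Nat.card_eq_fintype_card] at *
  rcases hn.eq_or_lt with rfl | hn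
  · have := h2 rfl
    have := e1 rfl
    exact SL2.hasCyclicSchurMultiplier_PSL2 (by omega) (e2 rfl)
  have hn' : 3 ≤ Fintype.card (Fin n) := by rw [Fintype.card_fin]; exact hn
  have : NeZero (Fintype.card (Fin n)) := ⟨by omega⟩
  let e := Matrix.SpecialLinearGroup.center_equiv_rootsOfUnity' (R := F) (⟨0, by omega⟩ : Fin n)
  have hk : (QuotientGroup.mk' (Subgroup.center (Matrix.SpecialLinearGroup (Fin n) F))).ker =
      Subgroup.center _ := QuotientGroup.ker_mk' _
  have hcard : Nat.card (QuotientGroup.mk'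
      (Subgroup.center (Matrix.SpecialLinearGroup (Fin n) F))).ker = Nat.gcd n (Nat.card F - 1) := by
    rw [hk, Nat.card_congr e.toEquiv, ← Nat.card_units, Nat.gcd_comm,
      ← IsCyclic.card_powMonoidHom_ker, Fintype.card_fin]
    rfl
  have : IsCyclic (QuotientGroup.mk'
      (Subgroup.center (Matrix.SpecialLinearGroup (Fin n) F))).ker := by
    rw [hk]
    exact isCyclic_of_injective e.toMonoidHom e.injective
  refine SL2.hasSchurMultiplier_of_perfect (SLn.commutator_SL hn') (fun P _ _ τ hτ =>
    SLn.ker_eq_bot_SL hn' (fun h => ⟨e3 (by simpa using h), e4 (by simpa using h)⟩)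
      (fun h => e5 (by simpa using h)) hτ) (QuotientGroup.mk' _) (QuotientGroup.mk'_surjective _)
    hk.le ?_
  rw [← hcard]
  exact (zmodCyclicMulEquiv this).symm

end Cfsg.Agent.S2086
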