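import Cfsg.Statements.S2087
import Cfsg.Agent.Lib.SL2.Mult2
import Cfsg.Agent.S2426
import Cfsg.Agent.Lib.GLn.Spec2

set_option autoImplicit false
open Cfsg

namespace Cfsg.Agent.S2087

set_option backward.isDefEq.respectTransparency false
open Cfsg.Agent.SL2 Matrix
open scoped MatrixGroups commutatorElement

instance fact7 : Fact (Nat.Prime 7) := ⟨by norm_num⟩

/-- image of the upper transvection -/
def mA : SL(3, ZMod 2) := ⟨!![0, 0, 1; 1, 0, 1; 0, 1, 0], by decide⟩
/-- image of the lower transvection -/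
def mB : SL(3, ZMod 2) := ⟨!![0, 1, 0; 0, 0, 1; 1, 0, 1], by decide⟩
/-- images of the generators -/
def gen (p : Bool × ZMod 7) : SL(3, ZMod 2) := (if p.1 then mA else mB) ^ p.2.val

theorem rel1 : ∀ (b : Bool) (t u : ZMod 7), (gen (b, t) * gen (b, u)).1 = (gen (b, t + u)).1 := by
  decide +kernel

theorem rel2 : ∀ (b : Bool) (t s u : ZMod 7), t * s = 1 →
    (gen (b, t) * gen (!b, -s) * gen (b, t) * gen (b, u)).1 =
      (gen (!b, -(s ^ 2 * u)) * (gen (b, t) * gen (!b, -s) * gen (b, t))).1 := by
  decide +kernel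

theorem exists_hom : ∃ φ : SL(2, ZMod 7) →* SL(3, ZMod 2), φ (up 1) = mA := by
  obtain ⟨e, h1, -⟩ := S2426.result (K := ZMod 7)
  refine ⟨(PresentedGroup.toGroup (f := gen) ?_).comp e.symm.toMonoidHom, ?_⟩
  · rintro r (⟨b, t, u, rfl⟩ | ⟨b, t, u, ht, rfl⟩)
    · simp only [map_mul, map_inv, FreeGroup.lift_apply_of]
      rw [mul_inv_eq_one]
      exact Subtype.ext (rel1 b t u)
    · simp only [map_mul, map_inv, FreeGroup.lift_apply_of]
      rw [mul_inv_eq_one, mul_inv_eq_iff_eq_mul]
      exact Subtype.ext (rel2 b t t⁻¹ u (mul_inv_cancel₀ ht))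
  · have : up 1 = e (PresentedGroup.of (true, 1)) := Subtype.ext (h1 1).symm
    rw [this, MonoidHom.comp_apply, MulEquiv.coe_toMonoidHom, MulEquiv.symm_apply_apply,
      PresentedGroup.toGroup.of]
    exact pow_one _

/-- Exceptional Schur multiplier: over the field with 2 elements, PSL₃ has Schur multiplier cyclic of order 2 (here the Schur multiplier is described through stem extensions, as in the definitions). -/
theorem result {F : Type*} [Field F] [Fintype F] (hF : Fintype.card F = 2) : Cfsg.HasCyclicSchurMultiplier (Matrix.ProjectiveSpecialLinearGroup (Fin 3) F) 2 := by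
  obtain ⟨φ, hφ⟩ := exists_hom
  let f : ZMod 2 ≃+* F := ZMod.ringEquivOfPrime F Nat.prime_two hF
  let π : SL(2, ZMod 7) →* PSL(3, F) := (QuotientGroup.mk' _).comp
    ((Matrix.SpecialLinearGroup.map f.toRingHom).comp φ)
  have h7 : Nat.card (ZMod 7) = 7 := Nat.card_zmod 7
  have hc : π.ker ≤ Subgroup.center _ := by
    refine normal_le_center (by omega) _ fun h => ?_
    have h1 : up 1 ∈ π.ker := h ▸ Subgroup.mem_top _
    simp only [π, MonoidHom.mem_ker, MonoidHom.comp_apply, hφ, QuotientGroup.mk'_apply,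
      QuotientGroup.eq_one_iff, Matrix.SpecialLinearGroup.mem_center_iff] at h1
    obtain ⟨r, -, hr⟩ := h1
    have := congrFun (congrFun hr 0) 2
    simp [mA] at this
  have h1 : Nat.card π.ker ∣ 2 := by
    have := Subgroup.card_dvd_of_le hc
    rwa [card_center_SL_odd (F := ZMod 7) (by decide)] at this
  have h2 : Nat.card π.ker * Nat.card π.range = 336 := by
    rw [card_ker_mul_card_range, card_SL2, h7]; norm_num
  have h3 : Nat.card PSL(3, F) ≤ 168 := by
    have := GLn.card_SL_eq (F := F) 2
    rw [Nat.card_eq_fintype_card (α := F), hF] at this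
    exact (Nat.card_le_card_of_surjective _ (QuotientGroup.mk'_surjective _)).trans
      (this.trans (by decide)).le
  have h4 := π.range.card_le_card_group
  have h5 : Nat.card π.ker = 2 := by
    rcases (Nat.dvd_prime Nat.prime_two).1 h1 with h | h
    · rw [h] at h2; omega
    · exact h
  have h6 : Function.Surjective π := by
    rw [← MonoidHom.range_eq_top]
    apply Subgroup.eq_top_of_card_eq
    rw [h5] at h2
    omega
  refine hasSchurMultiplier_of_SL2 (by omega) (by omega) π h6 hc ?_
  exact mulEquivOfPrimeCardEq h5 (by simp)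

end Cfsg.Agent.S2087
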