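import Cfsg.Statements.S2093
import Cfsg.Agent.Lib.LieId.Lin3
import Cfsg.Agent.Lib.Id.S62
import Cfsg.Agent.Lib.Mult.S62.Main
import Cfsg.Agent.Lib.Mult.S62.Cov

set_option autoImplicit false
open Cfsg

namespace Cfsg.Agent.S2093

open Cfsg.Agent.Mult Cfsg.Agent.Lin

/-- Exceptional Schur multiplier: over the field with 2 elements, PSp₆ has Schur multiplier cyclic of order 2 (here the Schur multiplier is described through stem extensions, as in the definitions). -/
theorem result {F : Type*} [Field F] [Fintype F] (hF : Fintype.card F = 2) : Cfsg.HasCyclicSchurMultiplier (Cfsg.PSp 3 F) 2 := by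
  obtain ⟨e⟩ := Cfsg.Agent.Id.S62.iso
  obtain ⟨e'⟩ := quot_center_iso e.toMonoidHom e.surjective (((MonoidHom.ker_eq_bot_iff _).2 e.injective).le.trans bot_le)
    (center_eq_bot CG.S62.tabOK CG.S62.chain rfl (St := [14, 0]) (b := 7) (by decide) (by decide +kernel))
  exact hasSchurMultiplier_univ (e'.symm.trans (Forms.centerQuotEquiv (spTrans
    (FiniteField.ringEquivOfCardEq ((ZMod.card 2).trans hF.symm))))) (S62.mb.ub_one.hasSchurMultiplier S62.ex)

end Cfsg.Agent.S2093
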