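import Cfsg.Statements.S2104
import Cfsg.Agent.Lib.LieId.F42
import Cfsg.Agent.Lib.Mult.F42.Main
import Cfsg.Agent.Lib.Mult.F42.Cov

set_option autoImplicit false
open Cfsg

namespace Cfsg.Agent.S2104

open Cfsg.Agent.Mult

/-- Exceptional Schur multiplier: over the field with 2 elements the Chevalley group of type F₄ has Schur multiplier cyclic of order 2 (here the Schur multiplier is described through stem extensions, as in the definitions). -/
theorem result {F : Type*} [Field F] [Fintype F] (hF : Fintype.card F = 2) : Cfsg.HasCyclicSchurMultiplier ↥(Cfsg.Lie.chevF4.group F) 2 := by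
  obtain ⟨e⟩ := Cfsg.Agent.LieId.F42.iso hF
  exact hasSchurMultiplier_univ e (F42.mb.ub_one.hasSchurMultiplier F42.ex)

end Cfsg.Agent.S2104
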