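import Cfsg.Statements.S2112
import Cfsg.Agent.Lib.Suz.Mult
import Cfsg.Agent.Lib.Suz.Iso

set_option autoImplicit false
open Cfsg

namespace Cfsg.Agent.S2112

open Cfsg.Agent.Suz

open Cfsg.Agent.Mult Subgroup
open scoped commutatorElement

variable {F : Type*} [Field F] [h : SuzF F 1]

theorem pow_eight (a : F) : a ^ 8 = a := pow_q a

theorem θ_eq (a : F) : θ a = a ^ 4 := θ_def a

theorem exists_lam : ∃ l : F →+ ZMod 2 × ZMod 2, Function.Surjective l ∧
    ∀ y, l y = 0 ↔ y = 0 ∨ y = 1 := by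
  let _ : Algebra (ZMod 2) F := ZMod.algebra F 2
  have h1 : Module.finrank (ZMod 2) F = 3 := by
    have := Module.natCard_eq_pow_finrank (K := ZMod 2) (V := F)
    rw [card_F, Nat.card_zmod] at this
    exact (Nat.pow_right_injective le_rfl this).symm
  have h2 : Module.finrank (ZMod 2) (F ⧸ Submodule.span (ZMod 2) {(1 : F)}) = 2 := by
    have := Submodule.finrank_quotient_add_finrank (Submodule.span (ZMod 2) {(1 : F)})
    rw [finrank_span_singleton one_ne_zero, h1] at this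
    omega
  let e : (F ⧸ Submodule.span (ZMod 2) {(1 : F)}) ≃ₗ[ZMod 2] ZMod 2 × ZMod 2 :=
    LinearEquiv.ofFinrankEq _ _ (by simp [h2])
  refine ⟨(e.toLinearMap.comp (Submodule.mkQ _)).toAddMonoidHom,
    e.surjective.comp (Submodule.mkQ_surjective _), fun y => ?_⟩
  simp only [LinearMap.toAddMonoidHom_coe, LinearMap.comp_apply, LinearEquiv.coe_coe,
    EmbeddingLike.map_eq_zero_iff, Submodule.mkQ_apply, Submodule.Quotient.mk_eq_zero,
    Submodule.mem_span_singleton]
  constructor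
  · rintro ⟨c, rfl⟩
    fin_cases c
    · left; exact zero_smul _ _
    · right; exact one_smul _ _
  · rintro (rfl | rfl)
    · exact ⟨0, zero_smul _ _⟩
    · exact ⟨1, one_smul _ _⟩

/-- The invariant cocycle on the Sylow subgroup. -/
def ct (a c d : F) : F := a ^ 2 * d + a ^ 4 * d ^ 2 + a ^ 6 * c + a ^ 4 * c ^ 3

theorem ct_inv (μ : Fˣ) (a c d : F) : ct (μ * a) (μ * c) (μ * θ (μ : F) * d) = ct a c d := by
  have h7 : (μ : F) ^ 7 = 1 := pow_q_sub_one μ.ne_zero
  simp only [ct, θ_eq]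
  grind

theorem ct_cocycle (a c d e f : F) :
    ct a c d + ct (a + c) e f = ct c e f + ct a (c + e) (d + f + θ c * e) := by
  have h8 := pow_eight c
  simp only [ct, θ_eq]
  grind

/-- Parameters of an element of the Borel subgroup. -/
noncomputable def par : G F 1 → F × F × Fˣ :=
  Function.invFun fun p => u p.1 p.2.1 * hh p.2.2

theorem par_eq (a b : F) (μ : Fˣ) : par (u a b * hh μ) = (a, b, μ) :=
  Function.leftInverse_invFun (f := fun p : F × F × Fˣ => (u p.1 p.2.1 * hh p.2.2 : G F 1))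
    (fun p q he => by
      obtain ⟨h1, h2, h3⟩ := u_mul_hh_inj.mp he
      exact Prod.ext h1 (Prod.ext h2 h3)) (a, b, μ)

/-- The cocycle on the Borel subgroup. -/
noncomputable def cB (g g' : G F 1) : F :=
  ct (par g).1 ((par g).2.2 * (par g').1) ((par g).2.2 * θ ((par g).2.2 : F) * (par g').2.1)

theorem cB_eq (a b c d : F) (μ ν : Fˣ) :
    cB (u a b * hh μ) (u c d * hh ν) = ct a (μ * c) (μ * θ (μ : F) * d) := by
  simp only [cB, par_eq]

theorem cB_u (a b c d : F) : cB (u a b) (u c d) = ct a c d := by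
  simpa using cB_eq a b c d 1 1

theorem B_mul (a b c d : F) (μ ν : Fˣ) : (u a b * hh μ * (u c d * hh ν) : G F 1) =
    u (a + μ * c) (b + μ * θ (μ : F) * d + θ a * (μ * c)) * hh (μ * ν) := by
  rw [mul_assoc, ← mul_assoc (hh μ), hh_mul_u, mul_assoc, hh_mul_hh, ← mul_assoc, u_mul_u]

theorem one_eq : (1 : G F 1) = u 0 0 * hh 1 := by simp

theorem cB_cocycle : ∀ x ∈ B F, ∀ y ∈ B F, ∀ z ∈ B F,
    cB x y + cB (x * y) z = cB y z + cB x (y * z) := by
  intro x hx y hy z hz
  obtain ⟨a, b, μ, rfl⟩ := mem_B_iff.mp hx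
  obtain ⟨c, d, ν, rfl⟩ := mem_B_iff.mp hy
  obtain ⟨e, f, ρ, rfl⟩ := mem_B_iff.mp hz
  rw [B_mul, B_mul, cB_eq, cB_eq, cB_eq, cB_eq, ← ct_inv μ c, ct_cocycle]
  simp only [Units.val_mul, θ_mul, θ_eq]
  have h7 : (μ : F) ^ 7 = 1 := pow_q_sub_one μ.ne_zero
  congr 2 <;> ring

open Classical in
/-- The transversal. -/
noncomputable def tv (ω : Pt F 1) : G F 1 :=
  if hω : ω = inf then 1 else
    u (exists_eq_pt hω).choose (exists_eq_pt hω).choose_spec.choose * w

theorem tv_inf : tv (inf : Pt F 1) = 1 := by simp [tv]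

theorem tv_pt (x y : F) : tv (pt x y : Pt F 1) = u x y * w := by
  have h1 : (pt x y : Pt F 1) ≠ inf := by simp
  have h2 := (exists_eq_pt h1).choose_spec.choose_spec
  rw [pt_inj] at h2
  rw [tv, dif_neg h1, ← h2.2, ← h2.1]

theorem tv_smul (ω : Pt F 1) : tv ω • (inf : Pt F 1) = ω := by
  rcases pt_cases ω with rfl | ⟨x, y, rfl⟩
  · simp [tv_inf]
  · simp [tv_pt, mul_smul]

theorem tv_mem (g : G F 1) (ω : Pt F 1) : (tv (g • ω))⁻¹ * g * tv ω ∈ B F := by
  rw [mem_B, mul_smul, mul_smul, tv_smul, inv_smul_eq_iff, tv_smul]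

theorem exists_cocycle (l : F →+ ZMod 2 × ZMod 2) : ∃ C : Cocycle (G F 1) (ZMod 2 × ZMod 2),
    ∀ a b c d, C.c (u a b) (u c d) = l (ct a c d) := by
  have := Fintype.ofFinite (Pt F 1)
  refine ⟨cores (B F) tv tv_mem (fun g g' => l (cB g g')) (fun g hg => ?_) (fun g hg => ?_)
    (fun x hx y hy z hz => ?_), fun a b c d => ?_⟩
  · obtain ⟨a, b, μ, rfl⟩ := mem_B_iff.mp hg
    rw [one_eq, cB_eq]; simp [ct]
  · obtain ⟨a, b, μ, rfl⟩ := mem_B_iff.mp hg
    rw [one_eq, cB_eq]; simp [ct]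
  · rw [← map_add, ← map_add, cB_cocycle x hx y hy z hz]
  · change ∑ ω, _ = _
    rw [Finset.sum_eq_single inf]
    · simp [tv_inf, cB_u]
    · intro ω _ hω
      obtain ⟨x, y, rfl⟩ := exists_eq_pt hω
      have key : ∀ a b x y : F, (tv ((u a b : G F 1) • (pt x y : Pt F 1)))⁻¹ * u a b *
          tv (pt x y) = u 0 0 := fun a b x y => by
        rw [u_smul_pt, tv_pt, tv_pt, mul_assoc, ← mul_assoc (u a b), u_mul_u, add_comm x,
          add_comm y, inv_mul_cancel]
        simp
      rw [key, u_smul_pt, key]; simp only [cB_u]; simp [ct]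
    · simp

theorem main : HasSchurMultiplier (G F 1) (Multiplicative (ZMod 2 × ZMod 2)) := by
  obtain ⟨l, hl, hl0⟩ := exists_lam (F := F)
  constructor
  · obtain ⟨C, hC⟩ := exists_cocycle l
    refine ⟨C.Ext, inferInstance, inferInstance, C.proj, C.isStem ?_, ⟨C.kerEquiv⟩⟩
    rw [eq_top_iff]
    intro t _
    obtain ⟨y, rfl⟩ := hl t
    refine AddSubgroup.subset_closure ⟨u 1 0, u 0 (y ^ 2), u_comm_z _ _ _, ?_⟩
    rw [hC, hC, ← map_sub, ← sub_eq_zero, ← map_sub, hl0]
    have h8 := pow_eight y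
    have : (y + y ^ 2 + y ^ 4) * (y + y ^ 2 + y ^ 4 + 1) = 0 := by grind
    simp only [ct]
    rcases mul_eq_zero.mp this with h1 | h1 <;> grind
  · intro Γ _ _ σ hσ
    let g : Multiplicative F →* σ.ker :=
      { toFun := fun y => ⟨cm hσ (u 1 0) (u 0 y.toAdd), cm_mem_ker hσ (u_comm_z _ _ _)⟩
        map_one' := Subtype.ext (by simpa using cm_pow_self hσ (u 1 0) 0)
        map_mul' := fun y y' => Subtype.ext (cm_u_z_add_right hσ _ _ _) }
    have hg1 : g (Multiplicative.ofAdd 1) = 1 :=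
      Subtype.ext (show cm hσ (u 1 0) (u 0 1) = 1 by simpa [u_sq] using cm_pow_self hσ (u 1 0) 2)
    have hK : g.range.map σ.ker.subtype ≤ σ.ker := map_subtype_le _
    have := normal_of_le_ker hσ.2.1 hK
    have hq := isStem_quotient hσ _ hK
    have hker := ker_eq_of_quotient _ hK (ker_eq_bot hq fun a b d => by
      have h1 := cm_eq hq ((sec hσ (u a b) : Γ) : Γ ⧸ g.range.map σ.ker.subtype)
        ((sec hσ (u 0 d) : Γ) : Γ ⧸ g.range.map σ.ker.subtype)
      simp only [QuotientGroup.lift_mk, map_sec] at h1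
      rw [← h1]
      change (QuotientGroup.mk' _ _ * QuotientGroup.mk' _ _ * (QuotientGroup.mk' _ _)⁻¹ *
        (QuotientGroup.mk' _ _)⁻¹) = _
      rw [← map_inv, ← map_inv, ← map_mul, ← map_mul, ← map_mul, QuotientGroup.mk'_apply,
        QuotientGroup.eq_one_iff]
      change cm hσ (u a b) (u 0 d) ∈ _
      rw [cm_u_z]
      by_cases ha : a = 0
      · rw [ha, cm_z_z]; exact one_mem _
      · refine ⟨_, ⟨Multiplicative.ofAdd ((a * θ a)⁻¹ * d), rfl⟩, ?_⟩
        rw [← mul_inv_cancel_left₀ (mul_ne_zero ha (θ_ne_zero ha)) d, cm_u_z_inv hσ _ _ ha,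
          mul_inv_cancel_left₀ (mul_ne_zero ha (θ_ne_zero ha)) d]
        rfl)
    have hg : Function.Surjective g := fun z => by
      obtain ⟨y, ⟨t, rfl⟩, hy⟩ := hker.le z.2
      exact ⟨t, Subtype.ext hy⟩
    have hle : (AddMonoidHom.toMultiplicative l).ker ≤ g.ker := fun y hy => by
      rcases (hl0 y.toAdd).mp hy with h1 | h1
      · exact (congrArg g (show y = 1 from h1)).trans g.map_one
      · exact (congrArg g (show y = Multiplicative.ofAdd 1 from h1)).trans hg1
    refine ⟨MonoidHom.liftOfSurjective (AddMonoidHom.toMultiplicative l) hl ⟨g, hle⟩, fun z => ?_⟩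
    obtain ⟨t, rfl⟩ := hg z
    exact ⟨_, MonoidHom.liftOfRightInverse_comp_apply _ _ _ _ t⟩


/-- Exceptional Schur multiplier: the Suzuki group Sz(8), built over the field with 8 elements using the map x ↦ x⁴, has Schur multiplier a four-group, the product of two cyclic groups of order 2 (here the Schur multiplier is described through stem extensions, as in the definitions). -/
theorem result {F : Type*} [Field F] [Fintype F] (hF : Fintype.card F = 8) : Cfsg.HasSchurMultiplier ↥(Cfsg.Lie.Sz F 4) (Multiplicative (ZMod 2 × ZMod 2)) := by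
  have := SuzF.of_card (m := 1) le_rfl hF
  exact hasSchurMultiplier_congr (lieEquiv F) main

end Cfsg.Agent.S2112
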