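import Cfsg.Statements.S2113
import Cfsg.Agent.Lib.Ree.Tori
import Cfsg.Agent.Lib.Ree.Mult

set_option autoImplicit false
open Cfsg

namespace Cfsg.Agent.S2113

open Cfsg.Agent.Ree Cfsg.Agent.Mult

/-- Schur multipliers of the small Ree groups: for q = 3^(2m+1) with m ≥ 1 the Schur multiplier of ²G₂(q) is trivial (here the Schur multiplier is described through stem extensions, as in the definitions). -/
theorem result {K : Type*} [Field K] [Fintype K] {m : ℕ} (hm : 1 ≤ m) (hK : Fintype.card K = 3 ^ (2 * m + 1)) : Cfsg.HasCyclicSchurMultiplier ↥(Cfsg.Lie.twistedG2 K (3 ^ m)) 1 := by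
  obtain ⟨_, ⟨R⟩⟩ := exists_rt hm hK
  refine hasCyclicSchurMultiplier_one fun Γ _ _ σ hσ => eq_bot_iff.2 fun z hz => eq_one_of_forall_prime fun p hp => ?_
  have : Fact p.Prime := ⟨hp⟩
  by_cases h2 : p = 2
  · subst h2
    let P : Sylow 2 (Lie.twistedG2 K (3 ^ m)) := default
    exact ⟨_, P.not_dvd_index, R.pow_eq_one_two hσ P.isPGroup' hz⟩
  by_cases h3 : p = 3
  · refine ⟨_, ?_, R.pow_eq_one_three hσ hz⟩
    have := R.not_dvd_index_U
    have := R.three_dvd
    have := R.big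
    rw [h3, Nat.prime_three.dvd_mul]
    omega
  by_cases h4 : p ∣ Nat.card (Lie.twistedG2 K (3 ^ m))
  swap
  · exact ⟨_, by rwa [Subgroup.index_bot], pow_index_eq_one hσ ⊥ hz⟩
  have h5 : ∀ {n e c} (S : Chev.TorD (Lie.twistedG2 K (3 ^ m)) n e c), p ∣ n → e ∣ 4 → ∃ n, ¬ p ∣ n ∧ z ^ n = 1 :=
    fun S h he => have := S.cyc; ⟨_, S.not_dvd_index hp h fun h => h2 ((Nat.prime_dvd_prime_iff_eq hp Nat.prime_two).1
      (hp.dvd_of_dvd_pow (n := 2) (h.trans he))), pow_index_eq_one hσ S.C hz⟩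
  rcases R.prime_cases hp h2 h3 h4 with h | h | h | h
  exacts [h5 R.T1 h (by decide), h5 R.T2 h (by decide), h5 R.T3 h (by decide), h5 R.T4 h (by decide)]

end Cfsg.Agent.S2113
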