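import Cfsg.Statements.S2116
import Cfsg.Agent.Lib.Id.Alt67
import Cfsg.Agent.Lib.Mult.A6.Main
import Cfsg.Agent.Lib.Mult.A6.Cov
import Cfsg.Agent.Lib.Mult.A7.Main
import Cfsg.Agent.Lib.Mult.A7.Cov

set_option autoImplicit false
open Cfsg

namespace Cfsg.Agent.S2116

open Cfsg.Agent.Mult

/-- Exceptional Schur multipliers of the alternating groups: for n = 6 and n = 7 the Schur multiplier of the alternating group of degree n is cyclic of order 6 (here the Schur multiplier is described through stem extensions, as in the definitions). -/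
theorem result (n : ℕ) (hn : n = 6 ∨ n = 7) : Cfsg.HasCyclicSchurMultiplier (alternatingGroup (Fin n)) 6 := by
  rcases hn with rfl | rfl
  · exact Cfsg.Agent.Id.A6_eq ▸ (A6.mb.ub_coprime (by norm_num)).hasSchurMultiplier (A6.ex.coprime (by norm_num))
  · exact Cfsg.Agent.Id.A7_eq ▸ (A7.mb.ub_coprime (by norm_num)).hasSchurMultiplier (A7.ex.coprime (by norm_num))

end Cfsg.Agent.S2116
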