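import Cfsg.Statements.S2117
import Cfsg.Agent.Lib.SL2.Mult

set_option autoImplicit false
open Cfsg

namespace Cfsg.Agent.S2117

/-- For a finite field with q elements, q ≠ 4 and q ≠ 9, the special linear group SL₂ has trivial Schur multiplier (here the Schur multiplier is described through stem extensions, as in the definitions). -/
theorem result {F : Type*} [Field F] [Fintype F] (h4 : Fintype.card F ≠ 4) (h9 : Fintype.card F ≠ 9) : Cfsg.HasCyclicSchurMultiplier (Matrix.SpecialLinearGroup (Fin 2) F) 1 := by
  rw [← Nat.card_eq_fintype_card] at h4 h9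
  exact Mult.hasCyclicSchurMultiplier_one fun Γ _ _ σ hσ => SL2.ker_eq_bot_of_stem hσ h4 h9

end Cfsg.Agent.S2117
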