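import Cfsg.Statements.S2118
import Cfsg.Agent.Lib.SL2.Mult
import Cfsg.Agent.Lib.SL2.Bruhat

set_option autoImplicit false
open Cfsg

namespace Cfsg.Agent.S2118

set_option backward.isDefEq.respectTransparency false
open Cfsg.Agent.SL2 Matrix
open scoped MatrixGroups commutatorElement

theorem exists_surj {Γ G : Type*} [Group Γ] [Group G] {σ : Γ →* G} {c : Γ} {n : ℕ}
    (h : σ.ker = Subgroup.zpowers c) (hc : c ^ n = 1) :
    ∃ π : Multiplicative (ZMod n) →* σ.ker, Function.Surjective π := by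
  have hc' : c ∈ σ.ker := h ▸ Subgroup.mem_zpowers c
  let f : ZMod n →+ Additive σ.ker := ZMod.lift n ⟨zmultiplesHom _ (Additive.ofMul ⟨c, hc'⟩), by
    rw [zmultiplesHom_apply, natCast_zsmul, ← ofMul_pow]
    exact congrArg Additive.ofMul (Subtype.ext hc)⟩
  refine ⟨AddMonoidHom.toMultiplicativeLeft f, fun z => ?_⟩
  obtain ⟨k, hk⟩ := Subgroup.mem_zpowers_iff.1 (h.le z.2)
  refine ⟨Multiplicative.ofAdd (k : ZMod n), Subtype.ext ?_⟩
  simp [f, hk]

variable {F : Type*} [Field F] [Fintype F]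

theorem charP (hF : Fintype.card F = 9) : CharP F 3 := by
  obtain ⟨p, hp, _⟩ := exists_char (F := F)
  have := Fact.mk hp
  have h := eq_char_of_prime_dvd_card (F := F) p Nat.prime_three
    (by rw [Nat.card_eq_fintype_card, hF]; norm_num)
  subst h
  assumption

theorem exists_closure (hF : Fintype.card F = 9) :
    ∃ i : F, AddSubgroup.closure {1, i} = ⊤ := by
  have := charP hF
  have h1 : Nat.card (AddSubgroup.zmultiples (1 : F)) = 3 := by
    rw [Nat.card_zmultiples, CharP.eq F (CharP.addOrderOf_one F) this]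
  have hne : AddSubgroup.zmultiples (1 : F) ≠ ⊤ := by
    intro h
    rw [h, AddSubgroup.card_top, Nat.card_eq_fintype_card, hF] at h1
    omega
  obtain ⟨i, hi⟩ : ∃ i, i ∉ AddSubgroup.zmultiples (1 : F) := by
    by_contra hn
    push Not at hn
    exact hne (eq_top_iff.2 fun x _ => hn x)
  refine ⟨i, AddSubgroup.eq_top_of_card_eq _ ?_⟩
  have h2 := AddSubgroup.card_addSubgroup_dvd_card (AddSubgroup.closure ({1, i} : Set F))
  have hle : AddSubgroup.zmultiples (1 : F) ≤ AddSubgroup.closure {1, i} := by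
    rw [AddSubgroup.zmultiples_le]
    exact AddSubgroup.subset_closure (by simp)
  have h3 := AddSubgroup.card_dvd_of_le hle
  have h4 : Nat.card (AddSubgroup.closure ({1, i} : Set F)) ≠ 3 := fun h =>
    hi (AddSubgroup.eq_of_le_of_card_ge hle (by rw [h, h1]) ▸
      AddSubgroup.subset_closure (by simp))
  rw [Nat.card_eq_fintype_card (α := F), hF] at h2 ⊢
  rw [h1] at h3
  have := Nat.le_of_dvd (by norm_num) h2
  generalize Nat.card (AddSubgroup.closure ({1, i} : Set F)) = n at *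
  interval_cases n <;> omega

theorem upper (hF : Fintype.card F = 9) {Γ : Type*} [Group Γ] (σ : Γ →* SL(2, F))
    (hσ : IsStemExtension σ) : ∃ π : Multiplicative (ZMod 3) →* σ.ker, Function.Surjective π := by
  have := charP hF
  obtain ⟨i, hi⟩ := exists_closure hF
  have hK : Subgroup.zpowers (upComm hσ.1 1 i) ≤ σ.ker := by
    rw [Subgroup.zpowers_le]; exact upComm_mem _ _ _
  have := Mult.normal_of_le_ker hσ.2.1 hK
  have hσ' := Mult.isStem_quotient hσ _ hK
  have h1 : upComm hσ'.1 1 i = 1 := by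
    rw [upComm_eq hσ'.1 hσ'.2.1 (x := QuotientGroup.mk (Function.surjInv hσ.1 (up 1)))
      (y := QuotientGroup.mk (Function.surjInv hσ.1 (up i))) (Function.surjInv_eq hσ.1 _)
      (Function.surjInv_eq hσ.1 _)]
    exact (QuotientGroup.eq_one_iff (upComm hσ.1 1 i)).2 (Subgroup.mem_zpowers _)
  refine exists_surj (Mult.ker_eq_of_quotient _ hK (ker_eq_bot_of_upComm hσ'
    (upComm_eq_one_of_closure hσ'.1 hσ'.2.1 hi ?_))) ?_
  · rintro t (rfl | rfl) u (rfl | rfl)
    · exact upComm_self _ _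
    · exact h1
    · exact (upComm_inv hσ'.1 _ _).symm.trans (inv_eq_one.2 h1)
    · exact upComm_self _ _
  · have h3 : (1 + 1 + 1 + 1 : F) = 1 := by
      have : (3 : F) = 0 := by exact_mod_cast CharP.cast_eq_zero F 3
      linear_combination this
    have h4 := upComm_add_left hσ.1 hσ.2.1 (1 + 1 + 1) 1 i
    rw [h3, upComm_add_left hσ.1 hσ.2.1, upComm_add_left hσ.1 hσ.2.1, eq_comm, mul_eq_right] at h4
    rw [pow_succ, sq, h4]

/-- The invariant alternating form, as a function of two matrices. -/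
def form (g g' : SL(2, F)) : F :=
  (g.1 0 1 * g.1 0 0) * (g.1 0 0 ^ 2 * (g'.1 0 1 * g'.1 0 0)) ^ 3 -
    (g.1 0 1 * g.1 0 0) ^ 3 * (g.1 0 0 ^ 2 * (g'.1 0 1 * g'.1 0 0))

theorem form_cocycle (hF : Fintype.card F = 9) {x y : SL(2, F)} (hx : x ∈ bor F) (hy : y ∈ bor F)
    (z : SL(2, F)) (hz : z ∈ bor F) :
    form x y + form (x * y) z = form y z + form x (y * z) := by
  have := charP hF
  have h3 : (3 : F) = 0 := by exact_mod_cast CharP.cast_eq_zero F 3
  rw [bor_eq_up_mul_dg (mem_bor_iff.1 hx), bor_eq_up_mul_dg (mem_bor_iff.1 hy),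
    bor_eq_up_mul_dg (mem_bor_iff.1 hz)]
  generalize x.1 0 1 * x.1 0 0 = t
  generalize y.1 0 1 * y.1 0 0 = u
  generalize z.1 0 1 * z.1 0 0 = v
  generalize Units.mk0 (x.1 0 0) _ = a
  generalize Units.mk0 (y.1 0 0) _ = b
  generalize Units.mk0 (z.1 0 0) _ = c
  have e : ∀ (t u : F) (a b : Fˣ), up t * dg a * (up u * dg b) =
      up (t + (a : F) ^ 2 * u) * dg (a * b) := fun t u a b => by
    rw [← up_mul, ← dg_mul_up, ← dg_mul]; group
  have e2 : ∀ (t u : F) (a b : Fˣ), form (up t * dg a) (up u * dg b) =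
      t * ((a : F) ^ 2 * u) ^ 3 - t ^ 3 * ((a : F) ^ 2 * u) := fun t u a b => by
    simp [form]
  have ha : (a : F) ^ 8 = 1 := by
    have := FiniteField.pow_card_sub_one_eq_one (a : F) a.ne_zero
    rwa [hF] at this
  rw [e, e, e2, e2, e2, e2, Units.val_mul]
  linear_combination (u * ((b : F) ^ 2 * v) ^ 3 - u ^ 3 * ((b : F) ^ 2 * v)) * ha +
    (-(t ^ 2 * (a : F) ^ 4 * u * (b : F) ^ 2 * v) - t * (a : F) ^ 6 * u ^ 2 * (b : F) ^ 2 * v * 2 -
      t * (a : F) ^ 6 * u * (b : F) ^ 4 * v ^ 2 + t ^ 2 * (a : F) ^ 4 * u * (b : F) ^ 2 * v * 0) * h3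

theorem exists_stem (hF : Fintype.card F = 9) :
    ∃ C : Mult.Cocycle SL(2, F) (ZMod 3), IsStemExtension C.proj := by
  classical
  have := charP hF
  have h3 : (3 : F) = 0 := by exact_mod_cast CharP.cast_eq_zero F 3
  obtain ⟨i, hi⟩ := (FiniteField.isSquare_neg_one_iff (F := F)).2 (by rw [hF]; norm_num)
  have hi0 : i ≠ 0 := by rintro rfl; simp at hi
  let _ : Algebra (ZMod 3) F := ZMod.algebra F 3
  obtain ⟨φ, hφ⟩ : ∃ φ : Module.Dual (ZMod 3) F, φ i ≠ 0 := by
    by_contra hn
    push Not at hn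
    exact hi0 ((Module.forall_dual_apply_eq_zero_iff (ZMod 3) i).1 hn)
  let e := Equiv.ofBijective _ (bijective_rep_SL (F := F))
  have he : ∀ p, e p = QuotientGroup.mk (rep p) := fun _ => rfl
  have ht : ∀ (g : SL(2, F)) (ω : SL(2, F) ⧸ bor F),
      (rep (e.symm (g • ω)))⁻¹ * g * rep (e.symm ω) ∈ bor F := fun g ω => by
    rw [mul_assoc, ← QuotientGroup.eq, ← he, Equiv.apply_symm_apply, ← smul_eq_mul,
      ← MulAction.Quotient.smul_mk, ← he, Equiv.apply_symm_apply]
  have := Fintype.ofFinite (SL(2, F) ⧸ bor F)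
  let C := Mult.cores (bor F) (fun ω => rep (e.symm ω)) ht (fun g g' => φ (form g g'))
    (fun g _ => by simp [form]) (fun g _ => by simp [form])
    (fun x hx y hy z hz => by rw [← map_add, ← map_add, form_cocycle hF hx hy z hz])
  have hC : ∀ a b : F, C.c (lo a) (lo b) = φ (a * b ^ 3 - a ^ 3 * b) := fun a b => by
    have h1 : ∀ b c : F, lo b • e (some c) = e (some (b + c)) := fun b c => by
      rw [he, he, MulAction.Quotient.smul_mk, smul_eq_mul]
      exact congrArg _ (lo_mul b c)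
    have h2' : ∀ b : F, wt⁻¹ * lo b * wt = up (-b) := fun b => by
      rw [lo_eq]; group
    have h2 : ∀ b : F, lo b • e none = e none := fun b => by
      rw [he, smul_mk_eq_iff]
      change wt⁻¹ * lo b * wt ∈ _
      rw [h2']; exact up_mem_bor _
    change ∑ ω, _ = _
    rw [← e.sum_comp, Fintype.sum_option]
    simp only [h1, h2, Equiv.symm_apply_apply, rep, h2', lo_inv, lo_mul]
    rw [Finset.sum_eq_zero fun c _ => by simp [form], add_zero]
    congr 1
    simp [form]
    ring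
  refine ⟨C, C.isStem ?_⟩
  have hp : Fact (Nat.card (ZMod 3)).Prime := ⟨by rw [Nat.card_zmod]; norm_num⟩
  refine (AddSubgroup.eq_bot_or_eq_top_of_prime_card _).resolve_left fun h => ?_
  have hm : C.c (lo 1) (lo i) - C.c (lo i) (lo 1) ∈ AddSubgroup.closure
      {a | ∃ x y, Commute x y ∧ a = C.c x y - C.c y x} :=
    AddSubgroup.subset_closure ⟨lo 1, lo i, by rw [Commute, SemiconjBy, lo_mul, lo_mul, add_comm],
      rfl⟩
  rw [h, AddSubgroup.mem_bot, hC, hC, ← map_sub, show (1 * i ^ 3 - 1 ^ 3 * i - (i * 1 ^ 3 - i ^ 3 * 1)) =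
    -i by linear_combination (-2 * i) * hi - i * h3, map_neg, neg_eq_zero] at hm
  exact hφ hm

/-- For the field with 9 elements, the special linear group SL₂ has Schur multiplier cyclic of order 3 (here the Schur multiplier is described through stem extensions, as in the definitions). -/
theorem result {F : Type*} [Field F] [Fintype F] (hF : Fintype.card F = 9) : Cfsg.HasCyclicSchurMultiplier (Matrix.SpecialLinearGroup (Fin 2) F) 3 := by
  obtain ⟨C, hC⟩ := exists_stem hF
  exact ⟨⟨C.Ext, inferInstance, inferInstance, C.proj, hC, ⟨C.kerEquiv⟩⟩,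
    fun Γ _ _ σ hσ => upper hF σ hσ⟩

end Cfsg.Agent.S2118
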