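import Cfsg.Statements.S2119
import Cfsg.Agent.Lib.Alt.Nilp3

set_option autoImplicit false
open Cfsg

namespace Cfsg.Agent.S2119

open Cfsg.Agent.Alt Equiv Equiv.Perm

variable {α : Type*} [DecidableEq α]

theorem cases_three (d a b c : α) : d = a ∨ d = b ∨ d = c ∨ (d ≠ a ∧ d ≠ b ∧ d ≠ c) := by tauto

set_option maxHeartbeats 2000000 in
theorem arc_c3 {a b c d e f : α} (ab : a ≠ b) (ac : a ≠ c) (bc : b ≠ c) (de : d ≠ e) (df : d ≠ f)
    (ef : e ≠ f) (h : ∀ w, c3 a b c (c3 d e f (c3 a b c (c3 d e f w))) = w) (w : α)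
    (hw : c3 a b c (c3 d e f w) ≠ w) : ∃ p, c3 a b c p = c3 d e f p ∧ c3 a b c p ≠ p := by
  by_contra h1
  push Not at h1
  have h2 := h1 a
  have h3 := h1 b
  have h4 := h1 c
  have h5 := h d
  have h6 := h e
  have h7 := h f
  clear h h1
  have hd := cases_three d a b c
  have he := cases_three e a b c
  have hf := cases_three f a b c
  simp only [c3, Perm.mul_apply, swap_apply_def] at *
  rcases hd with rfl | rfl | rfl | hd <;> rcases he with rfl | rfl | rfl | he <;>
    rcases hf with rfl | rfl | rfl | hf <;> grind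

variable [Fintype α]

theorem arc {x y : Perm α} (hx : x.IsThreeCycle) (hy : y.IsThreeCycle) (h : (x * y) ^ 2 = 1)
    (h1 : x * y ≠ 1) : ∃ p, x p = y p ∧ x p ≠ p := by
  obtain ⟨a, b, c, ab, ac, bc, rfl⟩ := IsThreeCycle.exists_c3 hx
  obtain ⟨d, e, f, de, df, ef, rfl⟩ := IsThreeCycle.exists_c3 hy
  obtain ⟨w, hw⟩ := DFunLike.ne_iff.1 h1
  exact arc_c3 ab ac bc de df ef (fun w => by simpa [sq] using DFunLike.congr_fun h w) w hw

theorem arc_three {x y z : Perm α} (hx : x.IsThreeCycle) (hy : y.IsThreeCycle)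
    (hz : z.IsThreeCycle) (xy : x ≠ y) {p r s : α} (h1 : x p = y p) (h2 : x p ≠ p) (h3 : z r = x r)
    (h4 : z r ≠ r) (h5 : z s = y s) (h6 : z s ≠ s) : z p = x p := by
  obtain ⟨a1, a2, a3, a4⟩ := exists_eq_c3 hx h2
  obtain ⟨b1, b2, b3, b4⟩ := exists_eq_c3 hy (h1 ▸ h2)
  obtain ⟨c1, c2, c3', c4⟩ := exists_eq_c3 hz h4
  have x3 : x (x (x p)) = p := by nth_rewrite 1 [a4]; exact c3_apply_right a2 a3
  have y3 : y (y (y p)) = p := by nth_rewrite 1 [b4]; exact c3_apply_right b2 b3
  have z3 : z (z (z r)) = r := by nth_rewrite 1 [c4]; exact c3_apply_right c2 c3'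
  have x4 : r = p ∨ r = x p ∨ r = x (x p) := by
    by_contra h7
    push Not at h7
    exact h4 (h3.trans (a4 ▸ c3_apply_of_ne h7.1 h7.2.1 h7.2.2))
  have y4 : s = p ∨ s = y p ∨ s = y (y p) := by
    by_contra h7
    push Not at h7
    exact h6 (h5.trans (b4 ▸ c3_apply_of_ne h7.1 h7.2.1 h7.2.2))
  have z4 : s = r ∨ s = z r ∨ s = z (z r) := by
    by_contra h7
    push Not at h7
    exact h6 (c4 ▸ c3_apply_of_ne h7.1 h7.2.1 h7.2.2)
  have h7 : x (x p) ≠ y (y p) := fun h8 => xy (by rw [a4, b4, h8, h1])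
  clear a4 b4 c4
  grind

theorem fact_ineq (k : ℕ) : 2 * 3 ^ (k + 2) * (k + 3).factorial < (3 * (k + 2)).factorial := by
  induction k with
  | zero => decide
  | succ k ih =>
    rw [show 3 * (k + 1 + 2) = 3 * (k + 2) + 1 + 1 + 1 by ring,
      Nat.factorial_succ (3 * (k + 2) + 1 + 1), Nat.factorial_succ (3 * (k + 2) + 1), Nat.factorial_succ (3 * (k + 2)),
      show k + 1 + 3 = k + 3 + 1 by ring, Nat.factorial_succ (k + 3),
      show k + 1 + 2 = k + 2 + 1 by ring, pow_succ 3]
    have h1 : 3 * (k + 3 + 1) ≤ (3 * (k + 2) + 1 + 1 + 1) * ((3 * (k + 2) + 1 + 1) *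
        (3 * (k + 2) + 1)) := by
      have h2 : 1 * 2 ≤ (3 * (k + 2) + 1 + 1) * (3 * (k + 2) + 1) :=
        Nat.mul_le_mul (by omega) (by omega)
      exact le_trans (by omega) (Nat.mul_le_mul_left _ h2)
    calc _ = 3 * (k + 3 + 1) * (2 * 3 ^ (k + 2) * (k + 3).factorial) := by ring
      _ < 3 * (k + 3 + 1) * (3 * (k + 2)).factorial :=
        Nat.mul_lt_mul_of_pos_left ih (by positivity)
      _ ≤ _ := by
        rw [← mul_assoc, ← mul_assoc, mul_assoc (3 * (k + 2) + 1 + 1 + 1)]
        exact Nat.mul_le_mul_right _ h1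

theorem cent_lt {n k : ℕ} (h6 : n ≠ 6) (h : (k + 2) * 3 ≤ n) :
    2 * ((n - (k + 2) * 3).factorial * 3 ^ (k + 2) * (k + 2).factorial) < (n - 3).factorial * 3 := by
  obtain ⟨m, rfl⟩ := Nat.exists_eq_add_of_le' h
  rw [Nat.add_sub_cancel]
  have h0 := m.factorial_pos
  rcases k with _ | k
  · have h1 : 1 ≤ m := by omega
    rw [show m + (0 + 2) * 3 - 3 = m + 1 + 1 + 1 by omega, Nat.factorial_succ (m + 1 + 1),
      Nat.factorial_succ (m + 1), Nat.factorial_succ m]
    have h2 : 24 ≤ (m + 1 + 1 + 1) * ((m + 1 + 1) * (m + 1)) :=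
      Nat.mul_le_mul (show 4 ≤ _ by omega) (Nat.mul_le_mul (show 3 ≤ _ by omega) (show 2 ≤ _ by omega))
    have h3 := Nat.mul_le_mul_right m.factorial h2
    simp only [mul_assoc] at h3
    rw [show Nat.factorial (0 + 2) = 2 from rfl]
    omega
  · rw [show m + (k + 1 + 2) * 3 - 3 = m + 3 * (k + 2) by omega]
    have h1 := Nat.le_of_dvd (Nat.factorial_pos _)
      (Nat.factorial_mul_factorial_dvd_factorial_add m (3 * (k + 2)))
    have h2 := Nat.mul_lt_mul_of_pos_left (fact_ineq k) h0
    calc _ = m.factorial * (2 * 3 ^ (k + 2) * (k + 3).factorial) * 3 := by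
          rw [show k + 1 + 2 = k + 3 from rfl]; ring
      _ < _ := Nat.mul_lt_mul_of_pos_right (h2.trans_le h1) (by norm_num)

theorem cent_eq (z : alternatingGroup α) :
    Subgroup.centralizer ({z} : Set (alternatingGroup α)) =
      (Subgroup.centralizer ({z.1} : Set (Perm α))).subgroupOf (alternatingGroup α) := by
  ext x
  simp only [Subgroup.mem_subgroupOf, Subgroup.mem_centralizer_singleton_iff, Subtype.ext_iff,
    Subgroup.coe_mul]

theorem isThreeCycle_aut (h6 : Fintype.card α ≠ 6) (φ : MulAut (alternatingGroup α))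
    {t : alternatingGroup α} (ht : t.1.IsThreeCycle) : (φ t).1.IsThreeCycle := by
  have h1 : orderOf (φ t).1 = 3 := by
    rw [Subgroup.orderOf_coe, MulEquiv.orderOf_eq, ← Subgroup.orderOf_coe, ht.orderOf]
  obtain ⟨k, hk⟩ := cycleType_prime_order (h1 ▸ Nat.prime_three)
  rw [h1] at hk
  rcases k with _ | k
  · exact hk
  exfalso
  have h2 := (φ t).1.sum_cycleType_le
  rw [hk, Multiset.sum_replicate, smul_eq_mul] at h2
  have h3 := cent_lt h6 h2
  rw [← card_centralizer_replicate hk, ← card_centralizer_threeCycle ht] at h3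
  have h4 : Nat.card (Subgroup.centralizer ({φ t} : Set (alternatingGroup α))) =
      Nat.card (Subgroup.centralizer ({t} : Set (alternatingGroup α))) := by
    refine Nat.card_congr (Equiv.subtypeEquiv φ.toEquiv fun x => ?_).symm
    simp only [Subgroup.mem_centralizer_singleton_iff, MulEquiv.toEquiv_eq_coe, EquivLike.coe_coe,
      ← map_mul, φ.apply_eq_iff_eq]
  have h5 : Nat.card (Subgroup.centralizer ({φ t} : Set (alternatingGroup α))) ≤
      Nat.card (Subgroup.centralizer ({(φ t).1} : Set (Perm α))) := by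
    rw [cent_eq, ← Subgroup.card_map_of_injective (alternatingGroup α).subtype_injective,
      Subgroup.subgroupOf_map_subtype]
    exact Subgroup.card_le_of_le inf_le_left
  have h7 : Nat.card (Subgroup.centralizer ({t.1} : Set (Perm α))) ≤
      2 * Nat.card (Subgroup.centralizer ({t} : Set (alternatingGroup α))) := by
    have : Nontrivial α := Fintype.one_lt_card_iff_nontrivial.1 (by omega)
    rw [cent_eq, ← Subgroup.card_map_of_injective (alternatingGroup α).subtype_injective,
      Subgroup.subgroupOf_map_subtype]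
    set C := Subgroup.centralizer ({t.1} : Set (Perm α))
    rw [← Nat.card_congr (Subgroup.subgroupOfEquivOfLe
      (inf_le_left : C ⊓ alternatingGroup α ≤ C)).toEquiv,
      ← ((C ⊓ alternatingGroup α).subgroupOf C).index_mul_card]
    refine Nat.mul_le_mul_right _ (Nat.le_of_dvd two_pos ?_)
    change (C ⊓ alternatingGroup α).relIndex C ∣ 2
    rw [Subgroup.inf_relIndex_left, ← alternatingGroup.index_eq_two (α := α)]
    exact Subgroup.relIndex_dvd_index_of_normal _ _
  omega

theorem exists_two_ne (h4 : 4 ≤ Fintype.card α) (u v : α) :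
    ∃ i j, i ≠ j ∧ i ≠ u ∧ i ≠ v ∧ j ≠ u ∧ j ≠ v := by
  obtain ⟨i, hi, j, hj, ij⟩ := Finset.one_lt_card.1 (show 1 < ({u, v}ᶜ : Finset α).card by
    have := Finset.card_le_two (a := u) (b := v)
    rw [Finset.card_compl]; omega)
  simp only [Finset.mem_compl, Finset.mem_insert, Finset.mem_singleton, not_or] at hi hj
  exact ⟨i, j, ij, hi.1, hi.2, hj.1, hj.2⟩

theorem inj (h4 : 4 ≤ Fintype.card α) :
    Function.Injective (MulAut.conjNormal : Perm α →* MulAut (alternatingGroup α)) := by
  rw [injective_iff_map_eq_one]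
  intro g hg
  ext a
  by_contra ha
  replace ha : g a ≠ a := ha
  obtain ⟨b, c, bc, ba, bg, ca, cg⟩ := exists_two_ne h4 a (g a)
  have h1 := conjNormal_t3 g a b c
  rw [hg, MulAut.one_apply] at h1
  have h2 := congrArg (fun x : alternatingGroup α => x.1 (g a)) h1
  simp only [coe_t3 ba.symm ca.symm bc, coe_t3 (g.injective.ne ba.symm) (g.injective.ne ca.symm)
    (g.injective.ne bc)] at h2
  rw [c3_apply_of_ne ha bg.symm cg.symm,
    c3_apply_left (g.injective.ne ba.symm) (g.injective.ne bc)] at h2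
  exact ba (g.injective h2).symm

theorem surj (h4 : 4 ≤ Fintype.card α) (h6 : Fintype.card α ≠ 6) :
    Function.Surjective (MulAut.conjNormal : Perm α →* MulAut (alternatingGroup α)) := by
  intro φ
  obtain ⟨u, v, uv⟩ := Fintype.exists_pair_of_one_lt_card (α := α) (by omega)
  obtain ⟨i, j, ij, iu, iv, ju, jv⟩ := exists_two_ne h4 u v
  set x : α → Perm α := fun k => (φ (t3 k u v)).1 with hx
  have x3 : ∀ k, k ≠ u → k ≠ v → (x k).IsThreeCycle := fun k ku kv =>
    isThreeCycle_aut h6 φ (by rw [coe_t3 ku kv uv]; exact c3_isThreeCycle ku kv uv)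
  have xne : ∀ k l, k ≠ u → k ≠ v → l ≠ u → l ≠ v → x k = x l → k = l := by
    intro k l ku kv lu lv h
    have h1 := congrArg (fun y : alternatingGroup α => y.1 v) (φ.injective (Subtype.ext h))
    simpa only [coe_t3 ku kv uv, coe_t3 lu lv uv, c3_apply_right kv uv, c3_apply_right lv uv]
      using h1
  have xarc : ∀ k l, k ≠ u → k ≠ v → l ≠ u → l ≠ v → k ≠ l → ∃ p, x k p = x l p ∧ x k p ≠ p := by
    intro k l ku kv lu lv kl
    refine arc (x3 k ku kv) (x3 l lu lv) ?_ fun h => ?_
    · have h1 := congrArg (fun y => (φ y).1) (t3_mul_sq kl ku kv lu lv uv)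
      simpa using h1
    · have h1 : φ (t3 k u v * t3 l u v) = φ 1 := by
        rw [map_one, map_mul]; exact Subtype.ext h
      have h2 := congrArg (fun y : alternatingGroup α => y.1 k) (φ.injective h1)
      simp only [Subgroup.coe_mul, coe_t3 ku kv uv, coe_t3 lu lv uv, Perm.mul_apply,
        c3_apply_of_ne kl ku kv, c3_apply_left ku uv] at h2
      exact ku h2.symm
  obtain ⟨p, hp, hp'⟩ := xarc i j iu iv ju jv ij
  have xp : ∀ k, k ≠ u → k ≠ v → x k p = x i p := by
    intro k ku kv
    by_cases ki : k = i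
    · rw [ki]
    by_cases kj : k = j
    · rw [kj, hp]
    obtain ⟨r, r1, r2⟩ := xarc k i ku kv iu iv ki
    obtain ⟨s, s1, s2⟩ := xarc k j ku kv ju jv kj
    exact arc_three (x3 i iu iv) (x3 j ju jv) (x3 k ku kv) (fun h => ij (xne _ _ iu iv ju jv h))
      hp hp' r1 r2 s1 s2
  have xc : ∀ k, k ≠ u → k ≠ v → p ≠ x k (x i p) ∧ x i p ≠ x k (x i p) ∧
      x k = c3 (x k (x i p)) p (x i p) := by
    intro k ku kv
    obtain ⟨a1, a2, a3, a4⟩ := exists_eq_c3 (x3 k ku kv) (a := p) (by rw [xp k ku kv]; exact hp')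
    rw [xp k ku kv] at a1 a2 a3 a4
    exact ⟨a2, a3, a4.trans (c3_rotate a2.symm a3.symm a1).symm⟩
  let f : α → α := fun k => if k = u then p else if k = v then x i p else x k (x i p)
  have hf : Function.Injective f := by
    intro k l h
    have h1 := xc k
    have h2 := xc l
    have h3 := xne k l
    simp only [f] at h
    grind
  let g : Perm α := Equiv.ofBijective f (Finite.injective_iff_bijective.1 hf)
  refine ⟨g, MulEquiv.toMonoidHom_injective
    (MonoidHom.eq_of_eqOn_dense (closure_star_t3 uv) ?_)⟩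
  rintro _ ⟨⟨k, ku, kv⟩, rfl⟩
  change MulAut.conjNormal g (t3 k u v) = φ (t3 k u v)
  obtain ⟨a1, a2, a3⟩ := xc k ku kv
  have g1 : g k = x k (x i p) := by simp [g, f, ku, kv]
  have g2 : g u = p := by simp [g, f]
  have g3 : g v = x i p := by simp [g, f, uv.symm]
  rw [conjNormal_t3, g1, g2, g3]
  exact Subtype.ext ((coe_t3 a1.symm a2.symm hp'.symm).trans a3.symm)

/-- Automorphisms of the alternating groups: for n ≥ 4 with n ≠ 6, every automorphism of the alternating group of degree n is conjugation by a unique permutation, i.e. conjugation induces an isomorphism from the symmetric group of degree n onto the automorphism group of the alternating group (so the outer automorphism group has order 2). -/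
theorem result (n : ℕ) (hn : 4 ≤ n) (h6 : n ≠ 6) : Function.Bijective (MulAut.conjNormal : Equiv.Perm (Fin n) →* MulAut ↥(alternatingGroup (Fin n))) := by
  exact ⟨inj (by simpa using hn), surj (by simpa using hn) (by simpa using h6)⟩

end Cfsg.Agent.S2119
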