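import Cfsg.Statements.S2121
import Cfsg.Agent.Lib.Chev.AutC

set_option autoImplicit false
open Cfsg

namespace Cfsg.Agent.S2121

open Cfsg.Agent.ChevM Cfsg.Agent.Chev

/-- Outer automorphisms of the Chevalley groups of type G₂: over a field with q = p^f (p prime) ≥ 3 elements, the outer automorphism group of G₂(q) has order f when p ≠ 3 and 2f when p = 3 (field automorphisms, and in characteristic 3 also the exceptional graph automorphism). -/
theorem result {F : Type*} [Field F] [Fintype F] (p f : ℕ) [Fact p.Prime] [CharP F p] (hF : Fintype.card F = p ^ f) (hq : 3 ≤ p ^ f) : Nat.card (Cfsg.Out ↥(Cfsg.Lie.chevG2.group F)) = (if p = 3 then 2 * f else f) := by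
  rw [card_Out, card_ker_cm center_G2, card_ringEquiv_of F p f (by rw [Nat.card_eq_fintype_card, hF]), Nat.gcd_one_left,
    one_mul]
  split_ifs with h
  · subst h
    rw [card_adm_of (fun h => ?_) fun _ => inferInstance]
    · exact congrArg (· * f) (by decide +kernel)
    · simp only [List.mem_cons, List.not_mem_nil, or_false] at h
      rcases h with h | h <;> exact absurd (congrArg (·.nroots) h) (by decide +kernel)
  · rw [card_adm_one, one_mul]
    exact fun π ⟨h1, γ, h2⟩ => (sym_G2 h1).resolve_right fun h3 => h <| (Nat.prime_dvd_prime_iff_eq Fact.out Nat.prime_three).mp ((CharP.cast_eq_zero_iff F p 3).mp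
      (by exact_mod_cast (graphFor_iff.mp h2).char_G2 h3))

end Cfsg.Agent.S2121
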