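import Cfsg.Statements.S2122
import Cfsg.Agent.Lib.Chev.AutC

set_option autoImplicit false
open Cfsg

namespace Cfsg.Agent.S2122

open Cfsg.Agent.ChevM Cfsg.Agent.Chev

/-- Outer automorphisms of the Chevalley groups of type F₄: over a field with q = p^f (p prime) elements, the outer automorphism group of F₄(q) has order gcd(2, p) · f (field automorphisms, and in characteristic 2 also the exceptional graph automorphism). -/
theorem result {F : Type*} [Field F] [Fintype F] (p f : ℕ) [Fact p.Prime] [CharP F p] (hF : Fintype.card F = p ^ f) : Nat.card (Cfsg.Out ↥(Cfsg.Lie.chevF4.group F)) = Nat.gcd 2 p * f := by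
  rw [card_Out, card_ker_cm center_F4, card_ringEquiv_of F p f (by rw [Nat.card_eq_fintype_card, hF]), Nat.gcd_one_left,
    one_mul]
  by_cases h : p = 2
  · subst h
    rw [card_adm_of (fun _ => inferInstance) fun h => absurd (congrArg (·.nroots) h) (by decide +kernel)]
    exact congrArg (· * f) (by decide +kernel)
  · rw [card_adm_one, (Nat.coprime_primes Nat.prime_two Fact.out).mpr (Ne.symm h)]
    exact fun π ⟨h1, γ, h2⟩ => by_contra fun h3 => h <| (Nat.prime_dvd_prime_iff_eq Fact.out Nat.prime_two).mp ((CharP.cast_eq_zero_iff F p 2).mp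
      (by exact_mod_cast (graphFor_iff.mp h2).char_two h1 (by simp) h3))

end Cfsg.Agent.S2122
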