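import Cfsg.Statements.S2130
import Cfsg.Agent.Lib.Tw.OutC

set_option autoImplicit false
open Cfsg

namespace Cfsg.Agent.S2130

/-- Outer automorphisms of the twisted groups of type ²E₆: for q = p^f (p prime), with the group realised over the field with q² elements, the outer automorphism group of ²E₆(q) has order 2 · gcd(3, q + 1) · f (diagonal automorphisms and the field automorphisms of the quadratic extension). -/
theorem result {K : Type*} [Field K] [Fintype K] (p f : ℕ) [Fact p.Prime] [CharP K p] (hK : Fintype.card K = p ^ (2 * f)) (hf : 1 ≤ f) : Nat.card (Cfsg.Out ↥(Cfsg.Lie.twistedE6 K (p ^ f))) = 2 * Nat.gcd 3 (p ^ f + 1) * f := by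
  exact Cfsg.Agent.Chev.card_Out_twistedE6 p f hK hf

end Cfsg.Agent.S2130
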