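import Cfsg.Statements.S2131
import Cfsg.Agent.Lib.Id.J1
import Cfsg.Agent.Lib.Id.Cent4
import Cfsg.Agent.Lib.Grp.J1.Out
import Cfsg.Agent.Lib.Grp.A5.Main

set_option autoImplicit false
open Cfsg

namespace Cfsg.Agent.S2131

set_option maxRecDepth 100000
set_option Elab.async false

open Cfsg.Agent.CG Cfsg.Agent.Id

/-- The centraliser in the table group. -/
noncomputable abbrev C : Subgroup J1.PG := Subgroup.centralizer {J1.act.gen 11}

theorem card_C_le : Nat.card C ≤ 120 :=
  card_cent_le (A := J1.act) (E := J1.en) J1.enumOK J1.hinv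
    (okc_of_okcb (n := 266) (w := 12) (by decide +kernel)) (by norm_num) (by rw [J1.card])

theorem ord_t : orderOf (J1.act.gen 11) = 2 :=
  orderOf_gen_two J1.base (by decide +kernel) (by decide +kernel)

/-- The involution in its centraliser. -/
noncomputable def t : C := ⟨J1.act.gen 11, Subgroup.mem_centralizer_singleton_iff.2 rfl⟩

theorem prod_cc : prodN J1.cc = 120 := by decide +kernel

theorem eqA : A5.PG = alternatingGroup (Fin 5) := eq_alternatingGroup (by rw [A5.card]; rfl)

theorem t_mem : t ∈ Subgroup.center C :=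
  Subgroup.mem_center_iff.2 fun g => Subtype.ext (Subgroup.mem_centralizer_singleton_iff.1 g.2)

theorem ord_t' : orderOf t = 2 := (Subgroup.orderOf_coe t).symm.trans ord_t

instance normal_t : (Subgroup.zpowers t).Normal := normal_zpowers_of_center t_mem

theorem compl : ∃ M : Subgroup C, (Subgroup.zpowers t).IsComplement' M ∧ Nonempty (M ≃* A5.PG) := by
  obtain ⟨e, he⟩ := exists_equiv_quot_of_bounds J1.base A5.bounds A5.rels A5.clS A5.card
    (Q := Subgroup.zpowers t) (ZW := [[], [11]])
    (List.forall_mem_cons.2 ⟨one_mem _, List.forall_mem_cons.2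
      ⟨⟨t, Subgroup.mem_zpowers t, (ev_singleton J1.act.gen 11).symm⟩, by simp⟩⟩)
    (I := [[], [], [], [], [], [], [], [], [], [], [], [], [], [], [], [38, 40, 40, 38], [39, 41, 41, 39], [40, 39, 40, 38, 40], [40, 38, 40, 40, 38, 38, 38]])
    (nth_mem_cent J1.base (by decide +kernel)) (by decide +kernel) J1.chainC
    (V := [(38, [18, 15, 17, 16]), (39, [15, 17, 18, 15]), (40, [17, 18, 16, 17, 16]), (41, [15, 17, 18, 16, 17])])
    (by decide +kernel) (by decide +kernel) (by decide +kernel) (card_C_le.trans prod_cc.ge)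
    (by rw [Nat.card_zpowers, ord_t']; exact prod_cc.ge.trans J1.cent_le)
  exact exists_complement_of_bounds J1.base A5.bounds A5.rels A5.clS A5.card (by decide +kernel) he

/-- The Janko group J₁ (the group generated by two explicit 7 × 7 matrices over the integers modulo 11) has an involution whose centraliser is isomorphic to the direct product of a group of order 2 with the alternating group of degree 5. -/
theorem result : ∃ t : ↥Cfsg.Spor.J1, orderOf t = 2 ∧ Nonempty (↥(Subgroup.centralizer ({t} : Set ↥Cfsg.Spor.J1)) ≃* Multiplicative (ZMod 2) × ↥(alternatingGroup (Fin 5))) := by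
  obtain ⟨φ⟩ := Id.J1.iso
  obtain ⟨M, h, ⟨e⟩⟩ := compl
  obtain ⟨f⟩ := equiv_prod_of_complement ord_t' t_mem h
  exact ⟨φ.symm (J1.act.gen 11), by rw [MulEquiv.orderOf_eq, ord_t], ⟨(centEquiv φ.symm _).symm.trans
    (f.trans ((MulEquiv.refl _).prodCongr (e.trans (MulEquiv.subgroupCongr eqA))))⟩⟩

end Cfsg.Agent.S2131
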