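import Cfsg.Statements.S2140
import Cfsg.Agent.Lib.SLn.MinIndexMain

set_option autoImplicit false
open Cfsg

namespace Cfsg.Agent.S2140

/-- Minimal index of a proper subgroup of the linear groups: for n ≥ 3 and a field F with q elements, (n, q) ≠ (4, 2), every proper subgroup of PSL_n(F) has index at least (q^n − 1)/(q − 1), and some subgroup has exactly that index (the stabiliser of a point of the projective space). -/
theorem result {F : Type*} [Field F] [Fintype F] {q : ℕ} (hF : Fintype.card F = q) (n : ℕ) (hn : 3 ≤ n) (hexc : ¬ (n = 4 ∧ q = 2)) : (∀ H : Subgroup (Matrix.ProjectiveSpecialLinearGroup (Fin n) F), H ≠ ⊤ → (q ^ n - 1) / (q - 1) ≤ H.index) ∧ (∃ H : Subgroup (Matrix.ProjectiveSpecialLinearGroup (Fin n) F), H.index = (q ^ n - 1) / (q - 1)) := by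
  have hq : Nat.card F = q := by rw [Nat.card_eq_fintype_card, hF]
  constructor
  · intro H hH
    have hs := QuotientGroup.mk'_surjective
      (Subgroup.center (Matrix.SpecialLinearGroup (Fin n) F))
    have hidx := H.index_comap_of_surjective hs
    have h := SLn.le_index_of_ne_top (ι := Fin n) (F := F) (by simpa using hn)
      (by rw [hq, Fintype.card_fin]; exact hexc) (H.comap (QuotientGroup.mk' _)) (by
        rw [Ne, ← Subgroup.index_eq_one, hidx, Subgroup.index_eq_one]; exact hH)
    rwa [hidx, hq, Fintype.card_fin] at h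
  · have : Nonempty (Fin n) := ⟨⟨0, by omega⟩⟩
    obtain ⟨x⟩ : Nonempty (Projectivization F (Fin n → F)) := inferInstance
    refine ⟨MulAction.stabilizer _ x, ?_⟩
    rw [MulAction.index_stabilizer_of_transitive, Projectivization.card'', Nat.card_fun, hq,
      Nat.card_fin]

end Cfsg.Agent.S2140
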