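import Cfsg.Statements.S2141
import Cfsg.Agent.Lib.MI.P4

set_option autoImplicit false
open Cfsg
open Module Cfsg.Agent.Forms Cfsg.Agent.MI

namespace Cfsg.Agent.S2141

/-- Minimal index of a proper subgroup of the symplectic groups over fields with at least 3 elements: for m ≥ 2 and a field F with q ≥ 3 elements, (m, q) ≠ (2, 3), every proper subgroup of PSp_2m(F) has index at least (q^(2m) − 1)/(q − 1), and that index is attained. -/
theorem result {F : Type*} [Field F] [Fintype F] {q : ℕ} (hF : Fintype.card F = q) (m : ℕ) (hm : 2 ≤ m) (hq : 3 ≤ q) (hexc : ¬ (m = 2 ∧ q = 3)) : (∀ H : Subgroup (Cfsg.PSp m F), H ≠ ⊤ → (q ^ (2 * m) - 1) / (q - 1) ≤ H.index) ∧ (∃ H : Subgroup (Cfsg.PSp m F), H.index = (q ^ (2 * m) - 1) / (q - 1)) := by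
  have hf := spForm_nondeg (F := F) m
  have hV : finrank F (Fin m ⊕ Fin m → F) = 2 * m := finrank_plus _
  have hq' : Nat.card F = q := by rw [Nat.card_eq_fintype_card, hF]
  have hN : Nat.card (Fin m ⊕ Fin m → F) = q ^ (2 * m) := by
    rw [Module.natCard_eq_pow_finrank (K := F), hV, hq']
  have : Nontrivial (Fin m ⊕ Fin m → F) := (finrank_pos_iff (R := F)).1 (by omega)
  obtain ⟨u, hu⟩ := exists_ne (0 : Fin m ⊕ Fin m → F)
  obtain ⟨H, h1, h3⟩ := exists_index_sing hf sp_big (by omega) (G := ⊤) (fun _ _ => trivial)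
    (Form.sp_Q _ u) hu
  have h2 := card_sing_sp (f := spForm m F)
  rw [← h3, hN, hq'] at h2
  have h4 : (q ^ (2 * m) - 1) / (q - 1) = H.index :=
    Nat.div_eq_of_eq_mul_left (by omega) (by omega)
  rw [h4]
  refine min_index_quot ((spEquiv m F).trans Subgroup.topEquiv.symm) (fun K hK => ?_) ⟨H, h1, rfl⟩
  obtain ⟨Y, S, e⟩ := exists_sys hf sp_big (G := ⊤) (fun _ _ => trivial) (sp_gen hf) K hK
  have := S.sp_le (by omega) (by omega) (by omega)
  rw [e, hN, hq', ← h2] at this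
  obtain ⟨r, rfl⟩ : ∃ r, q = r + 1 := ⟨q - 1, by omega⟩
  refine Nat.le_of_mul_le_mul_right (c := r) ?_ (by omega)
  rw [Nat.add_sub_cancel] at this
  linarith

end Cfsg.Agent.S2141
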