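import Cfsg.Statements.S2142
import Cfsg.Agent.Lib.MI.P5

set_option autoImplicit false
open Cfsg
open Module Cfsg.Agent.Forms Cfsg.Agent.MI

namespace Cfsg.Agent.S2142

/-- Minimal index of a proper subgroup of the symplectic groups over the field with 2 elements: for m ≥ 3, every proper subgroup of Sp_2m(2) has index at least 2^(m−1)(2^m − 1), and that index is attained. -/
theorem result {F : Type*} [Field F] [Fintype F] (hF : Fintype.card F = 2) (m : ℕ) (hm : 3 ≤ m) : (∀ H : Subgroup (Cfsg.PSp m F), H ≠ ⊤ → 2 ^ (m - 1) * (2 ^ m - 1) ≤ H.index) ∧ (∃ H : Subgroup (Cfsg.PSp m F), H.index = 2 ^ (m - 1) * (2 ^ m - 1)) := by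
  obtain ⟨j, rfl⟩ : ∃ j, m = j + 2 := ⟨m - 2, by omega⟩
  rw [show j + 2 - 1 = j + 1 from rfl]
  have hf := spForm_nondeg (F := F) (j + 2)
  have hV : finrank F (Fin (j + 2) ⊕ Fin (j + 2) → F) = 2 * (j + 2) := finrank_plus _
  have hq : Nat.card F = 2 := by rw [Nat.card_eq_fintype_card, hF]
  obtain ⟨H, h1, h3⟩ := sp_index_two hq hf hV (φ := fun v => ∑ i, v (.inl i) * v (.inr i))
    fun v w => by
      rw [spForm_B', ← Finset.sum_add_distrib, ← Finset.sum_add_distrib]
      refine Finset.sum_congr rfl fun i _ => ?_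
      simp only [Pi.add_apply]
      linear_combination w (.inl i) * v (.inr i) * two_eq_zero_of_card hq
  have h4 : 2 ^ (j + 1) * (2 ^ (j + 2) - 1) = H.index := by
    zify [show 1 ≤ 2 ^ (j + 2) from Nat.one_le_pow _ _ (by omega)]
    exact h3.symm
  rw [h4]
  refine min_index_quot (spEquiv (j + 2) F) (fun K hK => ?_) ⟨H, h1, rfl⟩
  obtain ⟨Y, S, e⟩ := exists_sys hf sp_big (G := ⊤) (fun _ _ => trivial) (sp_gen hf)
    (K.comap (Subgroup.subtype ⊤)) fun h => hK (eq_top_iff.2 fun g _ => h.ge (x := ⟨g, trivial⟩) trivial)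
  have := S.sp_two_le hq (j := j + 1) (by omega) (by omega)
  rw [e, Subgroup.index_comap_of_surjective _ fun g => ⟨⟨g, trivial⟩, rfl⟩, ← h3] at this
  exact_mod_cast this

end Cfsg.Agent.S2142
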