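import Cfsg.Statements.S2151
import Cfsg.Agent.Lib.MI.U5

set_option autoImplicit false
open Cfsg
open Module Cfsg.Agent.Forms Cfsg.Agent.MI

namespace Cfsg.Agent.S2151

/-- Minimal index of a proper subgroup of the unitary groups of odd dimension n ≥ 5: for a field F with q² elements, every proper subgroup of PSU_n(q) has index at least (q^n + 1)(q^(n−1) − 1)/(q² − 1), and that index is attained. -/
theorem result {F : Type*} [Field F] [Fintype F] (q : ℕ) (hF : Fintype.card F = q ^ 2) (hq : 2 ≤ q) (n : ℕ) (hn : 5 ≤ n) (hodd : Odd n) : (∀ H : Subgroup (Cfsg.PSU n F q), H ≠ ⊤ → (q ^ n + 1) * (q ^ (n - 1) - 1) / (q ^ 2 - 1) ≤ H.index) ∧ (∃ H : Subgroup (Cfsg.PSU n F q), H.index = (q ^ n + 1) * (q ^ (n - 1) - 1) / (q ^ 2 - 1)) := by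
  obtain ⟨k, rfl⟩ : ∃ k, n = k + 2 := ⟨n - 2, by omega⟩
  have hk : Odd k := by simpa [Nat.odd_add] using hodd
  have hV : finrank F (Fin (k + 2) → F) = k + 2 := by simp
  obtain ⟨H, h1, h2⟩ := su_index_sing (uForm_nondeg (k + 2) hF) hV (by omega)
  have h3 : 1 ≤ q ^ 2 := by nlinarith
  have h4 : (q ^ (k + 2) + 1) * (q ^ (k + 2 - 1) - 1) / (q ^ 2 - 1) = H.index := by
    refine Nat.div_eq_of_eq_mul_left (by simp; nlinarith) ?_
    zify [h3, show 1 ≤ q ^ (k + 2 - 1) from Nat.one_le_pow _ _ (by omega)]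
    rw [h2, hk.neg_one_pow, show k + 2 - 1 = k + 1 from rfl]; ring
  rw [h4]
  exact min_index_quot (suEquiv (k + 2) hF) (su_index_ge (uForm_nondeg (k + 2) hF) hV (by omega)
    (by rw [← h2, mul_comm]) fun _ h => absurd h (Nat.not_even_iff_odd.2 hk)) ⟨H, h1, rfl⟩

end Cfsg.Agent.S2151
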