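import Cfsg.Statements.S2153
import Cfsg.Agent.Lib.MI.U5

set_option autoImplicit false
open Cfsg
open Module Cfsg.Agent.Forms Cfsg.Agent.MI

namespace Cfsg.Agent.S2153

/-- Minimal index of a proper subgroup of the unitary groups PSU_n(2) with n divisible by 6, realised over the field with 4 elements: every proper subgroup has index at least 2^(n−1)(2^n − 1)/3, and that index is attained. -/
theorem result {F : Type*} [Field F] [Fintype F] (hF : Fintype.card F = 4) (n : ℕ) (hn : 6 ∣ n) (hpos : 6 ≤ n) : (∀ H : Subgroup (Cfsg.PSU n F 2), H ≠ ⊤ → 2 ^ (n - 1) * (2 ^ n - 1) / 3 ≤ H.index) ∧ (∃ H : Subgroup (Cfsg.PSU n F 2), H.index = 2 ^ (n - 1) * (2 ^ n - 1) / 3) := by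
  have hF' : Fintype.card F = 2 ^ 2 := hF
  obtain ⟨k, rfl⟩ : ∃ k, n = k + 2 := ⟨n - 2, by omega⟩
  have hk : Even k := Nat.even_iff.2 (by omega)
  have hV : finrank F (Fin (k + 2) → F) = k + 2 := by simp
  obtain ⟨H, h1, h2⟩ := su_index_aniso (uForm_nondeg (k + 2) hF') hV (by omega)
  rw [hk.neg_one_pow] at h2
  push_cast at h2
  have h4 : 2 ^ (k + 2 - 1) * (2 ^ (k + 2) - 1) / 3 = H.index := by
    refine Nat.div_eq_of_eq_mul_left (by simp) ?_
    zify [show 1 ≤ 2 ^ (k + 2) from Nat.one_le_pow _ _ (by omega)]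
    rw [h2, show k + 2 - 1 = k + 1 from rfl]; ring
  rw [h4]
  have h5 : (0 : ℤ) < 2 ^ k := by positivity
  exact min_index_quot (suEquiv (k + 2) hF') (su_index_ge (uForm_nondeg (k + 2) hF') hV (by omega)
    (by rw [hk.neg_one_pow]; push_cast; linarith) fun _ _ => by linarith) ⟨H, h1, rfl⟩

end Cfsg.Agent.S2153
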