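import Cfsg.Statements.S2154
import Cfsg.Agent.Lib.Chev.Misc
import Cfsg.Agent.Lib.Chev.Kempf

set_option autoImplicit false
open Cfsg

namespace Cfsg.Agent.S2154

open Cfsg.Agent.ChevM Cfsg.Agent.Chev

/-- The Borel–Tits property of the finite Chevalley groups of types G₂, B₂, D₄, F₄, E₆, E₇, E₈ over a finite field of characteristic p: for every non-trivial p-subgroup U of the group G there are an element g of G and a proper set J of fundamental roots such that the normaliser of U in G lies in the conjugate by g of the standard parabolic subgroup P_J and U lies in the conjugate by g of its unipotent radical U_J. -/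
theorem result {F : Type*} [Field F] [Fintype F] (p : ℕ) [Fact p.Prime] [CharP F p] (D : Cfsg.Lie.ChevalleyDatum) (hD : D ∈ [Cfsg.Lie.chevG2, Cfsg.Lie.chevB2, Cfsg.Lie.chevD4, Cfsg.Lie.chevF4, Cfsg.Lie.chevE6, Cfsg.Lie.chevE7, Cfsg.Lie.chevE8]) (U : Subgroup (GL D.Idx F)) (hUG : U ≤ D.group F) (hU : IsPGroup p ↥U) (hne : U ≠ ⊥) : ∃ g ∈ D.group F, ∃ J : Set ℕ, (∃ i, i < D.rank ∧ i ∉ J) ∧ Subgroup.normalizer (U : Set (GL D.Idx F)) ⊓ D.group F ≤ (D.parabolicSubgroup F J).map (MulAut.conj g).toMonoidHom ∧ U ≤ (D.unipotentRadical F J).map (MulAut.conj g).toMonoidHom := by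
  have := goodM_of_tab hD
  let X : Subgroup (D.group F) := U.subgroupOf (D.group F)
  have hX : IsPGroup p X := hU.comap_subtype
  obtain ⟨k, -, hk⟩ := exists_conj_le_U p le_top le_top hX
  obtain ⟨g, -, J, hJ, h1, h2⟩ := (nondeg D F).borel_tits (X := {y | k⁻¹ * y * k ∈ X})
    (fun y hy => by simpa [mul_assoc] using hk _ hy) (by
      obtain ⟨⟨x, hx⟩, hx1⟩ := Subgroup.ne_bot_iff_exists_ne_one.1 hne
      refine ⟨k * ⟨x, hUG hx⟩ * k⁻¹, by simpa [mul_assoc, X, Subgroup.mem_subgroupOf] using hx, fun h => hx1 ?_⟩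
      rw [mul_inv_eq_one, mul_eq_left] at h
      exact Subtype.ext (congrArg Subtype.val h :))
  refine ⟨(k⁻¹ * g : D.group F), (k⁻¹ * g).2, Fin.val '' J, ?_, ?_, ?_⟩
  · obtain ⟨i, hi⟩ := (Set.ne_univ_iff_exists_notMem J).1 hJ
    exact ⟨i, i.2, fun h => hi (Fin.val_injective.mem_set_image.1 h)⟩
  · rintro n ⟨hn, hnG⟩
    rw [← map_PJ, JF_image, ← map_subtype_conj]
    refine ⟨⟨n, hnG⟩, ⟨_, h2 (k * ⟨n, hnG⟩ * k⁻¹) (mem_full _) fun x hx => ?_, by simp [mul_assoc]⟩, rfl⟩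
    have h3 := (Subgroup.mem_normalizer_iff.1 (inv_mem hn) _).1 hx
    simpa [mul_assoc, X, Subgroup.mem_subgroupOf] using h3
  · intro x hx
    rw [← map_UJ, JF_image, ← map_subtype_conj]
    exact ⟨⟨x, hUG hx⟩, ⟨_, h1 (k * ⟨x, hUG hx⟩ * k⁻¹) (by simpa [mul_assoc, X, Subgroup.mem_subgroupOf] using hx),
      by simp [mul_assoc]⟩, rfl⟩

end Cfsg.Agent.S2154
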