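import Cfsg.Statements.S2155
import Cfsg.Agent.Lib.Chev.RGD3

set_option autoImplicit false
open Cfsg

namespace Cfsg.Agent.S2155

open Cfsg.Agent.ChevM Cfsg.Agent.Chev Cfsg.Lie

theorem component_comm {G : Type*} [Group G] [Finite G] {p : ℕ} [Fact p.Prime] {Q K : Subgroup G} [hQn : Q.Normal]
    (hQ : IsPGroup p Q) (hK : IsComponent K) : ⁅K, Q⁆ = ⊥ := by
  obtain ⟨n, f, hf, hn, h0, h1⟩ := Subgroup.IsSubnormal.isSubnormal_iff.1 hK.1
  have hperf := hK.2.1
  have hs := hK.2.2
  have key : ∀ i, ⁅K, Q ⊓ f i⁆ = ⊥ := by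
    intro i
    induction i with
    | zero =>
      rw [h0, Subgroup.commutator_comm, Subgroup.commutator_eq_bot_iff_le_centralizer]
      have h2 : IsPGroup p ((Q.subgroupOf K).map (QuotientGroup.mk' (Subgroup.center K))) :=
        (hQ.comap_subtype (K := K)).map _
      rcases ((hQn.subgroupOf K).map _ (QuotientGroup.mk'_surjective (Subgroup.center K))).eq_bot_or_eq_top with h | h
      · rw [Subgroup.map_eq_bot_iff, QuotientGroup.ker_mk'] at h
        rintro q ⟨hq, hq'⟩
        refine Subgroup.mem_centralizer_iff.2 fun k hk => ?_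
        exact congrArg Subtype.val (Subgroup.mem_center_iff.1 (h (show (⟨q, hq'⟩ : K) ∈ _ from hq)) ⟨k, hk⟩)
      · exfalso
        rw [h] at h2
        have h3 := (h2.of_equiv Subgroup.topEquiv).isNilpotent
        have := Group.IsPerfect.ofSurjective (QuotientGroup.mk'_surjective (Subgroup.center K))
        exact Group.IsPerfect.not_isNilpotent _ h3
    | succ i ih =>
      have h2 : ⁅K, Q ⊓ f (i + 1)⁆ ≤ Q ⊓ f i := by
        refine Subgroup.commutator_le.2 fun k hk q hq => ⟨?_, ?_⟩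
        · exact Q.mul_mem (hQn.conj_mem _ hq.1 k) (Q.inv_mem hq.1)
        · have hk' : k ∈ f i := hf (Nat.zero_le i) (h0 ▸ hk)
          have := (hn i).conj_mem ⟨k⁻¹, hf (Nat.le_succ i) ((f i).inv_mem hk')⟩ (Subgroup.mem_subgroupOf.2 ((f i).inv_mem hk')) ⟨q, hq.2⟩
          have h3 := mul_mem hk' (Subgroup.mem_subgroupOf.1 this)
          simpa [commutatorElement_def, mul_assoc] using h3
      have h3 : ⁅⁅K, Q ⊓ f (i + 1)⁆, K⁆ = ⊥ := by
        rw [eq_bot_iff, ← ih, Subgroup.commutator_comm]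
        exact Subgroup.commutator_mono le_rfl h2
      have := Subgroup.commutator_commutator_eq_bot_of_rotate h3 (by rwa [Subgroup.commutator_comm (Q ⊓ f (i + 1))])
      rwa [Subgroup.commutator_eq_self] at this
  simpa [h1] using key n

theorem isPGroup_fstar {G : Type*} [Group G] [Finite G] {p : ℕ} [hp : Fact p.Prime] {Q : Subgroup G} [hQn : Q.Normal]
    (hQ : IsPGroup p Q) (hC : Subgroup.centralizer (Q : Set G) ≤ Q) : IsPGroup p (generalizedFittingSubgroup G) := by
  obtain ⟨P⟩ : Nonempty (Sylow p G) := inferInstance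
  refine P.isPGroup'.to_le (sup_le (sSup_le fun K hK => ?_) (sSup_le fun N hN => ?_))
  · exact ((Subgroup.commutator_eq_bot_iff_le_centralizer.1 (component_comm hQ hK)).trans hC).trans
      (hQ.le_sylow_of_normal P)
  · have := hN.1
    have := hN.2
    refine IsPGroup.le_sylow_of_normal ?_ P
    rw [IsPGroup.iff_card]
    refine ⟨_, Nat.eq_prime_pow_of_unique_prime_dvd Nat.card_pos.ne' fun {r} hr hd => ?_⟩
    by_contra hne
    have : Fact r.Prime := ⟨hr⟩
    obtain ⟨S⟩ : Nonempty (Sylow r N) := inferInstance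
    have h1 := S.characteristic_of_normal inferInstance
    have h2 : IsPGroup r ((S : Subgroup N).map N.subtype) := S.isPGroup'.map _
    have h3 := IsPGroup.disjoint_of_ne r p hne _ _ h2 hQ
    have h4 : (S : Subgroup N).map N.subtype ≤ Q := fun x hx => hC (Subgroup.mem_centralizer_iff.2 fun q hq =>
      (Subgroup.commute_of_normal_of_disjoint _ _ inferInstance hQn h3 x q hx hq).eq.symm)
    have h5 := h3.eq_bot_of_le h4
    rw [Subgroup.map_eq_bot_iff_of_injective _ N.subtype_injective] at h5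
    exact S.ne_bot_of_dvd_card hd h5

theorem le_group_of_map' {Γ : Type*} [Group Γ] {G K : Subgroup Γ} {A : Subgroup G} (h : A.map G.subtype = K) :
    K ≤ G := by rw [← h]; exact Subgroup.map_subtype_le A

theorem mem_iff_of_map' {Γ : Type*} [Group Γ] {G K : Subgroup Γ} {A : Subgroup G} (h : A.map G.subtype = K) {g : G} :
    (g : Γ) ∈ K ↔ g ∈ A := by
  rw [← h]; exact Subgroup.mem_map_iff_mem G.subtype_injective

theorem isPGroup_fstar' {Γ : Type*} [Group Γ] {G K : Subgroup Γ} [Finite K] {p : ℕ} [hp : Fact p.Prime]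
    {U P : Subgroup G} (hK : P.map G.subtype = K) (hU : IsPGroup p U) (h1 : U ≤ P)
    (h2 : ∀ g ∈ P, ∀ u ∈ U, g * u * g⁻¹ ∈ U) (h3 : ∀ g : G, (∀ u ∈ U, Commute g u) → g ∈ U) :
    IsPGroup p (generalizedFittingSubgroup K) := by
  have hle := le_group_of_map' hK
  have hP : ∀ g : K, (⟨g, hle g.2⟩ : G) ∈ P := fun g => (mem_iff_of_map' hK).1 g.2
  let Q : Subgroup K := U.comap (Subgroup.inclusion hle)
  have hQn : Q.Normal := ⟨fun u hu g => h2 _ (hP g) _ hu⟩
  refine isPGroup_fstar (Q := Q) (hU.comap_of_injective _ (Subgroup.inclusion_injective hle))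
    fun g hg => h3 _ fun u hu => ?_
  have := Subgroup.mem_centralizer_iff.1 hg ⟨u, (mem_iff_of_map' hK).2 (h1 hu)⟩ hu
  exact (congrArg (Subgroup.inclusion hle) this).symm

/-- In a Chevalley group of type G₂, B₂, D₄, F₄, E₆, E₇ or E₈ over a finite field of characteristic p (for types G₂ and B₂ the field is assumed to have at least 3 elements, so that the group is simple), the generalized Fitting subgroup of every proper standard parabolic subgroup P_J is a p-group (P_J is p-constrained with trivial largest normal subgroup of order prime to p). -/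
theorem result {F : Type*} [Field F] [Fintype F] (p : ℕ) [Fact p.Prime] [CharP F p] (D : Cfsg.Lie.ChevalleyDatum) (hD : D ∈ [Cfsg.Lie.chevG2, Cfsg.Lie.chevB2, Cfsg.Lie.chevD4, Cfsg.Lie.chevF4, Cfsg.Lie.chevE6, Cfsg.Lie.chevE7, Cfsg.Lie.chevE8]) (hq : (D = Cfsg.Lie.chevG2 ∨ D = Cfsg.Lie.chevB2) → 3 ≤ Fintype.card F) (J : Set ℕ) (hJ : ∃ i, i < D.rank ∧ i ∉ J) : IsPGroup p ↥(Cfsg.generalizedFittingSubgroup ↥(D.parabolicSubgroup F J)) := by
  have : Tab D := ⟨hD⟩
  have hJ' : JF D J ≠ Set.univ := by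
    obtain ⟨i, hi, h⟩ := hJ
    exact (Set.ne_univ_iff_exists_notMem _).2 ⟨⟨i, hi⟩, h⟩
  exact isPGroup_fstar' (map_PJ J) (isPGroup_UJ p _) ((PG D F).UJ_le_PJ _) (fun g hg u hu => PreRGD.PJ_conj_UJ hg hu)
    fun g hg => mem_UJ_of_commute hJ' hg

end Cfsg.Agent.S2155
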