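import Cfsg.Statements.S2159
import Cfsg.Agent.Lib.Chev.AutC

set_option autoImplicit false
open Cfsg

namespace Cfsg.Agent.S2159

open Cfsg.Agent.ChevM Cfsg.Agent.Chev

/-- Structure of the outer automorphism group of the Chevalley group `G` of type G₂, B₂, D₄, F₄, E₆, E₇ or E₈ over a finite field. Let `D̄` be the image in `Out(G)` of the subgroup generated by the diagonal automorphisms and `F̄` the image of the subgroup generated by the field automorphisms. Then `D̄` is a normal abelian subgroup of `Out(G)`, `F̄` is cyclic, `D̄F̄` is a normal subgroup, and the quotient of `Out(G)` by `D̄F̄` is trivial, of order 2, or non-abelian of order 6 (so isomorphic to the symmetric group on three letters): its index is 1 or 2, or it is 6 with the commutator subgroup of `Out(G)` not inside `D̄F̄`. -/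
theorem result {F : Type*} [Field F] [Finite F] (D : Cfsg.Lie.ChevalleyDatum) (hD : D ∈ [Cfsg.Lie.chevG2, Cfsg.Lie.chevB2, Cfsg.Lie.chevD4, Cfsg.Lie.chevF4, Cfsg.Lie.chevE6, Cfsg.Lie.chevE7, Cfsg.Lie.chevE8])
    (Dbar Fbar : Subgroup (Cfsg.Out ↥(D.group F)))
    (hDbar : Dbar = (Subgroup.closure {φ : MulAut ↥(D.group F) | D.IsDiagonalAut φ}).map (QuotientGroup.mk' (Cfsg.Inn ↥(D.group F))))
    (hFbar : Fbar = (Subgroup.closure {φ : MulAut ↥(D.group F) | D.IsFieldAut φ}).map (QuotientGroup.mk' (Cfsg.Inn ↥(D.group F)))) :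
    Dbar.Normal ∧ IsMulCommutative ↥Dbar ∧ IsCyclic ↥Fbar ∧ (Dbar ⊔ Fbar).Normal ∧
      ((Dbar ⊔ Fbar).index = 1 ∨ (Dbar ⊔ Fbar).index = 2 ∨
        ((Dbar ⊔ Fbar).index = 6 ∧ ¬ commutator (Cfsg.Out ↥(D.group F)) ≤ Dbar ⊔ Fbar)) := by
  have : Tab D := ⟨hD⟩
  have e1 : Subgroup.closure {φ : MulAut ↥(D.group F) | D.IsDiagonalAut φ} = (dgAut D).range := by
    rw [← Subgroup.closure_eq (dgAut D).range]
    congr 1; ext φ; simp [isDiagonalAut_iff, eq_comm]
  have e2 : Subgroup.closure {φ : MulAut ↥(D.group F) | D.IsFieldAut φ} = (fmAut D F).range := by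
    rw [← Subgroup.closure_eq (fmAut D F).range]
    congr 1; ext φ; simp only [Set.mem_ofPred_eq, isFieldAut_iff, eq_comm (a := φ)]; rfl
  rw [hDbar, hFbar, e1, e2, ← ker_permOut]
  refine ⟨normal_diag, ?_, ?_, inferInstance, ?_⟩
  · rw [MonoidHom.map_range]; infer_instance
  · have := isCyclic_ringAut F
    rw [MonoidHom.map_range]
    exact isCyclic_of_surjective _ (MonoidHom.rangeRestrict_surjective _)
  have hc : (permOut D F).ker.index = Nat.card (Adm D F) := by
    rw [Subgroup.index_ker, ← range_permOut]; rfl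
  by_cases h4 : D = Cfsg.Lie.chevD4
  · subst h4
    have h2 : Cfsg.Lie.chevD4 ∉ [Cfsg.Lie.chevB2, Cfsg.Lie.chevF4] := fun h => by
      simp only [List.mem_cons, List.not_mem_nil, or_false] at h
      rcases h with h | h <;> exact absurd (congrArg (·.nroots) h) (by decide +kernel)
    have h3 : Cfsg.Lie.chevD4 ≠ Cfsg.Lie.chevG2 := fun h => absurd (congrArg (·.nroots) h) (by decide +kernel)
    refine .inr (.inr ⟨by rw [hc, card_adm_of (fun h => (h2 h).elim) fun h => (h3 h).elim]; decide +kernel, fun h => ?_⟩)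
    obtain ⟨π, π', a, b, c⟩ : ∃ π π', Cfsg.Lie.chevD4.IsDiagramSymmetry π ∧ Cfsg.Lie.chevD4.IsDiagramSymmetry π' ∧
      π * π' ≠ π' * π := by decide +kernel
    obtain ⟨x, rfl⟩ := (range_permOut (F := F)).ge ⟨a, exists_graphFor a (fun h => (h2 h).elim) fun h => (h3 h).elim⟩
    obtain ⟨y, rfl⟩ := (range_permOut (F := F)).ge ⟨b, exists_graphFor b (fun h => (h2 h).elim) fun h => (h3 h).elim⟩
    have := h (Subgroup.commutator_mem_commutator (Subgroup.mem_top x) (Subgroup.mem_top y))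
    rw [MonoidHom.mem_ker, map_commutatorElement, commutatorElement_eq_one_iff_mul_comm] at this
    exact c this
  have h1 : ∃ f : ℕ → ℕ, ∀ π, D.IsDiagramSymmetry π → π = 1 ∨ ∀ i, (π i : ℕ) = f i := by
    rcases IsTab.cases hD with rfl | rfl | rfl | rfl | rfl | rfl | rfl
    exacts [⟨_, fun _ => sym_G2⟩, ⟨_, fun _ => sym_B2⟩, (h4 rfl).elim, ⟨_, fun _ => sym_F4⟩, ⟨_, fun _ => sym_E6⟩,
      ⟨id, fun _ h => .inl (sym_E7 h)⟩, ⟨id, fun _ h => .inl (sym_E8 h)⟩]
  obtain ⟨f, h1⟩ := h1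
  rw [hc]
  by_cases h : ∀ π ∈ Adm D F, π = 1
  · exact .inl (card_adm_one h)
  · push Not at h
    obtain ⟨π, hπ, h⟩ := h
    refine .inr (.inl ?_)
    rw [show Adm D F = {1, π} from Set.ext fun σ => ⟨fun hσ => (h1 σ hσ.1).imp_right fun e => Equiv.ext fun i =>
      Fin.ext ((e i).trans ((h1 π hπ.1).resolve_left h i).symm), ?_⟩, Nat.card_coe_set_eq, Set.ncard_pair h.symm]
    rintro (rfl | rfl)
    exacts [⟨fun _ _ _ => rfl, _, graphFor_one⟩, hπ]

end Cfsg.Agent.S2159
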