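import Cfsg.Statements.S2160
import Cfsg.Agent.Lib.Chev.Adjoint2

set_option autoImplicit false
open Cfsg

namespace Cfsg.Agent.S2160

open Cfsg.Agent.ChevM Cfsg.Agent.Chev

/-- In a Chevalley group of type G₂, B₂, D₄, F₄, E₆, E₇ or E₈ over a finite field, every field automorphism commutes with every graph automorphism. -/
theorem result {F : Type*} [Field F] [Finite F] (D : Cfsg.Lie.ChevalleyDatum) (hD : D ∈ [Cfsg.Lie.chevG2, Cfsg.Lie.chevB2, Cfsg.Lie.chevD4, Cfsg.Lie.chevF4, Cfsg.Lie.chevE6, Cfsg.Lie.chevE7, Cfsg.Lie.chevE8]) (f g : ↥(D.group F) ≃* ↥(D.group F))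
    (hf : D.IsFieldAut f) (hg : D.IsGraphAut g) (y : ↥(D.group F)) : f (g y) = g (f y) := by
  haveI := Cfsg.Agent.ChevM.goodM_of_tab hD
  obtain ⟨σ, hσ⟩ := hf
  obtain ⟨π, -, hπ⟩ := hg
  have h1 : ∀ (r : Fin D.nroots) (t : F), f (xG D F r t) = xG D F r (σ t) := fun r t =>
    mat_eq_x_iff.1 (hσ _ r t r.2 rfl)
  have h2 : ∀ (i : Fin D.rank) (t : F), g (xG D F ((rs D).simple i : Fin D.nroots) t) =
      xG D F ((rs D).simple (π i) : Fin D.nroots) (t ^ D.graphExp (ringChar F) i (π i)) := fun i t =>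
    mat_eq_x_iff.1 ((hπ _ i t).1 rfl)
  have h3 : ∀ (i : Fin D.rank) (t : F), g (xG D F ((rs D).neg ((rs D).simple i) : Fin D.nroots) t) =
      xG D F ((rs D).neg ((rs D).simple (π i)) : Fin D.nroots) (t ^ D.graphExp (ringChar F) i (π i)) := fun i t =>
    mat_eq_x_iff.1 ((hπ _ i t).2 rfl)
  have := hom_ext_simple (f := f.toMonoidHom.comp g.toMonoidHom) (g := g.toMonoidHom.comp f.toMonoidHom)
    (fun j t => by simp only [MonoidHom.comp_apply, MulEquiv.coe_toMonoidHom, h1, h2, map_pow])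
    (fun j t => by simp only [MonoidHom.comp_apply, MulEquiv.coe_toMonoidHom, h1, h3, map_pow])
  exact DFunLike.congr_fun this y

end Cfsg.Agent.S2160
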