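import Cfsg.Statements.S2161
import Cfsg.Agent.Lib.Chev.Adjoint2
import Cfsg.Agent.Lib.Tw.Graph

set_option autoImplicit false
open Cfsg

namespace Cfsg.Agent.S2161

open Cfsg.Agent.ChevM Cfsg.Agent.Chev

/-- For the Chevalley groups of types D₄ and E₆ (one root length) over any field: if `π` is a symmetry of the Dynkin diagram and `φ` is an automorphism sending `x_{p_i}(t)` to `x_{p_{π i}}(t)` and `x_{-p_i}(t)` to `x_{-p_{π i}}(t)` for every fundamental root `p_i`, then for every root `r` there is a sign `ε = ±1` with `φ(x_r(t)) = x_{π·r}(ε t)` for all `t`, where `π·r` is the root whose coefficients are those of `r` permuted by `π`. -/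
theorem result {F : Type*} [Field F] (D : Cfsg.Lie.ChevalleyDatum) (hD : D ∈ [Cfsg.Lie.chevD4, Cfsg.Lie.chevE6])
    (π : Equiv.Perm (Fin D.rank)) (hπ : D.IsDiagramSymmetry π) (φ : ↥(D.group F) ≃* ↥(D.group F))
    (hφ : ∀ (g : ↥(D.group F)) (i : Fin D.rank) (t : F),
      (((g : GL D.Idx F) : Matrix D.Idx D.Idx F) = D.x F (D.simple i) t →
        ((φ g : GL D.Idx F) : Matrix D.Idx D.Idx F) = D.x F (D.simple (π i)) t) ∧
      (((g : GL D.Idx F) : Matrix D.Idx D.Idx F) = D.x F (D.neg (D.simple i)) t →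
        ((φ g : GL D.Idx F) : Matrix D.Idx D.Idx F) = D.x F (D.neg (D.simple (π i))) t))
    (r : ℕ) (hr : r < D.nroots) :
    ∃ ε : F, (ε = 1 ∨ ε = -1) ∧ ∀ (g : ↥(D.group F)) (t : F),
      ((g : GL D.Idx F) : Matrix D.Idx D.Idx F) = D.x F r t →
        ((φ g : GL D.Idx F) : Matrix D.Idx D.Idx F) = D.x F (D.permRoot π r) (ε * t) := by
  have hT : Tab D := ⟨by simp only [List.mem_cons, List.not_mem_nil, or_false] at hD; rcases hD with rfl | rfl <;> simp [IsTab]⟩
  let pf : Cfsg.Lie.ChevalleyDatum → (ℕ → ℕ) → ℕ → ℕ := fun D f r => ((List.range D.nroots).find? fun s =>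
    (List.finRange D.rank).all fun i => (D.coroot.getD s #[]).getD (f i) 0 == (D.coroot.getD r #[]).getD i.val 0).getD r
  have h1 : (∀ i, (π i : ℕ) = i) → (∀ r < D.nroots, pf D id r = r) → ∃ ε : F, (ε = 1 ∨ ε = -1) ∧ ∀ t,
      φ (xG D F r t) = xG D F (D.permRoot π r) (ε * t) := fun h h' => by
    have : φ.toMonoidHom = MonoidHom.id _ := hom_ext_simple
      (fun i t => by simpa [h] using mat_eq_x_iff.mp ((hφ _ i t).1 rfl))
      fun i t => by simpa [h] using mat_eq_x_iff.mp ((hφ _ i t).2 rfl)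
    refine ⟨1, .inl rfl, fun t => (DFunLike.congr_fun this _).trans ?_⟩
    simp only [Cfsg.Lie.ChevalleyDatum.permRoot, h, one_mul]
    exact congrArg (xG D F · t) (h' r hr).symm
  have h2 : ∀ T : TwData, TwOK D T F → T.p = 0 → (∀ i, (π i : ℕ) = T.ν i) → (∀ r < D.nroots, pf D T.ν r = T.π r) →
      ∃ ε : F, (ε = 1 ∨ ε = -1) ∧ ∀ t, φ (xG D F r t) = xG D F (D.permRoot π r) (ε * t) := fun T hT h0 h h' => by
    have : φ.toMonoidHom = hT.aut.toMonoidHom := hom_ext_simple
      (fun i t => by simpa [h, hT.aut_simple i.2, hT.tw.e_of_zero h0] using mat_eq_x_iff.mp ((hφ _ i t).1 rfl))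
      fun i t => by simpa [h, hT.aut_neg_simple i.2, hT.tw.e_of_zero h0] using mat_eq_x_iff.mp ((hφ _ i t).2 rfl)
    refine ⟨T.ε r, by rcases T.ε_cases r with e | e <;> simp [e], fun t => (DFunLike.congr_fun this _).trans ?_⟩
    simp only [Cfsg.Lie.ChevalleyDatum.permRoot, h, MulEquiv.coe_toMonoidHom, hT.aut_xG hr, hT.tw.e_of_zero h0, pow_one]
    exact congrArg (xG D F · _) (h' r hr).symm
  suffices ∃ ε : F, (ε = 1 ∨ ε = -1) ∧ ∀ t, φ (xG D F r t) = xG D F (D.permRoot π r) (ε * t) by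
    obtain ⟨ε, a, b⟩ := this
    exact ⟨ε, a, fun g t h => by rw [mat_eq_x_iff.mp h, b]; rfl⟩
  simp only [List.mem_cons, List.not_mem_nil, or_false] at hD
  rcases hD with rfl | rfl
  · rcases sym_D4 hπ with rfl | ⟨T, hT, h⟩
    · exact h1 (fun _ => rfl) (by decide +kernel)
    · have := twOK_D4 hT F
      simp only [List.mem_cons, List.not_mem_nil, or_false] at hT
      rcases hT with rfl | rfl | rfl | rfl | rfl <;> exact h2 _ this rfl h (by decide +kernel)
  · rcases sym_E6 hπ with rfl | h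
    · exact h1 (fun _ => rfl) (by decide +kernel)
    · exact h2 _ (twOK_E6 F) rfl h (by decide +kernel)

end Cfsg.Agent.S2161
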