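import Cfsg.Statements.S2298
import Cfsg.Agent.Lib.Char.GL2

set_option autoImplicit false
open Cfsg
open Cfsg.Agent.Char Cfsg.Agent.SL2 Cfsg.Agent.Ch2

namespace Cfsg.Agent.S2298

/-- Over a finite field F with q elements, every irreducible complex character of GL₂ has degree 1, q − 1, q or q + 1; and when q ≥ 3 (so that these four numbers are distinct) there are exactly q − 1 irreducible characters of degree 1, exactly q − 1 of degree q, exactly (q − 1)(q − 2)/2 of degree q + 1 and exactly q(q − 1)/2 of degree q − 1. -/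
theorem result {F : Type*} [Field F] [Fintype F] :
    (∀ χ : Matrix.GeneralLinearGroup (Fin 2) F → ℂ, Cfsg.IsIrrCharacter (Matrix.GeneralLinearGroup (Fin 2) F) χ →
      χ 1 = 1 ∨ χ 1 = (Fintype.card F : ℂ) - 1 ∨ χ 1 = (Fintype.card F : ℂ) ∨ χ 1 = (Fintype.card F : ℂ) + 1) ∧
    (3 ≤ Fintype.card F →
      Nat.card {χ : Cfsg.IrrCharacter (Matrix.GeneralLinearGroup (Fin 2) F) // (χ : Matrix.GeneralLinearGroup (Fin 2) F → ℂ) 1 = 1} = Fintype.card F - 1 ∧
      Nat.card {χ : Cfsg.IrrCharacter (Matrix.GeneralLinearGroup (Fin 2) F) // (χ : Matrix.GeneralLinearGroup (Fin 2) F → ℂ) 1 = (Fintype.card F : ℂ)} = Fintype.card F - 1 ∧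
      Nat.card {χ : Cfsg.IrrCharacter (Matrix.GeneralLinearGroup (Fin 2) F) // (χ : Matrix.GeneralLinearGroup (Fin 2) F → ℂ) 1 = (Fintype.card F : ℂ) + 1} = (Fintype.card F - 1) * (Fintype.card F - 2) / 2 ∧
      Nat.card {χ : Cfsg.IrrCharacter (Matrix.GeneralLinearGroup (Fin 2) F) // (χ : Matrix.GeneralLinearGroup (Fin 2) F → ℂ) 1 = (Fintype.card F : ℂ) - 1} = Fintype.card F * (Fintype.card F - 1) / 2) := by
  classical
  refine ⟨fun χ hχ => ?_, fun hq => ?_⟩
  · by_cases h : Cusp χ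
    · exact Or.inr (Or.inl (h.degree hχ))
    · rcases noncusp_cases hχ h with ⟨μ, rfl⟩ | ⟨μ, rfl⟩ | ⟨α, β, hne, rfl⟩
      · simp [LG_one]
      · simp [StG_one]
      · simp [WG_one]
  · have key : ∀ (χ : IrrCharacter (GL (Fin 2) F)) (n : ℕ), χ.1 1 = n → n + 1 ≠ Fintype.card F →
        ¬ Cusp χ.1 := by
      intro χ n hn hne h
      rw [h.degree χ.2] at hn
      have : ((n + 1 : ℕ) : ℂ) = Fintype.card F := by push_cast; linear_combination -hn
      exact hne (by exact_mod_cast this)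
    refine ⟨?_, ?_, ?_, ?_⟩
    · rw [← card_noncusp_one]
      exact Nat.card_congr (Equiv.subtypeEquivRight fun χ =>
        ⟨fun h => ⟨key χ 1 (by simpa using h) (by omega), h⟩, fun h => h.2⟩)
    · rw [← card_noncusp_q]
      exact Nat.card_congr (Equiv.subtypeEquivRight fun χ =>
        ⟨fun h => ⟨key χ _ h (by omega), h⟩, fun h => h.2⟩)
    · rw [← card_noncusp_succ, Nat.mul_div_cancel_left _ two_pos]
      exact Nat.card_congr (Equiv.subtypeEquivRight fun χ =>
        ⟨fun h => ⟨key χ (Fintype.card F + 1) (by simpa using h) (by omega), h⟩, fun h => h.2⟩)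
    · rw [← card_cusp, Nat.mul_div_cancel_left _ two_pos]
      refine Nat.card_congr (Equiv.subtypeEquivRight fun χ => ⟨fun h => ?_, fun h => h.degree χ.2⟩)
      rcases GL_irr_cases_deg χ.2 (h.trans cast_q_sub_one.symm) with ⟨_, e⟩ | ⟨_, e⟩ | ⟨_, e⟩ | ⟨h, _⟩
      all_goals first | exact h | omega

end Cfsg.Agent.S2298
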