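import Cfsg.Statements.S2299
import Cfsg.Agent.Lib.Char.SL2C

set_option autoImplicit false
open Cfsg
open Cfsg.Agent.Char Cfsg.Agent.SL2 Cfsg.Agent.Ch2

namespace Cfsg.Agent.S2299

/-- Over a finite field F with q elements, q odd, every irreducible complex character of SL₂ has degree 1, q, q + 1, q − 1, (q + 1)/2 or (q − 1)/2; and when q ≥ 5 (so that these six numbers are distinct) there are exactly one irreducible character of degree 1, one of degree q, (q − 3)/2 of degree q + 1, (q − 1)/2 of degree q − 1, two of degree (q + 1)/2 and two of degree (q − 1)/2. -/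
theorem result {F : Type*} [Field F] [Fintype F] (hodd : Odd (Fintype.card F)) :
    (∀ χ : Matrix.SpecialLinearGroup (Fin 2) F → ℂ, Cfsg.IsIrrCharacter (Matrix.SpecialLinearGroup (Fin 2) F) χ →
      χ 1 = 1 ∨ χ 1 = (Fintype.card F : ℂ) ∨ χ 1 = (Fintype.card F : ℂ) + 1 ∨ χ 1 = (Fintype.card F : ℂ) - 1 ∨
        χ 1 = (((Fintype.card F + 1) / 2 : ℕ) : ℂ) ∨ χ 1 = (((Fintype.card F - 1) / 2 : ℕ) : ℂ)) ∧
    (5 ≤ Fintype.card F →
      Nat.card {χ : Cfsg.IrrCharacter (Matrix.SpecialLinearGroup (Fin 2) F) // (χ : Matrix.SpecialLinearGroup (Fin 2) F → ℂ) 1 = 1} = 1 ∧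
      Nat.card {χ : Cfsg.IrrCharacter (Matrix.SpecialLinearGroup (Fin 2) F) // (χ : Matrix.SpecialLinearGroup (Fin 2) F → ℂ) 1 = (Fintype.card F : ℂ)} = 1 ∧
      Nat.card {χ : Cfsg.IrrCharacter (Matrix.SpecialLinearGroup (Fin 2) F) // (χ : Matrix.SpecialLinearGroup (Fin 2) F → ℂ) 1 = (Fintype.card F : ℂ) + 1} = (Fintype.card F - 3) / 2 ∧
      Nat.card {χ : Cfsg.IrrCharacter (Matrix.SpecialLinearGroup (Fin 2) F) // (χ : Matrix.SpecialLinearGroup (Fin 2) F → ℂ) 1 = (Fintype.card F : ℂ) - 1} = (Fintype.card F - 1) / 2 ∧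
      Nat.card {χ : Cfsg.IrrCharacter (Matrix.SpecialLinearGroup (Fin 2) F) // (χ : Matrix.SpecialLinearGroup (Fin 2) F → ℂ) 1 = (((Fintype.card F + 1) / 2 : ℕ) : ℂ)} = 2 ∧
      Nat.card {χ : Cfsg.IrrCharacter (Matrix.SpecialLinearGroup (Fin 2) F) // (χ : Matrix.SpecialLinearGroup (Fin 2) F → ℂ) 1 = (((Fintype.card F - 1) / 2 : ℕ) : ℂ)} = 2) := by
  classical
  refine ⟨fun χ hχ => ?_, fun hq => ⟨card_degree_one (by omega), card_degree_q, card_degree_add hodd,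
    card_degree_sub hodd (by omega), card_degree_half_add hodd hq, card_degree_half_sub hodd hq⟩⟩
  obtain ⟨c, hc⟩ := exists_noRoot_SL (F := F)
  have h2 := two_ne_zero_of_odd hodd
  rcases irr_cases hc hχ with rfl | rfl | ⟨α, h, rfl⟩ | ⟨θ, h, rfl⟩ | ⟨α, χ', h, h1, H⟩ |
    ⟨θ, χ', h, h1, H⟩
  · simp
  · simp [St_one]
  · simp [W_one]
  · simp [R_one hc]
  · rw [H.degree h2, W_one, cast_half_add hodd]; simp
  · rw [H.degree h2, R_one hc, cast_half_sub hodd]; simp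

end Cfsg.Agent.S2299
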