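import Cfsg.Statements.S2300
import Cfsg.Agent.Lib.Char.SL2C

set_option autoImplicit false
open Cfsg
open Cfsg.Agent.Char Cfsg.Agent.SL2 Cfsg.Agent.Ch2

namespace Cfsg.Agent.S2300

/-- Over a finite field F with q elements, q even, every irreducible complex character of SL₂ has degree 1, q − 1, q or q + 1; and when q ≥ 4 (so that these four numbers are distinct) there are exactly one irreducible character of degree 1, one of degree q, (q − 2)/2 of degree q + 1 and q/2 of degree q − 1. -/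
theorem result {F : Type*} [Field F] [Fintype F] [CharP F 2] :
    (∀ χ : Matrix.SpecialLinearGroup (Fin 2) F → ℂ, Cfsg.IsIrrCharacter (Matrix.SpecialLinearGroup (Fin 2) F) χ →
      χ 1 = 1 ∨ χ 1 = (Fintype.card F : ℂ) - 1 ∨ χ 1 = (Fintype.card F : ℂ) ∨ χ 1 = (Fintype.card F : ℂ) + 1) ∧
    (4 ≤ Fintype.card F →
      Nat.card {χ : Cfsg.IrrCharacter (Matrix.SpecialLinearGroup (Fin 2) F) // (χ : Matrix.SpecialLinearGroup (Fin 2) F → ℂ) 1 = 1} = 1 ∧
      Nat.card {χ : Cfsg.IrrCharacter (Matrix.SpecialLinearGroup (Fin 2) F) // (χ : Matrix.SpecialLinearGroup (Fin 2) F → ℂ) 1 = (Fintype.card F : ℂ)} = 1 ∧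
      Nat.card {χ : Cfsg.IrrCharacter (Matrix.SpecialLinearGroup (Fin 2) F) // (χ : Matrix.SpecialLinearGroup (Fin 2) F → ℂ) 1 = (Fintype.card F : ℂ) + 1} = (Fintype.card F - 2) / 2 ∧
      Nat.card {χ : Cfsg.IrrCharacter (Matrix.SpecialLinearGroup (Fin 2) F) // (χ : Matrix.SpecialLinearGroup (Fin 2) F → ℂ) 1 = (Fintype.card F : ℂ) - 1} = Fintype.card F / 2) := by
  classical
  obtain ⟨c, hc⟩ := exists_noRoot_SL (F := F)
  have h2 : (2 : F) = 0 := CharTwo.two_eq_zero
  have hev := even_of_two_eq_zero h2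
  refine ⟨fun χ hχ => ?_, fun hq => ⟨card_degree_one hq, card_degree_q, ?_, ?_⟩⟩
  · rcases irr_cases hc hχ with rfl | rfl | ⟨α, h, rfl⟩ | ⟨θ, h, rfl⟩ | ⟨α, χ', h, h1, H⟩ |
      ⟨θ, χ', h, h1, H⟩
    · simp
    · simp [St_one]
    · simp [W_one]
    · simp [R_one hc]
    · exact absurd h2 (two_ne_zero_of_mulChar h h1)
    · exact absurd h2 (two_ne_zero_of_torus hc h h1)
  · have h := two_mul_card_W (F := F)
    have e : Nat.card {α : MulChar F ℂ // α ^ 2 = 1} = 1 := by
      rw [Nat.card_eq_one_iff_exists]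
      exact ⟨⟨1, one_pow 2⟩, fun α => Subtype.ext
        (mulChar_eq_one_of_sq_of_even (by rwa [Nat.card_eq_fintype_card]) α.2)⟩
    omega
  · have h := two_mul_card_R hq hc
    have e : Nat.card {θ : Ct c →* ℂˣ // θ ^ 2 = 1} = 1 := by
      rw [Nat.card_eq_one_iff_exists]
      exact ⟨⟨1, hom_one_sq⟩, fun α => Subtype.ext
        (unitsHom_eq_one_of_sq_of_odd (by rw [card_Ct hc]; exact hev.add_one) α.2)⟩
    omega

end Cfsg.Agent.S2300
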