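import Cfsg.Statements.S2301
import Cfsg.Agent.Lib.SL2.Unip

set_option autoImplicit false
open Cfsg

namespace Cfsg.Agent.S2301

/-- Over a finite field with q elements of odd characteristic p, the elements of order p of SL₂ (the non-identity unipotent elements) fall into exactly two conjugacy classes, each of size (q² − 1)/2; two upper unitriangular matrices with non-zero off-diagonal entries b and b′ are conjugate exactly when bb′ is a square. -/
theorem result {F : Type*} [Field F] [Fintype F] (p : ℕ) [Fact p.Prime] [CharP F p] (hp : p ≠ 2) :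
    Nat.card {C : ConjClasses (Matrix.SpecialLinearGroup (Fin 2) F) // ∃ g : Matrix.SpecialLinearGroup (Fin 2) F, orderOf g = p ∧ ConjClasses.mk g = C} = 2 ∧
    (∀ g : Matrix.SpecialLinearGroup (Fin 2) F, orderOf g = p → Nat.card (ConjClasses.mk g).carrier = (Fintype.card F ^ 2 - 1) / 2) ∧
    ∀ g h : Matrix.SpecialLinearGroup (Fin 2) F, (g : Matrix (Fin 2) (Fin 2) F) 0 0 = 1 → (g : Matrix (Fin 2) (Fin 2) F) 1 1 = 1 → (g : Matrix (Fin 2) (Fin 2) F) 1 0 = 0 → (g : Matrix (Fin 2) (Fin 2) F) 0 1 ≠ 0 →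
      (h : Matrix (Fin 2) (Fin 2) F) 0 0 = 1 → (h : Matrix (Fin 2) (Fin 2) F) 1 1 = 1 → (h : Matrix (Fin 2) (Fin 2) F) 1 0 = 0 → (h : Matrix (Fin 2) (Fin 2) F) 0 1 ≠ 0 →
      (IsConj g h ↔ IsSquare ((g : Matrix (Fin 2) (Fin 2) F) 0 1 * (h : Matrix (Fin 2) (Fin 2) F) 0 1)) := by
  have h2 := SL2.two_ne_zero_of_char (F := F) p hp
  refine ⟨?_, ?_, ?_⟩
  · obtain ⟨n, hn0, hn⟩ := SL2.exists_not_isSquare h2
    have o1 : ∀ b : F, b ≠ 0 → orderOf (SL2.up b) = p := fun b hb =>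
      (SL2.SL_orderOf_eq_char_iff p _).2 ⟨by rwa [SL2.isScal_up_iff], SL2.trace_up b⟩
    rw [Nat.card_eq_two_iff]
    refine ⟨⟨_, SL2.up 1, o1 1 one_ne_zero, rfl⟩, ⟨_, SL2.up n, o1 n hn0, rfl⟩, ?_, ?_⟩
    · intro h
      have := ConjClasses.mk_eq_mk_iff_isConj.1 (congrArg Subtype.val h)
      rw [SL2.isConj_up_up_iff h2 one_ne_zero hn0, one_mul] at this
      exact hn this
    · rw [Set.eq_univ_iff_forall]
      rintro ⟨_, g, hg, rfl⟩
      obtain ⟨h1, h3⟩ := (SL2.SL_orderOf_eq_char_iff p g).1 hg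
      obtain ⟨b, hb, hc⟩ := SL2.isConj_up h1 h3
      simp only [Set.mem_insert_iff, Subtype.mk.injEq, Set.mem_singleton_iff,
        ConjClasses.mk_eq_mk_iff_isConj]
      by_cases hs : IsSquare b
      · left
        exact hc.trans ((SL2.isConj_up_up_iff h2 hb one_ne_zero).2 (by simpa using hs))
      · right
        exact hc.trans ((SL2.isConj_up_up_iff h2 hb hn0).2
          ((SL2.isSquare_mul_iff hb hn0).2 (by simp [hs, hn])))
  · intro g hg
    obtain ⟨h1, h3⟩ := (SL2.SL_orderOf_eq_char_iff p g).1 hg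
    rw [← Nat.card_eq_fintype_card, ← SL2.card_carrier_SL_double_odd h2 h1 (by rw [h3]; norm_num)]
    simp
  · intro g h a1 a2 a3 a4 b1 b2 b3 b4
    rw [← SL2.isConj_up_up_iff h2 a4 b4, ← SL2.eq_up_of_entries a1 a2 a3,
      ← SL2.eq_up_of_entries b1 b2 b3]

end Cfsg.Agent.S2301
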