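import Cfsg.Statements.S2302
import Cfsg.Agent.Lib.SL2.Torus

set_option autoImplicit false
open Cfsg

namespace Cfsg.Agent.S2302

/-- Over a finite field with q elements of characteristic 2, the involutions of SL₂ (the non-identity unipotent elements) form a single conjugacy class, of size q² − 1. -/
theorem result {F : Type*} [Field F] [Fintype F] [CharP F 2] (g h : Matrix.SpecialLinearGroup (Fin 2) F) (hg : orderOf g = 2) (hh : orderOf h = 2) :
    IsConj g h ∧ Nat.card (ConjClasses.mk g).carrier = Fintype.card F ^ 2 - 1 := by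
  have h2 : (2 : F) = 0 := by exact_mod_cast CharP.cast_eq_zero F 2
  obtain ⟨h1, h3⟩ := (SL2.SL_orderOf_eq_char_iff 2 g).1 hg
  obtain ⟨h4, h5⟩ := (SL2.SL_orderOf_eq_char_iff 2 h).1 hh
  refine ⟨SL2.SL_isConj_of_trace h1 h4 (h3.trans h5.symm) (Or.inr h2), ?_⟩
  have h6 := SL2.card_carrier_mul_card_centralizer g
  rw [SL2.card_cent_SL_double_even h2 h1 (by rw [h3]; norm_num), SL2.card_SL2, mul_comm] at h6
  rw [← Nat.card_eq_fintype_card]
  exact Nat.eq_of_mul_eq_mul_left Nat.card_pos h6

end Cfsg.Agent.S2302
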