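import Cfsg.Statements.S2309
import Cfsg.Agent.Lib.Char.GL2

set_option autoImplicit false
open Cfsg
open Cfsg.Agent.Char Cfsg.Agent.SL2 Cfsg.Agent.Ch2

namespace Cfsg.Agent.S2309

/-- Over a finite field F with q elements: every irreducible complex character of GL₂ of degree q − 1 vanishes at every diagonal matrix with two distinct entries, and every irreducible complex character of degree q + 1 vanishes at every element with no eigenvector in F². -/
theorem result {F : Type*} [Field F] [Fintype F] (χ : Matrix.GeneralLinearGroup (Fin 2) F → ℂ) (hχ : Cfsg.IsIrrCharacter (Matrix.GeneralLinearGroup (Fin 2) F) χ) (g : Matrix.GeneralLinearGroup (Fin 2) F) :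
    (χ 1 = (Fintype.card F : ℂ) - 1 → (g : Matrix (Fin 2) (Fin 2) F) 0 1 = 0 → (g : Matrix (Fin 2) (Fin 2) F) 1 0 = 0 → (g : Matrix (Fin 2) (Fin 2) F) 0 0 ≠ (g : Matrix (Fin 2) (Fin 2) F) 1 1 → χ g = 0) ∧
    (χ 1 = (Fintype.card F : ℂ) + 1 → (∀ (c : F) (v : Fin 2 → F), v ≠ 0 → (g : Matrix (Fin 2) (Fin 2) F).mulVec v ≠ c • v) → χ g = 0) := by
  classical
  have h1 := Fintype.one_lt_card (α := F)
  constructor
  · intro hd _ h10 hne
    have h2 : Fintype.card F ≠ 2 := fun h2 => hne (by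
      have e : ∀ a : F, a ≠ 0 → a = 1 := fun a ha => by
        simpa [h2] using FiniteField.pow_card_sub_one_eq_one a ha
      rw [e _ (GL_upper_ne_zero h10).1, e _ (GL_upper_ne_zero h10).2])
    rcases GL_irr_cases_deg hχ (hd.trans cast_q_sub_one.symm) with ⟨_, e⟩ | ⟨_, e⟩ | ⟨_, e⟩ | ⟨h, _⟩
    any_goals omega
    exact h.split (isClass_of_irr hχ) h10 hne
  · intro hd hg
    rcases GL_irr_cases_deg hχ (n := Fintype.card F + 1) (by simpa using hd) with
      ⟨_, e⟩ | ⟨_, e⟩ | ⟨⟨α, β, -, rfl⟩, e⟩ | ⟨h, _⟩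
    any_goals omega
    exact WG_noRoot α β ((noRoot_iff _).mp hg)

end Cfsg.Agent.S2309
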