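import Cfsg.Statements.S2310
import Cfsg.Agent.Lib.Char.GL2

set_option autoImplicit false
open Cfsg
open Cfsg.Agent.Char Cfsg.Agent.SL2 Cfsg.Agent.Ch2

namespace Cfsg.Agent.S2310

/-- Over a finite field F with q ≥ 3 elements, let u be the upper unitriangular matrix of GL₂ with off-diagonal entry 1. An irreducible complex character χ of GL₂ takes at u the value 1 if χ has degree 1 or q + 1, the value −1 if χ has degree q − 1, and the value 0 if χ has degree q. -/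
theorem result {F : Type*} [Field F] [Fintype F] (hq : 3 ≤ Fintype.card F) (χ : Matrix.GeneralLinearGroup (Fin 2) F → ℂ) (hχ : Cfsg.IsIrrCharacter (Matrix.GeneralLinearGroup (Fin 2) F) χ)
    (u : Matrix.GeneralLinearGroup (Fin 2) F) (hu : (u : Matrix (Fin 2) (Fin 2) F) = !![1, 1; 0, 1]) :
    (χ 1 = 1 → χ u = 1) ∧ (χ 1 = (Fintype.card F : ℂ) + 1 → χ u = 1) ∧
    (χ 1 = (Fintype.card F : ℂ) - 1 → χ u = -1) ∧ (χ 1 = (Fintype.card F : ℂ) → χ u = 0) := by
  classical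
  obtain rfl : u = bG 1 1 1 := Units.ext hu
  refine ⟨fun hd => ?_, fun hd => ?_, fun hd => ?_, fun hd => ?_⟩
  · rcases GL_irr_cases_deg hχ (n := 1) (by simpa using hd) with
      ⟨⟨μ, rfl⟩, e⟩ | ⟨_, e⟩ | ⟨_, e⟩ | ⟨h, _⟩
    any_goals omega
    simp [LG, Matrix.det_fin_two]
  · rcases GL_irr_cases_deg hχ (n := Fintype.card F + 1) (by simpa using hd) with
      ⟨_, e⟩ | ⟨_, e⟩ | ⟨⟨α, β, -, rfl⟩, e⟩ | ⟨h, _⟩
    any_goals omega
    rw [WG_par _ _ (by simp) (by simp) (by simp)]; simp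
  · rcases GL_irr_cases_deg hχ (hd.trans cast_q_sub_one.symm) with ⟨_, e⟩ | ⟨_, e⟩ | ⟨_, e⟩ | ⟨h, _⟩
    any_goals omega
    have := h.unip (isClass_of_irr hχ)
    rw [hd] at this
    exact mul_left_cancel₀ (q_sub_one_ne_zero (F := F)) (by linear_combination this)
  · rcases GL_irr_cases_deg hχ hd with ⟨_, e⟩ | ⟨⟨μ, rfl⟩, e⟩ | ⟨_, e⟩ | ⟨h, _⟩
    any_goals omega
    exact StG_par _ (by simp) (by simp) (by simp)

end Cfsg.Agent.S2310
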