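import Cfsg.Statements.S2312
import Cfsg.Agent.Lib.Chev.St2

set_option autoImplicit false
open Cfsg

namespace Cfsg.Agent.S2312

open Cfsg.Agent.ChevM Cfsg.Agent.Chev

/-- In a Chevalley group of type G₂, B₂, D₄, F₄, E₆, E₇ or E₈ over a finite field of characteristic p, the value of the Steinberg character at an element g of order prime to p (a semisimple element) is, up to sign, the largest power of p dividing the order of the centralizer of g. -/
theorem result {F : Type*} [Field F] [Fintype F] (p : ℕ) [Fact p.Prime] [CharP F p] (D : Cfsg.Lie.ChevalleyDatum) (hD : D ∈ [Cfsg.Lie.chevG2, Cfsg.Lie.chevB2, Cfsg.Lie.chevD4, Cfsg.Lie.chevF4, Cfsg.Lie.chevE6, Cfsg.Lie.chevE7, Cfsg.Lie.chevE8]) (g : ↥(D.group F)) (hg : ¬ p ∣ orderOf g) :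
    D.steinbergCharacter F g = ((p ^ (Nat.card ↥(Subgroup.centralizer ({g} : Set ↥(D.group F)))).factorization p : ℕ) : ℂ) ∨
      D.steinbergCharacter F g = -((p ^ (Nat.card ↥(Subgroup.centralizer ({g} : Set ↥(D.group F)))).factorization p : ℕ) : ℂ) := by
  have := goodM_of_tab hD
  have := Fintype.ofFinite (D.group F)
  rw [steinberg_eq]
  exact (nondeg D F).St_semisimple PG_full (isPGroup_U p) (not_dvd_index_U p) hg

end Cfsg.Agent.S2312
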