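import Cfsg.Statements.S2315
import Cfsg.Agent.Lib.GLn.Blocks
import Cfsg.Agent.Lib.GLn.Spec2

set_option autoImplicit false
open Cfsg

namespace Cfsg.Agent.S2315

open Polynomial GLn

variable {F : Type*} [Field F]

open scoped Classical in
/-- The dimension of the nilpotent part. -/
noncomputable def nilDim {n : Type*} [Fintype n] [DecidableEq n] (A : Matrix n n F) : ℕ :=
  wt ((typ A).filter fun x => x.1 = X)

theorem nilDim_le {n : Type*} [Fintype n] [DecidableEq n] (A : Matrix n n F) :
    nilDim A ≤ Fintype.card n := by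
  classical
  rw [← wt_typ A, ← Multiset.filter_add_not (fun x => x.1 = X) (typ A), wt_add]
  exact Nat.le_add_right _ _

theorem card_nilDim_sum (j k : ℕ) :
    Nat.card {A : Matrix (Fin j ⊕ Fin k) (Fin j ⊕ Fin k) F // nilDim A = j} *
      Nat.card (GL (Fin j) F × GL (Fin k) F) = Nat.card (GL (Fin j ⊕ Fin k) F) *
      Nat.card ({N : Matrix (Fin j) (Fin j) F // IsNilpotent N} × GL (Fin k) F) := by
  classical
  let Z : Matrix (Fin j ⊕ Fin k) (Fin j ⊕ Fin k) F → Prop := fun A =>
    ∃ (N : Matrix (Fin j) (Fin j) F) (B : GL (Fin k) F), IsNilpotent N ∧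
      A = Matrix.fromBlocks N 0 0 B.1
  have h := @card_translates (GL (Fin j ⊕ Fin k) F) (Matrix (Fin j ⊕ Fin k) (Fin j ⊕ Fin k) F) _
    (MulAction.compHom _ (ConjAct.toConjAct (G := GL (Fin j ⊕ Fin k) F)).toMonoidHom)
    (blockGL F (Fin j) (Fin k)).range Z ?_
  · rw [← Nat.card_congr (MonoidHom.ofInjective blockGL_injective).toEquiv] at h
    convert h using 2
    · refine Nat.card_congr (Equiv.subtypeEquivRight fun A => ⟨fun hA => ?_, ?_⟩)
      · obtain ⟨N, hN⟩ := ((valid_typ A).filter fun x => x.1 = X).exists_typ_eq (n := Fin j)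
          (by rw [Fintype.card_fin]; exact hA)
        obtain ⟨B, hB⟩ := ((valid_typ A).filter fun x => ¬ x.1 = X).exists_GL_typ_eq (n := Fin k)
          (by
            have h1 := wt_typ A
            rw [← Multiset.filter_add_not (fun x => x.1 = X) (typ A), wt_add] at h1
            simp only [Fintype.card_sum, Fintype.card_fin] at h1 ⊢
            have h2 : wt ((typ A).filter fun x => x.1 = X) = j := hA
            omega)
          (fun x hx => (Multiset.mem_filter.1 hx).2)
        obtain ⟨P, hP⟩ := (similar_iff_typ_eq (Matrix.fromBlocks N 0 0 B.1) A).2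
          (by rw [typ_fromBlocks, hN, hB, Multiset.filter_add_not])
        refine ⟨P, _, ⟨N, B, ?_, rfl⟩, ?_⟩
        · rw [isNilpotent_iff_typ, hN]
          exact fun x hx => (Multiset.mem_filter.1 hx).2
        · change P.1 * _ * P⁻¹.1 = A
          rw [hP, Units.mul_inv_cancel_right]
      · rintro ⟨P, _, ⟨N, B, hN, rfl⟩, rfl⟩
        change nilDim (P.1 * _ * P⁻¹.1) = j
        rw [nilDim, ← (similar_iff_typ_eq (Matrix.fromBlocks N 0 0 B.1) _).1
          ⟨P, by rw [Units.inv_mul_cancel_right]⟩, typ_fromBlocks, Multiset.filter_add,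
          Multiset.filter_eq_self.2 ((isNilpotent_iff_typ N).1 hN), Multiset.filter_eq_nil.2
          ((det_ne_zero_iff_typ _).1 (Matrix.GeneralLinearGroup.det_ne_zero B)), add_zero, wt_typ,
          Fintype.card_fin]
    · refine Nat.card_eq_of_bijective (fun x => ⟨_, x.1.1, x.2, x.1.2, rfl⟩) ⟨?_, ?_⟩
      · intro x y hxy
        have h1 := Matrix.fromBlocks_inj.1 (congrArg Subtype.val hxy)
        exact Prod.ext (Subtype.ext h1.1) (Units.ext h1.2.2.2)
      · rintro ⟨_, N, B, hN, rfl⟩
        exact ⟨(⟨N, hN⟩, B), rfl⟩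
  · rintro P _ ⟨N, B, hN, rfl⟩
    change Z (P.1 * _ * P⁻¹.1) ↔ _
    constructor
    · rintro ⟨N', B', hN', h⟩
      obtain ⟨a, ha⟩ := hN
      obtain ⟨b, hb⟩ := hN'
      have h1 := congrArg (· ^ (a + b + 1)) h
      simp only [Units.conj_pow, Matrix.fromBlocks_diagonal_pow] at h1
      rw [Units.mul_inv_eq_iff_eq_mul, pow_eq_zero_of_le (by omega) ha,
        pow_eq_zero_of_le (by omega) hb, ← Matrix.fromBlocks_toBlocks P.1] at h1
      simp only [Matrix.fromBlocks_multiply, Matrix.mul_zero, Matrix.zero_mul, zero_add, add_zero,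
        Matrix.fromBlocks_inj, ← Units.val_pow_eq_pow_val] at h1
      rw [mem_range_blockGL]
      constructor
      · have := congrArg (· * (B ^ (a + b + 1))⁻¹.1) h1.2.1
        simpa only [Matrix.mul_assoc, Units.mul_inv, Matrix.mul_one, Matrix.zero_mul] using this
      · have := congrArg ((B' ^ (a + b + 1))⁻¹.1 * ·) h1.2.2.1
        simpa only [← Matrix.mul_assoc, Units.inv_mul, Matrix.one_mul, Matrix.mul_zero] using
          this.symm
    · rintro ⟨x, rfl⟩
      refine ⟨x.1.1 * N * x.1⁻¹.1, x.2 * B * x.2⁻¹, ?_, ?_⟩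
      · obtain ⟨a, ha⟩ := hN
        exact ⟨a, by rw [Units.conj_pow, ha, mul_zero, zero_mul]⟩
      · rw [← map_inv, coe_blockGL, coe_blockGL]
        simp [Matrix.fromBlocks_multiply]

theorem card_nilDim [Finite F] {n j : ℕ} (hj : j ≤ n) :
    (Nat.card {A : Matrix (Fin n) (Fin n) F // nilDim A = j} : ℚ) =
      Nat.card (GL (Fin n) F) * (Nat.card {N : Matrix (Fin j) (Fin j) F // IsNilpotent N} /
        Nat.card (GL (Fin j) F)) := by
  obtain ⟨k, rfl⟩ := Nat.exists_eq_add_of_le hj
  have h := card_nilDim_sum (F := F) j k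
  have h1 : Nat.card {A : Matrix (Fin j ⊕ Fin k) (Fin j ⊕ Fin k) F // nilDim A = j} =
      Nat.card {A : Matrix (Fin (j + k)) (Fin (j + k)) F // nilDim A = j} :=
    Nat.card_congr ((Matrix.reindex finSumFinEquiv finSumFinEquiv).subtypeEquiv fun A => by
      rw [nilDim, nilDim, typ_reindex])
  have h2 : Nat.card (GL (Fin j ⊕ Fin k) F) = Nat.card (GL (Fin (j + k)) F) :=
    Nat.card_congr (Units.mapEquiv (Matrix.reindexAlgEquiv F F finSumFinEquiv).toMulEquiv).toEquiv
  rw [h1, h2, Nat.card_prod, Nat.card_prod, ← mul_assoc, ← mul_assoc] at h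
  have h3 := Nat.eq_of_mul_eq_mul_right Nat.card_pos h
  have h4 : (Nat.card (GL (Fin j) F) : ℚ) ≠ 0 := by exact_mod_cast Nat.card_pos.ne'
  field_simp
  exact_mod_cast h3

theorem sum_nil [Finite F] (n : ℕ) :
    ∑ j ∈ Finset.range (n + 1), (Nat.card {N : Matrix (Fin j) (Fin j) F // IsNilpotent N} /
        Nat.card (GL (Fin j) F) : ℚ) = Nat.card F ^ (n * n) / Nat.card (GL (Fin n) F) := by
  classical
  have := Fintype.ofFinite F
  have h4 : (Nat.card (GL (Fin n) F) : ℚ) ≠ 0 := by exact_mod_cast Nat.card_pos.ne'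
  rw [eq_div_iff h4, mul_comm, Finset.mul_sum,
    ← Finset.sum_congr rfl fun j hj => card_nilDim (Nat.le_of_lt_succ (Finset.mem_range.1 hj))]
  have h1 := Finset.card_eq_sum_card_fiberwise (s := Finset.univ) (t := Finset.range (n + 1))
    (f := fun A : Matrix (Fin n) (Fin n) F => nilDim A) (fun A _ => by
      simpa [Nat.lt_succ_iff] using nilDim_le A)
  simp only [Nat.card_eq_fintype_card, Fintype.card_subtype]
  have h2 : Fintype.card (Matrix (Fin n) (Fin n) F) = Fintype.card F ^ (n * n) := by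
    change Fintype.card (Fin n → Fin n → F) = _
    simp [← pow_mul]
  rw [Finset.card_univ, h2] at h1
  exact_mod_cast h1.symm

theorem card_nil [Finite F] (n : ℕ) :
    Nat.card {N : Matrix (Fin n) (Fin n) F // IsNilpotent N} = Nat.card F ^ (n * (n - 1)) := by
  cases n with
  | zero =>
    rw [Nat.card_congr (Equiv.subtypeUnivEquiv fun N => ⟨0, Subsingleton.elim _ _⟩)]
    simp
  | succ n =>
    have h := sum_nil (F := F) (n + 1)
    rw [Finset.sum_range_succ, sum_nil] at h
    have h1 : Nat.card (GL (Fin (n + 1)) F) =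
        Nat.card (GL (Fin n) F) * Nat.card F ^ n * (Nat.card F ^ (n + 1) - 1) := by
      rw [card_GL_eq, card_GL_eq, Finset.prod_range_succ, Nat.choose_succ_succ, Nat.choose_one_right,
        pow_add]
      ring
    have h4 : (Nat.card (GL (Fin n) F) : ℚ) ≠ 0 := by exact_mod_cast Nat.card_pos.ne'
    have h5 : (Nat.card (GL (Fin (n + 1)) F) : ℚ) ≠ 0 := by exact_mod_cast Nat.card_pos.ne'
    have h6 : 1 ≤ Nat.card F ^ (n + 1) := Nat.one_le_pow _ _ Nat.card_pos
    field_simp at h
    rw [h1] at h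
    push_cast [h6] at h
    have h7 : (Nat.card {N : Matrix (Fin (n + 1)) (Fin (n + 1)) F // IsNilpotent N} : ℚ) =
        Nat.card F ^ ((n + 1) * n) := by
      apply mul_left_cancel₀ h4
      linear_combination h
    exact_mod_cast h7

/-- Steinberg's count of unipotent elements for the general linear group: over a finite field with q elements of characteristic p, the number of elements of GL_n of p-power order (the unipotent matrices) is q^(n(n−1)). -/
theorem result {F : Type*} [Field F] [Fintype F] (p : ℕ) [Fact p.Prime] [CharP F p] (n : ℕ) :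
    Nat.card {g : Matrix.GeneralLinearGroup (Fin n) F // ∃ k : ℕ, orderOf g = p ^ k} = Fintype.card F ^ (n * (n - 1)) := by
  rw [← Nat.card_eq_fintype_card, ← card_nil]
  have h : ∀ g : Matrix.GeneralLinearGroup (Fin n) F,
      (∃ k : ℕ, orderOf g = p ^ k) ↔ IsNilpotent (g.1 - 1) := by
    intro g
    rw [GLn.orderOf_eq_pow_iff_typ, ← GLn.isNilpotent_aeval_iff_typ _ GLn.monic_X_sub_one
      GLn.irreducible_X_sub_one]
    simp
  refine Nat.card_eq_of_bijective (fun g => ⟨g.1.1 - 1, (h _).1 g.2⟩) ⟨?_, ?_⟩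
  · intro g g' hg
    exact Subtype.ext (Units.ext (sub_left_injective (congrArg Subtype.val hg)))
  · rintro ⟨N, hN⟩
    obtain ⟨g, hg⟩ := hN.isUnit_add_one
    exact ⟨⟨g, (h g).2 (by rwa [hg, add_sub_cancel_right])⟩, Subtype.ext (by simp [hg])⟩

end Cfsg.Agent.S2315
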