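import Cfsg.Statements.S2316
import Cfsg.Agent.Lib.Forms.SpFit
import Cfsg.Agent.Lib.Forms.SpClass
import Cfsg.Agent.S2315

set_option autoImplicit false
open Cfsg

namespace Cfsg.Agent.S2316

open Forms Form Finset PowerSeries Module

/-- Euler's series -/
noncomputable def E (y : ℚ) : ℚ⟦X⟧ := PowerSeries.mk fun k => (∏ i ∈ range k, (1 - y ^ (i + 1)))⁻¹

theorem E_eq {y : ℚ} (hy : ∀ i, 1 - y ^ (i + 1) ≠ 0) : E y * (1 - X) = rescale y (E y) := by
  ext k
  rw [mul_sub, mul_one, map_sub, coeff_rescale]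
  cases k with
  | zero => simp
  | succ k =>
    have := hy k
    have : ∏ i ∈ range k, (1 - y ^ (i + 1)) ≠ 0 := prod_ne_zero_iff.2 fun i _ => hy i
    simp only [coeff_succ_mul_X, E, coeff_mk, prod_range_succ]
    field_simp
    ring

theorem eq_E {y : ℚ} (hy : ∀ i, 1 - y ^ (i + 1) ≠ 0) {f : ℚ⟦X⟧} (h0 : coeff 0 f = 1)
    (h : f * (1 - X) = rescale y f) : f = E y := by
  ext k
  induction k with
  | zero => simp [h0, E]
  | succ k ih =>
    have h1 := congrArg (coeff (k + 1)) h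
    rw [mul_sub, mul_one, map_sub, coeff_rescale, coeff_succ_mul_X, ih] at h1
    simp only [E, coeff_mk, prod_range_succ, mul_inv] at h1 ⊢
    rw [eq_mul_inv_iff_mul_eq₀ (hy k)]
    linear_combination h1

variable (F : Type*) [Field F] [Finite F]

theorem two_le : (2 : ℚ) ≤ Nat.card F := by exact_mod_cast Finite.one_lt_card

theorem ne_zero (a i : ℕ) : 1 - ((Nat.card F : ℚ)⁻¹ ^ (a + 1)) ^ (i + 1) ≠ 0 := by
  have := two_le F
  rw [← pow_mul]
  exact (sub_pos.2 (pow_lt_one₀ (by positivity) (inv_lt_one_of_one_lt₀ (by linarith))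
    (by positivity))).ne'

theorem prod_eq (a k : ℕ) : ((∏ i ∈ range k, (Nat.card F ^ (a * (i + 1)) - 1) : ℕ) : ℚ) =
    Nat.card F ^ (a * (k + 1).choose 2) * ∏ i ∈ range k, (1 - ((Nat.card F : ℚ)⁻¹ ^ a) ^ (i + 1)) := by
  have := two_le F
  induction k with
  | zero => simp
  | succ k ih =>
    rw [prod_range_succ, prod_range_succ, Nat.cast_mul, ih, Nat.choose_succ_succ' (k + 1),
      Nat.choose_one_right, Nat.cast_sub (Nat.one_le_pow _ _ Nat.card_pos), mul_add a (k + 1),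
      pow_add, ← pow_mul, inv_pow _ (a * _), Nat.cast_pow, Nat.cast_one]
    generalize ∏ i ∈ range k, (1 - ((Nat.card F : ℚ)⁻¹ ^ a) ^ (i + 1)) = P
    field_simp

theorem card_sp (k : ℕ) : (Nat.card (spForm k F).Isom : ℚ) =
    Nat.card F ^ (2 * k ^ 2 + k) * ∏ i ∈ range k, (1 - ((Nat.card F : ℚ)⁻¹ ^ 2) ^ (i + 1)) := by
  rw [(spForm_nondeg k).card_sp (finrank_plus k), Nat.cast_mul, prod_eq, ← mul_assoc, Nat.cast_pow,
    ← pow_add, Nat.choose_two_right, Nat.mul_div_cancel' (Nat.even_mul_pred_self _).two_dvd]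
  simp only [Nat.add_sub_cancel]
  ring_nf

theorem card_Z (k : ℕ) : (cX false (spForm k F) (2 * k) / Nat.card (spForm k F).Isom : ℚ) =
    coeff k (rescale (Nat.card F : ℚ)⁻¹ (E (Nat.card F : ℚ)⁻¹)) := by
  have h := cX_hypD (F := F) (V := Fin k → F)
  obtain ⟨i⟩ := (hypD_nondeg (F := F) (V := Fin k → F)).sp_iso (spForm_nondeg k)
    (by rw [finrank_prod, Subspace.dual_finrank_eq, finrank_plus, finrank_fin_fun, two_mul])
  have h1 : Nat.card {N : Module.End F (Fin k → F) // IsNilpotent N} =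
      Nat.card {N : Matrix (Fin k) (Fin k) F // IsNilpotent N} :=
    Nat.card_congr (LinearMap.toMatrixAlgEquiv'.toEquiv.subtypeEquiv fun N =>
      (IsNilpotent.map_iff LinearMap.toMatrixAlgEquiv'.injective).symm)
  rw [i.cX_eq, Nat.card_congr i.isomEquiv.toEquiv, finrank_fin_fun, h1, S2315.card_nil,
    ← Nat.card_congr (Matrix.GeneralLinearGroup.toLin.trans
      (LinearMap.GeneralLinearGroup.generalLinearEquiv F _)).toEquiv, GLn.card_GL_eq] at h
  have h2 := prod_eq F 1 k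
  have h3 := congrArg (Nat.cast : ℕ → ℚ) h
  have h4 : (Nat.card (spForm k F).Isom : ℚ) ≠ 0 := by
    have := (spForm k F).finite_isom
    exact_mod_cast Nat.card_pos.ne'
  have h5 : ∏ i ∈ range k, (1 - (Nat.card F : ℚ)⁻¹ ^ (i + 1)) ≠ 0 :=
    prod_ne_zero_iff.2 fun i _ => by simpa using ne_zero F 0 i
  have h6 := two_le F
  simp only [one_mul, pow_one] at h2
  rw [Nat.cast_mul, Nat.cast_mul, Nat.cast_mul, h2, Nat.choose_succ_succ', Nat.choose_one_right,
    show k * (k - 1) = k.choose 2 + k.choose 2 by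
      rw [← two_mul, Nat.choose_two_right, Nat.mul_div_cancel' (Nat.even_mul_pred_self _).two_dvd]] at h3
  rw [coeff_rescale, E, coeff_mk, inv_pow]
  generalize ∏ i ∈ range k, (1 - (Nat.card F : ℚ)⁻¹ ^ (i + 1)) = P at h3 h5
  simp only [Nat.cast_pow, pow_add, Nat.cast_mul, Nat.reduceAdd] at h3
  field_simp
  refine mul_right_cancel₀ (b := (Nat.card F : ℚ) ^ k.choose 2 * Nat.card F ^ k.choose 2)
    (by positivity) ?_
  linear_combination h3

theorem card_U (m : ℕ) : cX true (spForm m F) (2 * m) = Nat.card F ^ (2 * m ^ 2) := by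
  have h0 : ∀ k, (Nat.card (spForm k F).Isom : ℚ) ≠ 0 := fun k => by
    have := (spForm k F).finite_isom
    exact_mod_cast Nat.card_pos.ne'
  have h6 := two_le F
  set x := (Nat.card F : ℚ)⁻¹ with hx
  have hy : ∀ i, 1 - (x ^ 2) ^ (i + 1) ≠ 0 := ne_zero F 1
  have hy' : ∀ k, ∏ i ∈ range k, (1 - (x ^ 2) ^ (i + 1)) ≠ 0 := fun k =>
    prod_ne_zero_iff.2 fun i _ => hy i
  have hx' : ∀ i, 1 - x ^ (i + 1) ≠ 0 := fun i => by simpa only [zero_add, pow_one] using ne_zero F 0 i
  let u : ℚ⟦X⟧ := PowerSeries.mk fun k => cX true (spForm k F) (2 * k) / Nat.card (spForm k F).Isom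
  let a : ℚ⟦X⟧ := PowerSeries.mk fun k => cX true (spForm k F) 0 / Nat.card (spForm k F).Isom
  have h1 : u * a = PowerSeries.mk 1 := PowerSeries.ext fun n => by
    simp only [coeff_mul, u, a, coeff_mk]
    rw [← card_AA, card_AA_true (spForm_nondeg n), div_self (h0 n), Pi.one_apply]
  have h2 : rescale x (E x) * a = E (x ^ 2) := PowerSeries.ext fun n => by
    simp only [coeff_mul, a, coeff_mk, hx, ← card_Z, cX_zero (spForm_nondeg _)]
    rw [← card_AA, card_AA_false (spForm_nondeg n), card_sp, finrank_plus, E, coeff_mk,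
      Nat.choose_two_right, show (2 * n + 1) * (2 * n + 1 - 1) / 2 = 2 * n ^ 2 + n from
        Nat.div_eq_of_eq_mul_right two_pos (by rw [Nat.add_sub_cancel]; ring), Nat.cast_pow,
      div_mul_cancel_left₀ (by positivity)]
  have h3 : E (x ^ 2) * rescale x (E (x ^ 2)) = E x := eq_E hx' (by simp [E, coeff_mul]) (by
    rw [map_mul, rescale_rescale, ← sq, ← E_eq hy]; ring)
  have h4 : E (x ^ 2) ≠ 0 := fun h => by simpa [E] using congrArg (coeff 0) h
  have h5 : rescale x (E (x ^ 2)) * (a * (1 - X)) = 1 := mul_left_cancel₀ h4 (by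
    rw [← mul_assoc, h3, mul_comm a, ← mul_assoc, E_eq hx', h2, mul_one])
  have h7 : u = rescale x (E (x ^ 2)) := by
    rw [← mul_one u, ← h5, mul_left_comm, ← mul_assoc u, h1, mk_one_mul_one_sub_eq_one, mul_one]
  have h8 := congrArg (coeff m) h7
  rw [coeff_rescale, E, coeff_mk, coeff_mk, div_eq_iff (h0 m), card_sp, ← hx] at h8
  have h9 := hy' m
  refine Nat.cast_injective (R := ℚ) (h8.trans ?_)
  rw [hx, inv_pow, pow_add, ← hx]
  push_cast
  field_simp

/-- Steinberg's count of unipotent elements for the symplectic group: over a finite field with q elements of characteristic p, the number of elements of Sp_{2m} of p-power order is q^(2m²). -/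
theorem result {F : Type*} [Field F] [Fintype F] (p : ℕ) [Fact p.Prime] [CharP F p] (m : ℕ) :
    Nat.card {g : ↥(Matrix.symplecticGroup (Fin m) F) // ∃ k : ℕ, orderOf g = p ^ k} = Fintype.card F ^ (2 * m ^ 2) := by
  rw [← Nat.card_eq_fintype_card, ← card_U]
  have hf := spForm_nondeg (F := F) m
  have h : ∀ g : (spForm m F).Isom, (∃ k, orderOf g = p ^ k) ↔
      finrank F (gk (pol true (g.1 : Module.End F (Fin m ⊕ Fin m → F)))) = 2 * m := fun g => by
    rw [← finrank_plus (F := F) m, ← Submodule.eq_top_iff_finrank_eq, gk_eq_top_iff]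
    refine ⟨fun ⟨k, hk⟩ => ⟨_, Isom.N_pow_eq_zero (fun α hα => eq_one_of_pow_char_pow p
      (((Isom.pow_eq_one_iff p _ _).1 (hk ▸ pow_orderOf_eq_one g)).1 α hα)) le_rfl⟩,
      fun ⟨k, hk⟩ => ?_⟩
    have := pow_char_pow_of_nilpotent p (Commute.one_right _) hk
      (Nat.lt_pow_self (Fact.out : p.Prime).one_lt).le
    rw [one_pow, ← Isom.coe_pow] at this
    obtain ⟨j, -, hj⟩ := (Nat.dvd_prime_pow Fact.out).1 (orderOf_dvd_of_pow_eq_one
      (Isom.ext (LinearMap.congr_fun this) : g ^ p ^ k = 1))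
    exact ⟨j, hj⟩
  refine Nat.card_eq_of_bijective (fun g => ⟨_, Isom.map_B (spEquiv m F g.1),
    (h _).1 (by rw [MulEquiv.orderOf_eq]; exact g.2)⟩) ⟨fun a b e => Subtype.ext
      ((spEquiv m F).injective (Isom.ext (LinearMap.congr_fun (congrArg Subtype.val e)))),
    fun T => ?_⟩
  obtain ⟨g, hg⟩ := (spEquiv m F).surjective (Isom.ofEnd hf T.1 (sp_isIsom T.2.1))
  exact ⟨⟨g, by rw [← (spEquiv m F).orderOf_eq, hg]; exact (h _).2 T.2.2⟩,
    Subtype.ext (by simp only [hg]; rfl)⟩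

end Cfsg.Agent.S2316
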