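import Cfsg.Statements.S2317
import Cfsg.Agent.Lib.GLn.Classes

set_option autoImplicit false
open Cfsg

namespace Cfsg.Agent.S2317

/-- Over a finite field of characteristic p, the conjugacy classes of GL_n consisting of elements of p-power order (the unipotent classes) are as many as the partitions of n. -/
theorem result {F : Type*} [Field F] [Fintype F] (p : ℕ) [Fact p.Prime] [CharP F p] (n : ℕ) :
    Nat.card {C : ConjClasses (Matrix.GeneralLinearGroup (Fin n) F) //
      ∃ g : Matrix.GeneralLinearGroup (Fin n) F, (∃ k : ℕ, orderOf g = p ^ k) ∧ ConjClasses.mk g = C} =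
      Fintype.card (Nat.Partition n) := by
  classical
  simp only [and_comm (b := ConjClasses.mk _ = _)]
  rw [GLn.card_classes_eq _ (fun D => ∀ x ∈ D, x.1 = Polynomial.X - 1)
    (GLn.orderOf_eq_pow_iff_typ p), ← Nat.card_eq_fintype_card (α := Nat.Partition n)]
  symm
  have hX : (Polynomial.X - 1 : Polynomial F) ≠ Polynomial.X := by
    intro h
    have := congrArg (Polynomial.eval 0) h
    simp at this
  refine Nat.card_eq_of_bijective (fun l => ⟨l.parts.map fun e => (Polynomial.X - 1, e), ?_, ?_,
    ?_, ?_⟩) ⟨?_, ?_⟩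
  · intro x hx
    obtain ⟨e, he, rfl⟩ := Multiset.mem_map.1 hx
    exact ⟨GLn.monic_X_sub_one, GLn.irreducible_X_sub_one, l.parts_pos he⟩
  · simp [GLn.wt, GLn.natDegree_X_sub_one', l.parts_sum]
  · intro x hx
    obtain ⟨e, he, rfl⟩ := Multiset.mem_map.1 hx
    exact hX
  · intro x hx
    obtain ⟨e, he, rfl⟩ := Multiset.mem_map.1 hx
    rfl
  · intro l l' h
    have h1 := congrArg (fun D => Multiset.map Prod.snd D.1) h
    simp only [Multiset.map_map, Function.comp, Multiset.map_id'] at h1
    exact Nat.Partition.ext h1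
  · rintro ⟨D, hD, hn, -, h1⟩
    refine ⟨⟨D.map Prod.snd, ?_, ?_⟩, ?_⟩
    · intro e he
      obtain ⟨x, hx, rfl⟩ := Multiset.mem_map.1 he
      exact (hD x hx).2.2
    · rw [Fintype.card_fin] at hn
      rw [← hn, GLn.wt]
      congr 1
      refine Multiset.map_congr rfl fun x hx => ?_
      rw [h1 x hx, GLn.natDegree_X_sub_one', mul_one]
    · apply Subtype.ext
      simp only [Multiset.map_map]
      conv_rhs => rw [← Multiset.map_id D]
      refine Multiset.map_congr rfl fun x hx => ?_
      simp only [Function.comp, id]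
      rw [← h1 x hx]

end Cfsg.Agent.S2317
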