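import Cfsg.Statements.S2320
import Cfsg.Agent.Lib.Char.GL2

set_option autoImplicit false
open Cfsg
open Cfsg.Agent.Char Cfsg.Agent.SL2 Cfsg.Agent.Ch2

namespace Cfsg.Agent.S2320

/-- Over a finite field F with q elements, every irreducible complex character of GL₂ of degree q takes a value of absolute value 1 at every diagonal matrix with two different diagonal entries and at every element with no eigenvector in F². -/
theorem result {F : Type*} [Field F] [Fintype F] (χ : Matrix.GeneralLinearGroup (Fin 2) F → ℂ) (hχ : Cfsg.IsIrrCharacter (Matrix.GeneralLinearGroup (Fin 2) F) χ) (hdeg : χ 1 = (Fintype.card F : ℂ)) (g : Matrix.GeneralLinearGroup (Fin 2) F) :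
    ((g : Matrix (Fin 2) (Fin 2) F) 0 1 = 0 → (g : Matrix (Fin 2) (Fin 2) F) 1 0 = 0 → (g : Matrix (Fin 2) (Fin 2) F) 0 0 ≠ (g : Matrix (Fin 2) (Fin 2) F) 1 1 → ‖χ g‖ = 1) ∧
    ((∀ (c : F) (v : Fin 2 → F), v ≠ 0 → (g : Matrix (Fin 2) (Fin 2) F).mulVec v ≠ c • v) → ‖χ g‖ = 1) := by
  classical
  have h1 := Fintype.one_lt_card (α := F)
  rcases GL_irr_cases_deg hχ hdeg with ⟨_, e⟩ | ⟨⟨μ, rfl⟩, e⟩ | ⟨_, e⟩ | ⟨h, _⟩
  any_goals omega
  exact ⟨fun _ h10 hne => by rw [StG_split _ h10 hne, norm_mulChar _ g.det_ne_zero],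
    fun hg => by rw [StG_noRoot _ ((noRoot_iff _).mp hg), norm_neg, norm_mulChar _ g.det_ne_zero]⟩

end Cfsg.Agent.S2320
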