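import Cfsg.Statements.S2322
import Cfsg.Agent.Lib.Char.SL2D

set_option autoImplicit false
open Cfsg
open Cfsg.Agent.Char Cfsg.Agent.SL2 Cfsg.Agent.Ch2

namespace Cfsg.Agent.S2322

/-- Over a finite field F with q elements, q odd: every irreducible complex character of SL₂ of degree q − 1 or (q − 1)/2 vanishes at every diagonal matrix whose diagonal entry a has a² ≠ 1, and every irreducible complex character of degree q + 1 or (q + 1)/2 vanishes at every element with no eigenvector in F². -/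
theorem result {F : Type*} [Field F] [Fintype F] (hodd : Odd (Fintype.card F)) (χ : Matrix.SpecialLinearGroup (Fin 2) F → ℂ) (hχ : Cfsg.IsIrrCharacter (Matrix.SpecialLinearGroup (Fin 2) F) χ) (g : Matrix.SpecialLinearGroup (Fin 2) F) :
    ((χ 1 = (Fintype.card F : ℂ) - 1 ∨ χ 1 = (((Fintype.card F - 1) / 2 : ℕ) : ℂ)) →
      (g : Matrix (Fin 2) (Fin 2) F) 0 1 = 0 → (g : Matrix (Fin 2) (Fin 2) F) 1 0 = 0 → (g : Matrix (Fin 2) (Fin 2) F) 0 0 ^ 2 ≠ 1 → χ g = 0) ∧
    ((χ 1 = (Fintype.card F : ℂ) + 1 ∨ χ 1 = (((Fintype.card F + 1) / 2 : ℕ) : ℂ)) →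
      (∀ (c : F) (v : Fin 2 → F), v ≠ 0 → (g : Matrix (Fin 2) (Fin 2) F).mulVec v ≠ c • v) → χ g = 0) := by
  classical
  have h2 := two_ne_zero_of_odd hodd
  have h1 := Fintype.one_lt_card (α := F)
  obtain ⟨k, hk⟩ := id hodd
  constructor
  · intro hd _ h10 hsq
    have h3 : Fintype.card F ≠ 3 := fun h3 => hsq (sq_eq_one_of_card_three h3 (SL_upper_ne_zero h10))
    obtain ⟨c, hc⟩ := exists_noRoot_SL (F := F)
    have hne := split_of_diag h10 hsq
    rcases hd with hd | hd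
    · obtain ⟨θ, -, rfl⟩ := eq_R_of_degree hc (by omega) hχ hd
      exact R_split hc θ h10 hne
    · obtain ⟨θ, χ', -, -, H⟩ := halves_R_of_degree hc hodd (by omega) hχ hd
      rw [H.apply_ss h2 (SL_trace_sq_ne_of_split h10 hne), R_split hc θ h10 hne, zero_div]
  · intro hd hg
    rw [noRoot_iff] at hg
    rcases hd with hd | hd
    · obtain ⟨α, -, rfl⟩ := eq_W_of_degree hχ hd
      exact W_noRoot α hg
    · rcases irr_cases_deg hg hχ hd with ⟨_, e⟩ | ⟨_, e⟩ | ⟨_, e⟩ | ⟨⟨θ, hθ, rfl⟩, e⟩ |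
        ⟨⟨α, χ', -, -, H⟩, _⟩ | ⟨_, e⟩
      any_goals omega
      · exact R_noRoot_of_three (by omega) hg hθ
      · rw [H.apply_ss h2 (SL_trace_sq_ne_of_noRoot ((SL_noRoot_iff _).mp hg)), W_noRoot α hg,
          zero_div]

end Cfsg.Agent.S2322
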