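import Cfsg.Statements.S2324
import Cfsg.Agent.Lib.Char.SL2C

set_option autoImplicit false
open Cfsg
open Cfsg.Agent.Char Cfsg.Agent.SL2 Cfsg.Agent.Ch2

namespace Cfsg.Agent.S2324

/-- Over a finite field F with q elements, q odd and q ≥ 5, let u be the upper unitriangular matrix of SL₂ with off-diagonal entry 1 and let δ = (−1)^((q−1)/2). Every irreducible complex character χ of SL₂ of degree (q + 1)/2 satisfies (2χ(u) − 1)² = δq, and every irreducible complex character χ of degree (q − 1)/2 satisfies (2χ(u) + 1)² = δq; that is, χ(u) = (1 ± √(δq))/2 in the first case and χ(u) = (−1 ± √(δq))/2 in the second. Moreover two different irreducible characters of degree (q + 1)/2 take the two different values (their values at u add up to 1), and likewise for degree (q − 1)/2 (values adding up to −1). -/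
theorem result {F : Type*} [Field F] [Fintype F] (hodd : Odd (Fintype.card F)) (hq : 5 ≤ Fintype.card F)
    (u : Matrix.SpecialLinearGroup (Fin 2) F) (hu : (u : Matrix (Fin 2) (Fin 2) F) = !![1, 1; 0, 1]) :
    (∀ χ : Matrix.SpecialLinearGroup (Fin 2) F → ℂ, Cfsg.IsIrrCharacter (Matrix.SpecialLinearGroup (Fin 2) F) χ → χ 1 = (((Fintype.card F + 1) / 2 : ℕ) : ℂ) → (2 * χ u - 1) ^ 2 = (-1 : ℂ) ^ ((Fintype.card F - 1) / 2) * (Fintype.card F : ℂ)) ∧
    (∀ χ : Matrix.SpecialLinearGroup (Fin 2) F → ℂ, Cfsg.IsIrrCharacter (Matrix.SpecialLinearGroup (Fin 2) F) χ → χ 1 = (((Fintype.card F - 1) / 2 : ℕ) : ℂ) → (2 * χ u + 1) ^ 2 = (-1 : ℂ) ^ ((Fintype.card F - 1) / 2) * (Fintype.card F : ℂ)) ∧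
    (∀ χ₁ χ₂ : Matrix.SpecialLinearGroup (Fin 2) F → ℂ, Cfsg.IsIrrCharacter (Matrix.SpecialLinearGroup (Fin 2) F) χ₁ → Cfsg.IsIrrCharacter (Matrix.SpecialLinearGroup (Fin 2) F) χ₂ → χ₁ ≠ χ₂ →
      χ₁ 1 = (((Fintype.card F + 1) / 2 : ℕ) : ℂ) → χ₂ 1 = (((Fintype.card F + 1) / 2 : ℕ) : ℂ) → χ₁ u + χ₂ u = 1) ∧
    (∀ χ₁ χ₂ : Matrix.SpecialLinearGroup (Fin 2) F → ℂ, Cfsg.IsIrrCharacter (Matrix.SpecialLinearGroup (Fin 2) F) χ₁ → Cfsg.IsIrrCharacter (Matrix.SpecialLinearGroup (Fin 2) F) χ₂ → χ₁ ≠ χ₂ →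
      χ₁ 1 = (((Fintype.card F - 1) / 2 : ℕ) : ℂ) → χ₂ 1 = (((Fintype.card F - 1) / 2 : ℕ) : ℂ) → χ₁ u + χ₂ u = -1) := by
  classical
  obtain rfl : u = up 1 := SL_ext hu
  obtain ⟨c, hc⟩ := exists_noRoot_SL (F := F)
  have := isCyclic_Ct hc
  have h2 := two_ne_zero_of_odd hodd
  refine ⟨fun χ hχ h => ?_, fun χ hχ h => ?_, fun χ₁ χ₂ h₁ h₂ hne d₁ d₂ => ?_,
    fun χ₁ χ₂ h₁ h₂ hne d₁ d₂ => ?_⟩
  · obtain ⟨α, χ', -, -, H⟩ := halves_W_of_degree hodd hq hχ h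
    rw [← H.sub_sq h2 (fun t => W_up α) (by rw [W_one]; ring), ← W_up α one_ne_zero (t := 1),
      H.add, Pi.add_apply]
    ring
  · obtain ⟨θ, χ', -, -, H⟩ := halves_R_of_degree hc hodd hq hχ h
    have e := R_up hc θ one_ne_zero (t := 1)
    rw [H.add, Pi.add_apply] at e
    rw [← H.sub_sq h2 (fun t => R_up hc θ) (by rw [R_one hc]; ring)]
    congr 1
    linear_combination e
  · obtain ⟨α, χ', ha, ha1, H⟩ := halves_W_of_degree hodd hq h₁ d₁
    obtain ⟨β, χ'', hb, hb1, K⟩ := halves_W_of_degree hodd hq h₂ d₂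
    rw [mulChar_order_two_unique hb hb1 ha ha1] at K
    rw [← W_up α one_ne_zero (t := 1), H.add_eq_of_ne K hne, Pi.add_apply]
  · obtain ⟨α, χ', ha, ha1, H⟩ := halves_R_of_degree hc hodd hq h₁ d₁
    obtain ⟨β, χ'', hb, hb1, K⟩ := halves_R_of_degree hc hodd hq h₂ d₂
    rw [unitsHom_order_two_unique hb hb1 ha ha1] at K
    rw [← R_up hc α one_ne_zero (t := 1), H.add_eq_of_ne K hne, Pi.add_apply]

end Cfsg.Agent.S2324
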