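import Cfsg.Statements.S2325
import Cfsg.Agent.Lib.SL2.Unip

set_option autoImplicit false
open Cfsg

namespace Cfsg.Agent.S2325

open SL2 in
theorem aux {F : Type*} [Field F] [Finite F] (h2 : (2 : F) ≠ 0) :
    Nat.card (ConjClasses (Matrix.SpecialLinearGroup (Fin 2) F)) = Nat.card F + 4 := by
  classical
  have h22 : (2 : F) ≠ -2 := fun h => mul_ne_zero h2 h2 (by linear_combination h)
  let sg : F → Bool := fun t => decide (t = 2)
  let f : Matrix.SpecialLinearGroup (Fin 2) F → F ⊕ (Bool × Bool) := fun g =>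
    if IsScal g.1 then Sum.inr (sg g.1.trace, true) else
      if g.1.trace ^ 2 = 4 ∧ ¬ RepSq g.1 then Sum.inr (sg g.1.trace, false) else Sum.inl g.1.trace
  have hsg : ∀ s t : F, s ^ 2 = 4 → t ^ 2 = 4 → sg s = sg t → s = t := by
    intro s t hs ht h
    have h1 : s = 2 ∨ s = -2 := sq_eq_sq_iff_eq_or_eq_neg.1 (by rw [hs]; norm_num)
    have h3 : t = 2 ∨ t = -2 := sq_eq_sq_iff_eq_or_eq_neg.1 (by rw [ht]; norm_num)
    rcases h1 with rfl | rfl <;> rcases h3 with rfl | rfl <;> simp_all [sg, h22.symm]
  have t1 : (1 : Matrix.SpecialLinearGroup (Fin 2) F).1.trace = 2 := by simp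
  have t2 : (-1 : Matrix.SpecialLinearGroup (Fin 2) F).1.trace = -2 := by simp
  rw [card_conjClasses_of_invariant' f]
  · simp
  · intro g h
    by_cases hg : IsScal g.1 <;> by_cases hh : IsScal h.1
    · simp only [f, hg, hh, ↓reduceIte, Sum.inr.injEq, Prod.mk.injEq, and_true]
      refine ⟨fun hc => by rw [SL_trace_of_isConj hc], fun e => ?_⟩
      rcases SL_isScal_iff.1 hg with rfl | rfl <;> rcases SL_isScal_iff.1 hh with rfl | rfl
      · exact IsConj.refl _
      · rw [t1, t2] at e; simp [sg, h22.symm] at e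
      · rw [t1, t2] at e; simp [sg, h22.symm] at e
      · exact IsConj.refl _
    · refine iff_of_false (fun hc => hh ((SL_isScal_iff_of_isConj hc).1 hg)) ?_
      simp only [f, hg, hh, ↓reduceIte]
      split_ifs <;> simp
    · refine iff_of_false (fun hc => hg ((SL_isScal_iff_of_isConj hc).2 hh)) ?_
      simp only [f, hg, hh, ↓reduceIte]
      split_ifs <;> simp
    · simp only [f, hg, hh, ↓reduceIte]
      constructor
      · intro hc
        have ht := SL_trace_of_isConj hc
        by_cases hd : g.1.trace ^ 2 = 4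
        · have := (SL_isConj_iff_repSq h2 hg hh ht hd).1 hc
          rw [← ht, this]
        · rw [← ht]; simp [hd]
      · intro e
        by_cases hd : g.1.trace ^ 2 = 4
        · by_cases hd' : h.1.trace ^ 2 = 4
          · by_cases r1 : RepSq g.1 <;> by_cases r2 : RepSq h.1 <;> simp [hd, hd', r1, r2] at e
            · exact (SL_isConj_iff_repSq h2 hg hh e hd).2 (by simp [r1, r2])
            · exact (SL_isConj_iff_repSq h2 hg hh (hsg _ _ hd hd' e) hd).2 (by simp [r1, r2])
          · by_cases r1 : RepSq g.1 <;> simp [hd, hd', r1] at e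
            exact absurd (e ▸ hd) hd'
        · by_cases hd' : h.1.trace ^ 2 = 4 ∧ ¬ RepSq h.1 <;> simp [hd, hd'] at e
          exact SL_isConj_of_trace' e hd
  · obtain ⟨n, hn0, hn⟩ := exists_not_isSquare h2
    rintro (t | ⟨b, c⟩)
    · by_cases hd : t ^ 2 = 4
      · refine ⟨cmp t, ?_⟩
        have : RepSq (comp t (1 : F)) := ⟨1, 0, by simp [qf, comp], by simp [qf, comp]⟩
        simp [f, not_isScal_comp, this]
      · exact ⟨cmp t, by simp [f, not_isScal_comp, hd]⟩
    · rcases b with _ | _ <;> rcases c with _ | _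
      · refine ⟨-up n, ?_⟩
        have e1 : ¬ IsScal (-up n).1 := by rwa [SL_coe_neg, isScal_neg, isScal_up_iff]
        have e2 : (-up n).1.trace = -2 := by rw [SL_coe_neg, Matrix.trace_neg, trace_up]
        have e3 : ¬ RepSq (-up n).1 := by rwa [repSq_neg_up_iff h2 hn0]
        simp only [f, e1, e2, e3]
        simp [sg, h22.symm]; norm_num
      · refine ⟨-1, ?_⟩
        have e1 : IsScal (-1 : Matrix.SpecialLinearGroup (Fin 2) F).1 := SL_isScal_iff.2 (Or.inr rfl)
        simp only [f, e1, t2]
        simp [sg, h22.symm]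
      · refine ⟨up (-n), ?_⟩
        have e1 : ¬ IsScal (up (-n)).1 := by rwa [isScal_up_iff, neg_eq_zero]
        have e3 : ¬ RepSq (up (-n)).1 := by rwa [repSq_up_iff h2 (neg_ne_zero.2 hn0), neg_neg]
        simp only [f, e1, trace_up, e3]
        simp [sg]; norm_num
      · refine ⟨1, ?_⟩
        have e1 : IsScal (1 : Matrix.SpecialLinearGroup (Fin 2) F).1 := SL_isScal_iff.2 (Or.inl rfl)
        simp only [f, e1, t1]
        simp [sg]

/-- Over a finite field with q elements, q odd, the special linear group SL₂ has exactly q + 4 conjugacy classes. -/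
theorem result {F : Type*} [Field F] [Fintype F] (hodd : Odd (Fintype.card F)) :
    Nat.card (ConjClasses (Matrix.SpecialLinearGroup (Fin 2) F)) = Fintype.card F + 4 := by
  rw [← Nat.card_eq_fintype_card] at hodd ⊢
  exact aux (SL2.odd_card_iff.1 hodd)

end Cfsg.Agent.S2325
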