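import Cfsg.Statements.S2331
import Cfsg.Agent.Lib.SL2.Unip

set_option autoImplicit false
open Cfsg

namespace Cfsg.Agent.S2331

open SL2 in
theorem aux {F : Type*} [Field F] [Finite F] (h2 : (2 : F) = 0) :
    Nat.card (ConjClasses (Matrix.SpecialLinearGroup (Fin 2) F)) = Nat.card F + 1 := by
  classical
  let f : Matrix.SpecialLinearGroup (Fin 2) F → Option F := fun g =>
    if IsScal g.1 then none else some g.1.trace
  rw [card_conjClasses_of_invariant' f]
  · simp
  · intro g h
    have key : ∀ g : Matrix.SpecialLinearGroup (Fin 2) F, IsScal g.1 → g = 1 := fun g hg => by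
      simpa [SL_neg_eq_self h2] using SL_isScal_iff.1 hg
    by_cases hg : IsScal g.1 <;> by_cases hh : IsScal h.1 <;> simp only [f, hg, hh] <;>
      simp only [↓reduceIte, iff_true, reduceCtorEq, iff_false, Option.some.injEq]
    · rw [key g hg, key h hh]; exact IsConj.refl _
    · exact fun hc => hh ((SL_isScal_iff_of_isConj hc).1 hg)
    · exact fun hc => hg ((SL_isScal_iff_of_isConj hc).2 hh)
    · exact ⟨SL_trace_of_isConj, fun ht => SL_isConj_of_trace hg hh ht (Or.inr h2)⟩
  · rintro (_ | t)
    · exact ⟨1, by simp [f, isScal_one]⟩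
    · exact ⟨cmp t, by simp [f, not_isScal_comp]⟩

/-- Over a finite field with q elements, q even, the special linear group SL₂ has exactly q + 1 conjugacy classes. -/
theorem result {F : Type*} [Field F] [Fintype F] [CharP F 2] :
    Nat.card (ConjClasses (Matrix.SpecialLinearGroup (Fin 2) F)) = Fintype.card F + 1 := by
  rw [aux (by exact_mod_cast CharP.cast_eq_zero F 2), Nat.card_eq_fintype_card]

end Cfsg.Agent.S2331
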