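import Cfsg.Statements.S2362
import Cfsg.Agent.Lib.Forms.OSpec2

set_option autoImplicit false
open Cfsg

namespace Cfsg.Agent.S2362

open Forms Forms.Form

theorem exists_lcm {q : ℕ} (hq : 3 ≤ q) (ho : Odd q) {ι : Type*} (s : Finset ι) (k : ι → ℕ)
    (hk : ∀ i, 0 < k i) (ε : ι → Bool) : ∃ L, 0 < L ∧ 2 ∣ L ∧ (∀ i ∈ s, tq q (k i) (ε i) ∣ L) ∧
      3 ^ s.card * L ≤ 2 * 2 ^ s.card * q ^ ∑ i ∈ s, k i := by
  classical
  induction s using Finset.induction_on with
  | empty => exact ⟨2, by simp⟩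
  | insert i s hi ih =>
    obtain ⟨_, h1, ⟨L, rfl⟩, h3, h4⟩ := ih
    obtain ⟨c, hc⟩ := ho.pow (n := k i)
    have h5 : q ≤ q ^ k i := Nat.le_self_pow (hk i).ne' q
    obtain ⟨t, ht, h6, h7⟩ : ∃ t, tq q (k i) (ε i) = 2 * t ∧ 0 < t ∧ 3 * t ≤ 2 * q ^ k i := by
      cases ε i
      exacts [⟨c, by simp; omega, by omega, by omega⟩, ⟨c + 1, by simp; omega, by omega, by omega⟩]
    refine ⟨2 * L * t, by positivity, (dvd_mul_right 2 L).mul_right t, fun j hj => ?_, ?_⟩
    · rcases Finset.mem_insert.1 hj with rfl | hj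
      · exact ⟨L, by rw [ht]; ring⟩
      · exact (h3 j hj).mul_right t
    · rw [Finset.card_insert_of_notMem hi, Finset.sum_insert hi]
      calc _ = (3 ^ s.card * (2 * L)) * (3 * t) := by ring
        _ ≤ (2 * 2 ^ s.card * q ^ ∑ i ∈ s, k i) * (2 * q ^ k i) := Nat.mul_le_mul h4 h7
        _ = _ := by ring

theorem not_odat {p q n : ℕ} (hp : p.Prime) (hq : 3 ≤ q) (ho : Odd q) (hn : 2 ≤ n) (hpq : p ∣ q) :
    ¬ ODat p q (2 * (n + 1) + 1) (p * (q ^ n + 1)) := by
  rintro ⟨a, b, r, k, e, ε, K, h1, h3, h4, ⟨c, h5⟩, h6, h7, h8⟩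
  have c1 : ∀ {k} ε, 0 < k → ¬ p ∣ tq q k ε := fun {k} ε hk h => by
    have h1 : p ∣ q ^ k := dvd_pow hpq hk.ne'
    have h2 : 0 < q ^ k := by positivity
    cases ε
    · exact hp.one_lt.ne' (Nat.dvd_one.1 ((Nat.dvd_add_right h).1 (by simpa [Nat.sub_add_cancel h2])))
    · exact hp.one_lt.ne' (Nat.dvd_one.1 ((Nat.dvd_add_right h1).1 h))
  have c2 : ∀ m, p * (q ^ n + 1) ∣ p ^ K * m → q ^ n + 1 ∣ m := fun m h =>
    ((hp.coprime_iff_not_dvd.2 (c1 true (by omega))).symm.pow_right K).dvd_of_dvd_mul_left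
      ((dvd_mul_left _ _).trans h)
  have c3 : K ≠ 0 := by
    rintro rfl
    have := (dvd_mul_right _ _).trans (h7 (2 * ∏ i, tq q (k i) (ε i)) (fun _ => dvd_mul_right _ _)
      fun i => (Finset.dvd_prod_of_mem _ (Finset.mem_univ i)).mul_left _)
    rw [pow_zero, one_mul, hp.dvd_mul] at this
    rcases this with h | h
    · exact ho.not_two_dvd_nat ((Nat.prime_dvd_prime_iff_eq hp Nat.prime_two).1 h ▸ hpq)
    · obtain ⟨i, -, hi⟩ := (hp.prime.dvd_finsetProd_iff _).1 h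
      exact c1 _ (h1 i) hi
  have b0 : ∀ i ∈ Finset.univ, k i ≤ k i * e i := fun i _ => Nat.le_mul_of_pos_right _ (h3 i)
  have b1 := Finset.sum_le_sum b0
  have b2 : ∑ i, k i = ∑ i, k i * e i → ∀ i, e i = 1 := fun h i => (Nat.mul_eq_left (h1 i).ne').1
    ((Finset.sum_eq_sum_iff_of_le b0).1 h i (Finset.mem_univ i)).symm
  have c4 : ∑ i, k i ≤ n := by
    by_contra h
    exact c3 (Nat.le_zero.1 (h6 0 (by rw [pow_zero]; omega) (by omega) fun i => (b2 (by omega) i).le))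
  obtain ⟨L, d1, d2, d3, d4⟩ := exists_lcm hq ho Finset.univ k h1 ε
  have d5 := Nat.le_of_dvd d1 (c2 _ (h7 L (fun _ => d2) fun i => d3 i (Finset.mem_univ i)))
  have d6 : q ^ ∑ i, k i ≤ q ^ n := Nat.pow_le_pow_right (by omega) c4
  have d7 : q ^ 2 ≤ q ^ n := Nat.pow_le_pow_right (by omega) hn
  rw [Finset.card_univ, Fintype.card_fin] at d4
  rcases r with _ | _ | r
  · simp at d4; nlinarith
  · rw [Fin.sum_univ_succ, Fin.sum_univ_zero, add_zero] at h4 c4
    obtain ⟨j, hj⟩ := ho.pow (n := k 0)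
    have d8 := Nat.le_of_dvd (tq_pos (by omega) (h1 0) _) (c2 _ (h7 (tq q (k 0) (ε 0))
      (fun _ => by cases ε 0 <;> simp <;> omega) fun i => by rw [Subsingleton.elim (α := Fin 1) i 0]))
    have d9 : tq q (k 0) (ε 0) ≤ q ^ k 0 + 1 := by cases ε 0 <;> simp <;> omega
    have d10 : n ≤ k 0 := (Nat.pow_le_pow_iff_right (a := q) (by omega)).1 (by omega)
    have d11 : e 0 = 1 := by have := h3 0; nlinarith
    have d12 : q ^ k 0 ≤ q ^ n := Nat.pow_le_pow_right (by omega) c4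
    rw [d11] at h4
    by_cases hb : b = 0
    · have := Nat.le_of_dvd (by omega) (c2 _ (h8 hb 0 (fun j => Subsingleton.elim (α := Fin 1) _ _) d11))
      omega
    · exact c3 (Nat.le_zero.1 (h6 0 (by rw [pow_zero]; omega) (by rw [pow_zero]; omega) fun i => by
        rw [Subsingleton.elim (α := Fin 1) i 0]; exact d11.le.trans (by simp)))
  · have : 2 * 2 ^ (r + 1 + 1) ≤ 3 ^ (r + 1 + 1) := by
      have := Nat.pow_le_pow_left (show 2 ≤ 3 by omega) r
      rw [pow_succ, pow_succ, pow_succ, pow_succ]; omega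
    have := Nat.le_of_mul_le_mul_left (d4.trans (Nat.mul_le_mul this d6)) (by positivity)
    omega

/-- Let F be a finite field of odd order and n ≥ 3. The simple orthogonal group PΩ(2n+1, F) (type B_n) and the projective symplectic group PSp(2n, F) (type C_n), which have the same order, do not have the same set of element orders. -/
theorem result {F : Type*} [Field F] [Fintype F] (hodd : Odd (Fintype.card F)) (n : ℕ) (hn : 3 ≤ n) :
    Set.range (orderOf : Cfsg.POmega F (Cfsg.quadFormOdd n F) → ℕ) ≠ Set.range (orderOf : Cfsg.PSp n F → ℕ) := by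
  have h2 := two_ne_zero_of_odd hodd
  obtain ⟨p, hc⟩ := CharP.exists F
  have hp := CharP.char_is_prime F p
  haveI : Fact p.Prime := ⟨hp⟩
  obtain ⟨n, rfl⟩ : ∃ m, n = m + 1 := ⟨n - 1, by omega⟩
  rw [range_orderOf_POmega_odd h2 (by omega)]
  intro h
  obtain ⟨ζ, h1, h0, h3⟩ := exists_primRoot_of_dvd_tq (F := F) (k := n) (ε := true) (by omega) dvd_rfl
  obtain ⟨x, hx⟩ := ((realz_orb2_ss p h0 h3).add (realz_sp_unip 1 (k := 1)
    (Nat.clog_pos hp.one_lt one_lt_two))).exists_PSp p (n := n + 1) (by omega) (by simp; ring)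
  have h4 : p * (Fintype.card F ^ n + 1) ∣ orderOf x := by
    obtain ⟨h5, h6⟩ := (hx _).1 dvd_rfl
    refine (coprime_tq p (k := n) (by omega) true).symm.mul_dvd_of_dvd_of_dvd (by simpa using h6)
      (h1.dvd_of_pow_eq_one _ ?_)
    simpa using h5 ζ (Multiset.mem_add.2 (Or.inl (self_mem_orb2 (by omega)))) 1 (by simp)
  obtain ⟨g, hg⟩ := h.ge (mem_range_orderOf_of_dvd h4)
  have h5 := (oddForm_nondeg (n + 1) h2).odat_orderOf p h2 g
  rw [hg, finrank_odd] at h5
  obtain ⟨k, -, hk⟩ := FiniteField.card F p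
  have h6 : 1 < Fintype.card F := Fintype.one_lt_card
  exact not_odat hp (by obtain ⟨c, hc⟩ := hodd; omega) hodd (by omega)
    (hk ▸ dvd_pow_self p k.ne_zero) h5

end Cfsg.Agent.S2362
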