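import Cfsg.Statements.S2365
import Cfsg.Agent.Lib.Forms.USpec

set_option autoImplicit false
open Cfsg

namespace Cfsg.Agent.S2365

open Forms

theorem dvd_card_PSU {F : Type*} [Field F] [Fintype F] {n q : ℕ} (x : PSU n F q) :
    orderOf x ∣ Nat.card (SU n F q) :=
  (orderOf_dvd_natCard x).trans (Subgroup.card_quotient_dvd_card _)

theorem prime_dvd_card {F : Type*} [Field F] [Fintype F] (p : ℕ) [Fact p.Prime] [CharP F p]
    {n q t k : ℕ} (hF : Fintype.card F = q ^ 2) (hn : 2 ≤ n) (ht : t.Prime) (hk : 0 < k)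
    (hkn : k ≤ n) (h : t ∣ qu q k) : t ∣ Nat.card (SU n F q) := by
  have hu1 : qu q 1 = q + 1 := by rw [qu_of_odd odd_one, pow_one]
  by_cases h1 : t ∣ q + 1
  · obtain ⟨ζ, hζ, hζ0, hζq⟩ := exists_primRoot_of_dvd_qu hF one_pos (hu1 ▸ h1 : t ∣ _)
    obtain ⟨x, hx⟩ := exists_SU_of_uspec p hF (n := n) (ι := Bool ⊕ Fin (n - 2))
      (Sum.elim (fun b => if b then ζ else ζ⁻¹) fun _ => 1) (fun _ => 1) (fun _ => 1)
      (by rintro ((_ | _) | _) <;> simp [hζ0]) (fun _ => one_pos) (fun _ => one_pos)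
      (by
        rintro ((_ | _) | _)
        · simp only [Sum.elim_inl, Bool.false_eq_true, if_false]
          rw [psi_iterate_eq_iff (inv_ne_zero hζ0), inv_pow, (psi_iterate_eq_iff hζ0 1).1 hζq,
            inv_one]
        · exact hζq
        · simp [psi]) (by simp; omega) (by simp [Fintype.prod_sum_type, hζ0])
    exact ((hζ.pow_eq_one_iff_dvd _).1 ((hx _).1 dvd_rfl (Sum.inl true)).1).trans
      (orderOf_dvd_natCard x)
  · rw [← succ_mul_gsu] at h
    obtain ⟨x, hx⟩ := exists_PSU_of_dvd_gsu p hF hn (ι := Unit) (fun _ => t) (fun _ => k)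
      (fun _ => 1) (fun _ => hk) (fun _ => one_pos)
      (fun _ => (ht.dvd_mul.1 h).resolve_left h1) (by simpa)
    exact ((ht.dvd_mul.1 (hx ()).1).resolve_right h1).trans (dvd_card_PSU x)


/-- Let q be a power of the prime p, F the field with q² elements, m ≥ 4, and let a, b be commuting elements of PSU(m, q) with a of order p. Then every prime divisor of the order of b divides the order of SU(m − 2, q). -/
theorem result {F : Type*} [Field F] [Fintype F] (p : ℕ) [Fact p.Prime] [CharP F p] (m q : ℕ) (hm : 4 ≤ m) (hF : Fintype.card F = q ^ 2)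
    (a b : Cfsg.PSU m F q) (ha : orderOf a = p) (hab : Commute a b) :
    (orderOf b).primeFactors ⊆ (Nat.card ↥(Cfsg.SU (m - 2) F q)).primeFactors := by
  have hp : p.Prime := Fact.out
  intro t ht
  have htp := Nat.prime_of_mem_primeFactors ht
  have htb := Nat.dvd_of_mem_primeFactors ht
  refine Nat.mem_primeFactors.2 ⟨htp, ?_, Nat.card_pos.ne'⟩
  by_cases h1 : t = p
  · subst h1
    obtain ⟨x, hx⟩ := exists_PSU_of_dvd_gsu t hF (n := m - 2) (by omega) (ι := Unit) (fun _ => 1)
      (fun _ => 1) (fun _ => 2) (fun _ => one_pos) (fun _ => two_pos) (fun _ => one_dvd _)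
      (by simp; omega)
    exact ((dvd_pow_self t (Nat.clog_pos hp.one_lt one_lt_two).ne').trans (hx ()).2.1).trans
      (dvd_card_PSU x)
  have hb : orderOf (b ^ (orderOf b / t)) = t := orderOf_pow_orderOf_div (orderOf_pos b).ne' htb
  have hx : orderOf (b ^ (orderOf b / t) * a) = t * p := by
    rw [(hab.symm.pow_left _).orderOf_mul_eq_mul_orderOf_of_coprime, hb, ha]
    rw [hb, ha]
    exact (Nat.coprime_primes htp hp).2 h1
  obtain ⟨r, α, k, e, h0, hk, he, hfix, hsum, -, hord⟩ :=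
    exists_uspec_PSU p hF (by omega) (b ^ (orderOf b / t) * a)
  rw [hx] at hord
  have hα : ∀ i, α i ^ ∏ i, qu q (k i) = 1 := by
    intro i
    obtain ⟨u, hu⟩ := Finset.dvd_prod_of_mem (fun i => qu q (k i)) (Finset.mem_univ i)
    rw [hu, pow_mul, (psi_iterate_eq_iff (h0 i) _).1 ((hfix i _).2 dvd_rfl), one_pow]
  obtain ⟨i, hi⟩ : ∃ i, 2 ≤ e i := by
    by_contra h2
    have h3 : t * p ∣ ∏ i, qu q (k i) := by
      refine (hord _).2 ⟨1, one_pow _, fun i => ⟨hα i, ?_⟩⟩
      have : e i = 1 := by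
        have := he i
        have := not_exists.1 h2 i
        omega
      simp [this]
    obtain ⟨i, -, hi⟩ := (hp.prime.dvd_finsetProd_iff _).1 ((dvd_mul_left _ _).trans h3)
    exact hp.coprime_iff_not_dvd.1 (coprime_qu p hF (hk i)).symm hi
  obtain ⟨j, hj⟩ : ∃ j, t ∣ qu q (k j) := by
    have h3 : t * p ∣ p ^ (Finset.univ.sup fun i => Nat.clog p (e i)) * ∏ i, qu q (k i) := by
      refine (hord _).2 ⟨1, one_pow _, fun i => ⟨?_, Dvd.dvd.mul_right
        ((pow_sup_dvd_iff _ _ _).1 dvd_rfl i) _⟩⟩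
      rw [mul_comm, pow_mul, hα, one_pow]
    rcases htp.dvd_mul.1 ((dvd_mul_right _ _).trans h3) with h | h
    · exact absurd ((Nat.prime_dvd_prime_iff_eq htp hp).1 (htp.dvd_of_dvd_pow h)) h1
    · obtain ⟨i, -, hi⟩ := (htp.prime.dvd_finsetProd_iff _).1 h
      exact ⟨i, hi⟩
  refine prime_dvd_card p hF (by omega) htp (hk j) ?_ hj
  have hi2 : 2 * k i ≤ k i * e i := by nlinarith
  have hle : k j ≤ k j * e j := Nat.le_mul_of_pos_right _ (he j)
  have := hk i
  by_cases hij : j = i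
  · subst hij
    have := GLn.single_le_of_sum_eq hsum j
    omega
  · have := GLn.pair_le_of_sum_eq hsum hij
    omega

end Cfsg.Agent.S2365
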