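import Cfsg.Statements.S2366
import Cfsg.Agent.Lib.Forms.USpec

set_option autoImplicit false
open Cfsg

namespace Cfsg.Agent.S2366

open Forms


/-- The set of element orders of PSU(3, q) for an odd prime power q = p^n: writing d = gcd(3, q + 1), a positive integer is the order of some element exactly when it divides one of q + 1, p(q + 1)/d, (q² − 1)/d, (q² − q + 1)/d. -/
theorem result {F : Type*} [Field F] [Fintype F] (p : ℕ) [Fact p.Prime] [CharP F p] (hp : p ≠ 2) (q : ℕ) (hF : Fintype.card F = q ^ 2) :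
    Set.range (orderOf : Cfsg.PSU 3 F q → ℕ) =
      {s : ℕ | s ∣ q + 1} ∪ {s : ℕ | s ∣ p * (q + 1) / Nat.gcd 3 (q + 1)} ∪
        {s : ℕ | s ∣ (q ^ 2 - 1) / Nat.gcd 3 (q + 1)} ∪ {s : ℕ | s ∣ (q ^ 2 - q + 1) / Nat.gcd 3 (q + 1)} := by
  classical
  have hpp : p.Prime := Fact.out
  have hq : 2 ≤ q := two_le_q hF
  have hp3 : 3 ≤ p := by have := hpp.two_le; omega
  set d := Nat.gcd 3 (q + 1) with hd
  have hd3 : d ∣ 3 := Nat.gcd_dvd_left _ _
  have hdq : d ∣ q + 1 := Nat.gcd_dvd_right _ _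
  have hd0 : 0 < d := Nat.gcd_pos_of_pos_left _ (by norm_num)
  have hc2 : Nat.clog p 2 = 1 := by
    apply le_antisymm (Nat.clog_le_of_le_pow (by simpa using hpp.two_le))
    exact Nat.clog_pos hpp.one_lt one_lt_two
  have hc3 : Nat.clog p 3 = 1 := by
    apply le_antisymm (Nat.clog_le_of_le_pow (by simpa using hp3))
    exact Nat.clog_pos hpp.one_lt (by norm_num)
  have hpd : p * (q + 1) / d = p * ((q + 1) / d) := Nat.mul_div_assoc _ hdq
  have hu1 : qu q 1 = q + 1 := by rw [qu_of_odd odd_one, pow_one]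
  have hu2 : qu q 2 = q ^ 2 - 1 := qu_of_even (by omega) even_two
  have hq2 : q ^ 2 - 1 = (q + 1) * (q - 1) := by
    have := Nat.sq_sub_sq q 1
    simpa using this
  have hg3 : gsu q 3 = q ^ 2 - q + 1 := by
    rw [← natAbs_gz, gz_three]
    have : q ≤ q ^ 2 := by nlinarith
    zify [this]
    exact abs_of_nonneg (by nlinarith)
  have hdq2 : d ∣ q - 2 := by
    have : q - 2 = (q + 1) - 3 := by omega
    rw [this]
    exact Nat.dvd_sub hdq hd3
  apply Set.Subset.antisymm
  · rintro _ ⟨x, rfl⟩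
    obtain ⟨t, α, k, e, h0, hk, he, hfix, hsum, hdet, hord⟩ := exists_uspec_PSU p hF (by norm_num) x
    have hke : ∀ i, 1 ≤ k i * e i := fun i => Nat.mul_pos (hk i) (he i)
    have ht : t ≤ 3 := by
      have := Finset.card_nsmul_le_sum Finset.univ (fun i => k i * e i) 1 (fun i _ => hke i)
      simpa [hsum] using this
    have hF1 : ∀ i, k i = 1 → α i ^ (q + 1) = 1 := fun i h => by
      rw [← hu1, ← psi_iterate_eq_iff (h0 i), hfix, h]
    have hF2 : ∀ i, k i = 2 → α i ^ (q ^ 2 - 1) = 1 := fun i h => by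
      rw [← hu2, ← psi_iterate_eq_iff (h0 i), hfix, h]
    have hmul1 : ∀ a b : ℕ, a * b = 1 → a = 1 ∧ b = 1 := fun a b h =>
      ⟨Nat.eq_one_of_mul_eq_one_right h, Nat.eq_one_of_mul_eq_one_left h⟩
    have hmul2 : ∀ a b : ℕ, a * b = 2 → (a = 1 ∧ b = 2) ∨ (a = 2 ∧ b = 1) := fun a b h => by
      have h1 : a ≤ 2 := Nat.le_of_dvd two_pos ⟨b, h.symm⟩
      interval_cases a <;> omega
    have hmul3 : ∀ a b : ℕ, a * b = 3 → (a = 1 ∧ b = 3) ∨ (a = 3 ∧ b = 1) := fun a b h => by
      have h1 : a ≤ 3 := Nat.le_of_dvd three_pos ⟨b, h.symm⟩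
      interval_cases a <;> omega
    have hpw : ∀ (c : Kc F) (m : ℕ), c ^ (q + 1) = 1 → (c ^ m) ^ (q + 1) = 1 := fun c m h => by
      rw [← pow_mul, mul_comm, pow_mul, h, one_pow]
    have two : ∀ i j : Fin t, (∀ l, l = i ∨ l = j) → k i * e i = 2 → k j * e j = 1 →
        α i ^ (e i * gz q (k i)) * α j ^ (e j * gz q (k j)) = 1 →
        orderOf x ∣ (q ^ 2 - 1) / d ∨ orderOf x ∣ p * (q + 1) / d := by
      intro i j hij hi hj hdet
      obtain ⟨hj1, hj2⟩ := hmul1 _ _ hj
      rw [hj1, hj2] at hdet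
      simp only [gz_one, mul_one, Nat.cast_one, zpow_one] at hdet
      rcases hmul2 _ _ hi with ⟨hi1, hi2⟩ | ⟨hi1, hi2⟩
      · right
        rw [hi1, hi2, gz_one, mul_one, zpow_natCast] at hdet
        refine (hord _).2 ⟨α j ^ (p * (q + 1) / d), hpw _ _ (hF1 j hj1), fun l => ?_⟩
        rcases hij l with rfl | rfl
        · refine ⟨?_, by rw [hi2, hc2, pow_one, hpd]; exact dvd_mul_right _ _⟩
          apply mul_right_cancel₀ (pow_ne_zero (p * (q + 1) / d) (pow_ne_zero 2 (h0 l)))
          rw [← mul_pow, ← mul_pow, mul_comm (α j), hdet, one_pow, ← pow_succ', ← pow_mul, hpd]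
          obtain ⟨u, hu⟩ := hd3
          have : (2 + 1) * (p * ((q + 1) / d)) = (q + 1) * (u * p) := by
            rw [show 2 + 1 = 3 from rfl]
            conv_lhs => rw [hu]
            conv_rhs => rw [← Nat.div_mul_cancel hdq]
            ring
          rw [this, pow_mul, hF1 l hi1, one_pow]
        · exact ⟨rfl, by simp [hj2]⟩
      · left
        rw [hi1, hi2, gz_two, Nat.cast_one, one_mul] at hdet
        have h3 : α j = α i ^ (q - 1) := by
          rw [← zpow_natCast, ← mul_one (α i ^ _), ← hdet, ← mul_assoc, ← zpow_add₀ (h0 i)]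
          simp [show 1 ≤ q by omega]
        refine (hord _).2 ⟨α j ^ ((q ^ 2 - 1) / d), hpw _ _ (hF1 j hj1), fun l => ?_⟩
        rcases hij l with rfl | rfl
        · refine ⟨?_, by simp [hi2]⟩
          obtain ⟨u, hu⟩ := hdq2
          have h1 : d ∣ q ^ 2 - 1 := hq2 ▸ hdq.mul_right _
          have : (q - 1) * ((q ^ 2 - 1) / d) = (q ^ 2 - 1) * u + (q ^ 2 - 1) / d := by
            rw [show q - 1 = q - 2 + 1 by omega, hu]
            conv_rhs => rw [← Nat.div_mul_cancel h1]
            rw [Nat.mul_div_cancel _ hd0]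
            ring
          rw [h3, ← pow_mul, this, pow_add, pow_mul, hF2 l hi1, one_pow, one_mul]
        · exact ⟨rfl, by simp [hj2]⟩
    simp only [Set.mem_union, Set.mem_ofPred_eq]
    interval_cases t
    · simp at hsum
    · simp only [Finset.univ_unique, Fin.default_eq_zero, Finset.sum_singleton,
        Finset.prod_singleton] at hsum hdet
      rcases hmul3 _ _ hsum with ⟨h1, h2⟩ | ⟨h1, h2⟩
      · refine Or.inl (Or.inl (Or.inr ((hord _).2 ⟨_, hpw _ (p * (q + 1) / d) (hF1 0 h1), fun l => ?_⟩)))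
        obtain rfl : l = 0 := Subsingleton.elim _ _
        exact ⟨rfl, by rw [h2, hc3, hpd, pow_one]; exact dvd_mul_right _ _⟩
      · right
        rw [h1, h2, Nat.cast_one, one_mul, zpow_gz_eq_one_iff, hg3] at hdet
        have h3 : d ∣ q ^ 2 - q + 1 := by
          rw [← hg3, hd, ← gcd_gsu_succ]
          exact Nat.gcd_dvd_left _ _
        refine (hord _).2 ⟨α 0 ^ ((q ^ 2 - q + 1) / d), ?_, fun l => ?_⟩
        · have : (q ^ 2 - q + 1) / d * (q + 1) = (q ^ 2 - q + 1) * ((q + 1) / d) := by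
            conv_lhs => rw [← Nat.div_mul_cancel hdq]
            conv_rhs => rw [← Nat.div_mul_cancel h3]
            ring
          rw [← pow_mul, this, pow_mul, hdet, one_pow]
        obtain rfl : l = 0 := Subsingleton.elim _ _
        exact ⟨rfl, by simp [h2]⟩
    · rw [Fin.sum_univ_two] at hsum
      rw [Fin.prod_univ_two] at hdet
      have h1 := hke 0
      have h2 := hke 1
      have : orderOf x ∣ (q ^ 2 - 1) / d ∨ orderOf x ∣ p * (q + 1) / d := by
        by_cases h3 : k 0 * e 0 = 2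
        · exact two 0 1 (by decide) h3 (by omega) hdet
        · exact two 1 0 (by decide) (by omega) (by omega) (by rw [mul_comm]; exact hdet)
      rcases this with h | h
      · exact Or.inl (Or.inr h)
      · exact Or.inl (Or.inl (Or.inr h))
    · rw [Fin.sum_univ_three] at hsum
      have h1 := hke 0
      have h2 := hke 1
      have h3 := hke 2
      have h4 : ∀ i, k i * e i = 1 := by
        intro i
        fin_cases i <;> simp only [Fin.zero_eta, Fin.mk_one, Fin.reduceFinMk] <;> omega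
      refine Or.inl (Or.inl (Or.inl ((hord _).2 ⟨1, one_pow _, fun i => ⟨?_, ?_⟩⟩)))
      · rw [hF1 i (hmul1 _ _ (h4 i)).1]
      · simp [(hmul1 _ _ (h4 i)).2]
  · obtain ⟨ζ, hζ, hζ0, hζq⟩ := exists_primRoot_of_dvd_qu hF one_pos (hu1 ▸ dvd_rfl : q + 1 ∣ _)
    have hζi : ∀ a : ℕ, (psi q)^[1] (ζ ^ a)⁻¹ = (ζ ^ a)⁻¹ := fun a => by
      rw [psi_iterate_eq_iff (inv_ne_zero (pow_ne_zero _ hζ0)), hu1, inv_pow, ← pow_mul, mul_comm,
        pow_mul, hζ.pow_eq_one, one_pow, inv_one]
    rintro m (((hm | hm) | hm) | hm)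
    · obtain ⟨x, c, -, hc1, hc⟩ := exists_PSU_of_uspec_le p hF (n := 3) (by norm_num) (ι := Bool)
        (fun b => if b then ζ else (ζ ^ 1)⁻¹) (fun _ => 1) (fun _ => 1)
        (by rintro (_ | _) <;> simp [hζ0]) (fun _ => one_pos) (fun _ => one_pos)
        (by rintro (_ | _); exacts [hζi 1, hζq]) (by simp) (by simp [hζ0])
      refine GLn.mem_range_orderOf_of_dvd x (hm.trans ?_)
      rw [← hζ.pow_eq_one_iff_dvd, ← hc1 (by simp)]
      exact (hc true).1
    · obtain ⟨x, c, -, -, hc⟩ := exists_PSU_of_uspec_le p hF (n := 3) (by norm_num) (ι := Bool)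
        (fun b => if b then ζ else (ζ ^ 2)⁻¹) (fun _ => 1) (fun b => if b then 2 else 1)
        (by rintro (_ | _) <;> simp [hζ0]) (fun _ => one_pos) (by rintro (_ | _) <;> simp)
        (by rintro (_ | _); exacts [hζi 2, hζq]) (by simp) (by simp [hζ0, zpow_ofNat])
      have h3 := hc true
      have h4 := (hc false).1
      simp only [if_true, hc2, pow_one] at h3
      simp only [Bool.false_eq_true, if_false] at h4
      refine GLn.mem_range_orderOf_of_dvd x (hm.trans ?_)
      have h5 : q + 1 ∣ orderOf x * 3 := by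
        rw [← hζ.pow_eq_one_iff_dvd]
        rw [← h3.1, inv_pow] at h4
        calc ζ ^ (orderOf x * 3) = (ζ ^ 2) ^ orderOf x * ζ ^ orderOf x := by ring
          _ = 1 := by rw [← h4, mul_inv_cancel₀ (pow_ne_zero _ (pow_ne_zero _ hζ0))]
      have h6 := GLn.div_gcd_dvd_of_dvd_mul (by omega) h5
      rw [Nat.gcd_comm] at h6
      rw [hpd]
      refine Nat.Coprime.mul_dvd_of_dvd_of_dvd ?_ h3.2 h6
      exact ((hu1 ▸ coprime_qu p hF one_pos).coprime_dvd_left (Nat.div_dvd_of_dvd hdq)).symm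
    · obtain ⟨σ, hσ, hσ0, hσq⟩ := exists_primRoot_of_dvd_qu hF two_pos (hu2 ▸ dvd_rfl : q ^ 2 - 1 ∣ _)
      have h1 : 0 < q ^ 2 - 1 := by rw [hq2]; exact Nat.mul_pos (by omega) (by omega)
      obtain ⟨x, c, -, -, hc⟩ := exists_PSU_of_uspec_le p hF (n := 3) (by norm_num) (ι := Bool)
        (fun b => if b then σ else σ ^ (q - 1)) (fun b => if b then 2 else 1) (fun _ => 1)
        (by rintro (_ | _) <;> simp [hσ0]) (by rintro (_ | _) <;> simp) (fun _ => one_pos)
        (by
          rintro (_ | _)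
          · simp only [Bool.false_eq_true, if_false]
            rw [psi_iterate_eq_iff (pow_ne_zero _ hσ0), hu1, ← pow_mul, mul_comm, ← hq2,
              hσ.pow_eq_one]
          · exact hσq)
        (by simp) (by
          simp only [Fintype.prod_bool, if_true, Bool.false_eq_true, if_false, gz_two, gz_one,
            Nat.cast_one, one_mul, zpow_one]
          rw [← zpow_natCast, ← zpow_add₀ hσ0]
          simp [show 1 ≤ q by omega])
      have h3 := (hc true).1
      have h4 := (hc false).1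
      simp only [if_true] at h3
      simp only [Bool.false_eq_true, if_false] at h4
      refine GLn.mem_range_orderOf_of_dvd x (hm.trans ?_)
      have h5 : q ^ 2 - 1 ∣ orderOf x * (q - 2) := by
        rw [← hσ.pow_eq_one_iff_dvd]
        rw [← h3, show q - 1 = q - 2 + 1 by omega, pow_succ, mul_pow,
          mul_eq_right₀ (pow_ne_zero _ hσ0)] at h4
        rw [mul_comm, pow_mul, h4]
      have h6 := GLn.div_gcd_dvd_of_dvd_mul h1 h5
      have h7 : Nat.gcd (q ^ 2 - 1) (q - 2) ∣ d := by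
        have h8 : q ^ 2 - 1 = (q - 2) * (q + 2) + 3 := by
          obtain ⟨r, rfl⟩ : ∃ r, q = r + 2 := ⟨q - 2, by omega⟩
          rw [hq2]
          simp only [show r + 2 - 1 = r + 1 from rfl, Nat.add_sub_cancel]
          ring
        have h9 : Nat.gcd (q ^ 2 - 1) (q - 2) ∣ 3 := by
          have := Nat.gcd_dvd_left (q ^ 2 - 1) (q - 2)
          rw [h8] at this ⊢
          exact (Nat.dvd_add_right (Dvd.dvd.mul_right (Nat.gcd_dvd_right _ _) _)).1 this
        refine Nat.dvd_gcd h9 ?_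
        rw [show q + 1 = q - 2 + 3 by omega]
        exact dvd_add (Nat.gcd_dvd_right _ _) h9
      exact (Nat.div_dvd_div_left (hq2 ▸ hdq.mul_right _) h7).trans h6
    · obtain ⟨x, hx⟩ := exists_PSU_of_dvd_gsu p hF (n := 3) (by norm_num) (ι := Unit)
        (fun _ => gsu q 3) (fun _ => 3) (fun _ => 1) (by simp) (by simp) (fun _ => dvd_rfl)
        (by simp)
      refine GLn.mem_range_orderOf_of_dvd x (hm.trans ?_)
      have := GLn.div_gcd_dvd_of_dvd_mul (gsu_pos hF three_pos) (hx ()).1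
      rwa [gcd_gsu_succ, hg3] at this

end Cfsg.Agent.S2366
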