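import Cfsg.Statements.S2367
import Cfsg.Agent.Lib.Alt.Sylow2

set_option autoImplicit false
open Cfsg

namespace Cfsg.Agent.S2367

open Cfsg.Agent.Alt

theorem prime_list {p : ℕ} (hp : p.Prime) (h : p ≤ 71) (h2 : p ≠ 2) :
    p ∈ [3, 5, 7, 11, 13, 17, 19, 23, 29, 31, 37, 41, 43, 47, 53, 59, 61, 67, 71] := by
  interval_cases p <;> first | (exfalso; norm_num at hp; done) | simp at h2 ⊢

theorem spor {N : ℕ} (a : ℕ) (h1 : 2 ^ a ∣ N) (h2 : N ∣ Nat.factorial 71)
    (h4 : ∀ p ∈ [3, 5, 7, 11, 13, 17, 19, 23, 29, 31, 37, 41, 43, 47, 53, 59, 61, 67, 71],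
      p ^ 3 ∣ N → p ^ 4 ∣ N ∨ p ^ 3 < 2 ^ a)
    {p : ℕ} (hp : p.Prime) (hodd : p ≠ 2) (h3 : N.factorization p = 3) :
    p ^ 3 < 2 ^ N.factorization 2 := by
  have hN : N ≠ 0 := fun h => by
    rw [h, zero_dvd_iff] at h2
    exact Nat.factorial_ne_zero _ h2
  have h5 : p ^ 3 ∣ N := (hp.pow_dvd_iff_le_factorization hN).2 h3.ge
  have h6 : p ≤ 71 := hp.dvd_factorial.1 (((dvd_pow_self p three_ne_zero).trans h5).trans h2)
  rcases h4 p (prime_list hp h6 hodd) h5 with h7 | h7
  · have := (hp.pow_dvd_iff_le_factorization hN).1 h7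
    omega
  · exact h7.trans_le (Nat.pow_le_pow_right two_pos
      ((Nat.prime_two.pow_dvd_iff_le_factorization hN).1 h1))

theorem lt_two_pow (m : ℕ) (h : 3 ≤ m) : 2 * m + 1 < 2 ^ m := by
  induction m, h using Nat.le_induction with
  | base => norm_num
  | succ k hk ih => rw [pow_succ]; omega

theorem alt {n N : ℕ} (hN : 2 * N = n.factorial) {p : ℕ} (hp : p.Prime) (hodd : p ≠ 2)
    (h3 : N.factorization p = 3) : p ^ 3 < 2 ^ N.factorization 2 := by
  have hN0 : N ≠ 0 := fun h => by
    rw [h] at hN
    exact Nat.factorial_ne_zero _ hN.symm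
  have h1 : n.factorial.factorization p = 3 := by
    rw [← hN, Nat.factorization_mul two_ne_zero hN0, Finsupp.add_apply, h3,
      Nat.prime_two.factorization, Finsupp.single_apply, if_neg hodd.symm]
  have h2 : n.factorial.factorization 2 = N.factorization 2 + 1 := by
    rw [← hN, Nat.factorization_mul two_ne_zero hN0, Finsupp.add_apply,
      Nat.prime_two.factorization_self, add_comm]
  have hp3 : 3 ≤ p := by have := hp.two_le; omega
  have mono : ∀ q m, m ≤ n → m.factorial.factorization q ≤ n.factorial.factorization q :=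
    fun q m hm => (Nat.factorization_le_iff_dvd (Nat.factorial_ne_zero _)
      (Nat.factorial_ne_zero _)).2 (Nat.factorial_dvd_factorial hm) q
  have h4 : 3 * p ≤ n := by
    by_contra h5
    have h6 : n < p ^ 2 := by nlinarith
    have h7 : Nat.log p n < 2 := by
      rcases Nat.eq_zero_or_pos n with rfl | h8
      · simp
      · exact Nat.log_lt_of_lt_pow h8.ne' h6
    rw [Nat.factorization_factorial hp h7] at h1
    simp only [Nat.Ico_succ_singleton, Finset.sum_singleton, pow_one] at h1
    have := Nat.div_mul_le_self n p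
    rw [h1] at this
    omega
  by_cases h5 : p = 3
  · subst h5
    have h6 := mono 3 9 h4
    have h7 := (hp.pow_dvd_iff_le_factorization (Nat.factorial_ne_zero 9)).1
      (show 3 ^ 4 ∣ Nat.factorial 9 by decide)
    omega
  by_cases h6 : p = 5
  · subst h6
    have h6 := mono 2 15 h4
    have h7 := (Nat.prime_two.pow_dvd_iff_le_factorization (Nat.factorial_ne_zero 15)).1
      (show 2 ^ 11 ∣ Nat.factorial 15 by decide)
    exact lt_of_lt_of_le (by norm_num) (Nat.pow_le_pow_right two_pos (show 10 ≤ _ by omega))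
  obtain ⟨m, rfl⟩ := hp.odd_of_ne_two hodd
  have h7 := mono 2 (2 * (3 * m + 1)) (by omega)
  rw [Nat.factorization_factorial_mul Nat.prime_two] at h7
  calc (2 * m + 1) ^ 3 < (2 ^ m) ^ 3 :=
        Nat.pow_lt_pow_left (lt_two_pow m (by omega)) three_ne_zero
    _ ≤ _ := by
      rw [← pow_mul]
      exact Nat.pow_le_pow_right two_pos (by omega)

/-- Let G be an alternating group of degree at least 5 or a simple group with the order of one of the 26 sporadic groups, and let p be an odd prime such that p³ is the exact power of p dividing the order of G. Then p³ is less than the 2-part of the order of G. -/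
theorem result {G : Type*} [Group G] [Finite G] (hG : Cfsg.IsAlternating G ∨ Cfsg.IsSporadic G)
    (p : ℕ) (hp : p.Prime) (hodd : p ≠ 2) (h3 : (Nat.card G).factorization p = 3) :
    p ^ 3 < 2 ^ (Nat.card G).factorization 2 := by
  rcases hG with ⟨n, hn, ⟨e⟩⟩ | hG
  · refine alt (n := n) ?_ hp hodd h3
    rw [Nat.card_congr e.toEquiv, two_mul_card_alt (by rw [Fintype.card_fin]; omega),
      Fintype.card_fin]
  rcases hG with ⟨-, h⟩ | ⟨-, h⟩ | ⟨-, h⟩ | ⟨-, h⟩ | ⟨-, h⟩ | ⟨-, h⟩ | ⟨-, h⟩ | ⟨-, h⟩ | ⟨-, h⟩ |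
    ⟨-, h⟩ | ⟨-, h⟩ | ⟨-, h⟩ | ⟨-, h⟩ | ⟨-, h⟩ | ⟨-, h⟩ | ⟨-, h⟩ | ⟨-, h⟩ | ⟨-, h⟩ | ⟨-, h⟩ |
    ⟨-, h⟩ | ⟨-, h⟩ | ⟨-, h⟩ | ⟨-, h⟩ | ⟨-, h⟩ | ⟨-, h⟩ | ⟨-, h⟩ <;> rw [h] at h3 ⊢
  · exact spor 4 (by decide +kernel) (by decide +kernel) (by decide +kernel) hp hodd h3
  · exact spor 6 (by decide +kernel) (by decide +kernel) (by decide +kernel) hp hodd h3
  · exact spor 7 (by decide +kernel) (by decide +kernel) (by decide +kernel) hp hodd h3
  · exact spor 7 (by decide +kernel) (by decide +kernel) (by decide +kernel) hp hodd h3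
  · exact spor 10 (by decide +kernel) (by decide +kernel) (by decide +kernel) hp hodd h3
  · exact spor 3 (by decide +kernel) (by decide +kernel) (by decide +kernel) hp hodd h3
  · exact spor 7 (by decide +kernel) (by decide +kernel) (by decide +kernel) hp hodd h3
  · exact spor 7 (by decide +kernel) (by decide +kernel) (by decide +kernel) hp hodd h3
  · exact spor 21 (by decide +kernel) (by decide +kernel) (by decide +kernel) hp hodd h3
  · exact spor 21 (by decide +kernel) (by decide +kernel) (by decide +kernel) hp hodd h3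
  · exact spor 18 (by decide +kernel) (by decide +kernel) (by decide +kernel) hp hodd h3
  · exact spor 10 (by decide +kernel) (by decide +kernel) (by decide +kernel) hp hodd h3
  · exact spor 17 (by decide +kernel) (by decide +kernel) (by decide +kernel) hp hodd h3
  · exact spor 18 (by decide +kernel) (by decide +kernel) (by decide +kernel) hp hodd h3
  · exact spor 21 (by decide +kernel) (by decide +kernel) (by decide +kernel) hp hodd h3
  · exact spor 9 (by decide +kernel) (by decide +kernel) (by decide +kernel) hp hodd h3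
  · exact spor 7 (by decide +kernel) (by decide +kernel) (by decide +kernel) hp hodd h3
  · exact spor 10 (by decide +kernel) (by decide +kernel) (by decide +kernel) hp hodd h3
  · exact spor 14 (by decide +kernel) (by decide +kernel) (by decide +kernel) hp hodd h3
  · exact spor 13 (by decide +kernel) (by decide +kernel) (by decide +kernel) hp hodd h3
  · exact spor 9 (by decide +kernel) (by decide +kernel) (by decide +kernel) hp hodd h3
  · exact spor 14 (by decide +kernel) (by decide +kernel) (by decide +kernel) hp hodd h3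
  · exact spor 8 (by decide +kernel) (by decide +kernel) (by decide +kernel) hp hodd h3
  · exact spor 15 (by decide +kernel) (by decide +kernel) (by decide +kernel) hp hodd h3
  · exact spor 41 (by decide +kernel) (by decide +kernel) (by decide +kernel) hp hodd h3
  · exact spor 46 (by decide +kernel) (by decide +kernel) (by decide +kernel) hp hodd h3

end Cfsg.Agent.S2367
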