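import Cfsg.Statements.S2368
import Cfsg.Agent.Lib.GLn.Classes

set_option autoImplicit false
open Cfsg

namespace Cfsg.Agent.S2368

/-- Let F be a finite field of characteristic p and m ≥ 1. Every element of GL(m, F) of p-power order has order less than p·m, and GL(m, F) has an element of p-power order at least m; so the largest order of a p-element of GL(m, F) is the least power of p that is at least m. -/
theorem result {F : Type*} [Field F] [Fintype F] (p : ℕ) [Fact p.Prime] [CharP F p] (m : ℕ) (hm : 1 ≤ m) :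
    (∀ g : Matrix.GeneralLinearGroup (Fin m) F, (∃ j : ℕ, orderOf g = p ^ j) → orderOf g < p * m) ∧
      ∃ g : Matrix.GeneralLinearGroup (Fin m) F, (∃ j : ℕ, orderOf g = p ^ j) ∧ m ≤ orderOf g := by
  have hp : p.Prime := Fact.out
  constructor
  · intro g hg
    have h1 : g ^ p ^ Nat.clog p m = 1 := by
      rw [GLn.GL_pow_eq_one_iff_typ, GLn.X_pow_char_pow_sub_one]
      intro x hx
      rw [(GLn.orderOf_eq_pow_iff_typ p g).1 hg x hx]
      refine pow_dvd_pow _ (le_trans ?_ (Nat.le_pow_clog hp.one_lt m))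
      simpa using GLn.snd_le_card_of_mem_typ hx
    refine (Nat.le_of_dvd (pow_pos hp.pos _) (orderOf_dvd_of_pow_eq_one h1)).trans_lt ?_
    rcases Nat.eq_zero_or_pos (Nat.clog p m) with h | h
    · rw [h, pow_zero]
      nlinarith [hp.one_lt]
    · obtain ⟨j, hj⟩ : ∃ j, Nat.clog p m = j + 1 := ⟨Nat.clog p m - 1, by omega⟩
      have := (Nat.lt_clog_iff_pow_lt hp.one_lt (x := m) (y := j)).1 (by omega)
      rw [hj, pow_succ']
      exact Nat.mul_lt_mul_of_pos_left this hp.pos
  · have hX : (Polynomial.X - 1 : Polynomial F) ≠ Polynomial.X := by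
      intro h
      have := congrArg (Polynomial.eval 0) h
      simp at this
    obtain ⟨g, hg⟩ := GLn.Valid.exists_GL_typ_eq (n := Fin m)
      (D := {((Polynomial.X - 1 : Polynomial F), m)})
      (by
        intro x hx
        rw [Multiset.mem_singleton.1 hx]
        exact ⟨GLn.monic_X_sub_one, GLn.irreducible_X_sub_one, hm⟩)
      (by simp [GLn.wt, GLn.natDegree_X_sub_one']) (by simpa using hX)
    have h1 := (GLn.orderOf_eq_pow_iff_typ p g).2 (by simp [hg])
    refine ⟨g, h1, ?_⟩
    obtain ⟨j, hj⟩ := h1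
    have h2 := (GLn.GL_pow_eq_one_iff_typ g _).1 (pow_orderOf_eq_one g)
      ((Polynomial.X - 1 : Polynomial F), m) (by simp [hg])
    rw [hj, GLn.X_pow_char_pow_sub_one] at h2
    rw [hj]
    exact (pow_dvd_pow_iff GLn.irreducible_X_sub_one.ne_zero
      GLn.irreducible_X_sub_one.not_isUnit).1 h2

end Cfsg.Agent.S2368
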