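import Cfsg.Statements.S2369
import Cfsg.Agent.Lib.Chev.Prime
import Cfsg.Agent.Lib.Tw.Invol3

set_option autoImplicit false
open Cfsg

namespace Cfsg.Agent.S2369

open Cfsg.Agent.ChevM Cfsg.Agent.Chev

/-- Let q = 2^(2m+1) with m ≥ 1 and let a, b be commuting elements of the large Ree group ²F₄(q) with a an involution. Then every prime divisor of the order of b divides q(q⁴ − 1). -/
theorem result {K : Type*} [Field K] [Fintype K] (m : ℕ) (hm : 1 ≤ m) (hK : Fintype.card K = 2 ^ (2 * m + 1))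
    (a b : ↥(Cfsg.Lie.twistedF4 K (2 ^ m))) (ha : orderOf a = 2) (hab : Commute a b) :
    (orderOf b).primeFactors ⊆ (2 ^ (2 * m + 1) * ((2 ^ (2 * m + 1)) ^ 4 - 1)).primeFactors := by
  obtain ⟨_, φ, hφ, hφ2⟩ := exists_frob_F4 hK
  have E := emb_twistedF4 φ hφ hφ2
  obtain ⟨Rs, e, -, h2, -⟩ := (isTw_adj (twOK_F4 K) φ).classes_F4 E fun g e =>
    mem_range_wordIncl.mpr ((mem_twistedF4_iff φ hφ hφ2).mpr e)
  obtain ⟨y, hy, h3⟩ := h2 a ha
  obtain ⟨g, rfl⟩ := isConj_iff.mp h3
  set f : Lie.twistedF4 K (2 ^ m) →* Lie.chevF4.group K := wordIncl Lie.chevF4 (Lie.f4Words K (2 ^ m))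
  have hb : f (g * b * g⁻¹) ∈ Subgroup.centralizer {f (g * a * g⁻¹)} :=
    Subgroup.mem_centralizer_singleton_iff.2 ((hab.conj g).map f).symm.eq
  have h1 := cent_of_check keyOK_F4 (ot_G _ K) (A := [47, 44]) (T := [44, 47]) (p := fun s => Nat.ble 24 s || memL s [20, 22])
    (m := fun _ => 1) (k := fun i a => if (i = 0) = (a = 44) then 1 else 0) (L := []) (by decide +kernel)
  have h2 := cent_of_check keyOK_F4 (ot_G _ K) (A := [39, 45]) (T := [39, 40, 44, 45, 46, 47])
    (p := fun s => (Nat.ble 24 s && !memL s [27, 25, 34, 26]) || memL s [14, 23])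
    (m := fun a => if a = 39 then 3 else 2) (k := fun i a => if i = 2 ∧ a = 39 then 2 else 1)
    (L := [(27, 39, 40, 1, [44, 46, 47]), (25, 45, 46, 1, [44, 47]), (34, 39, 44, 1, [47]), (26, 45, 47, 1, [])])
    (by decide +kernel)
  intro r hr
  have hp := Nat.prime_of_mem_primeFactors hr
  have hd : r ∣ orderOf (f (g * b * g⁻¹)) := by
    rw [orderOf_injective f E.inj, ← MulAut.conj_apply, MulEquiv.orderOf_eq]; exact Nat.dvd_of_mem_primeFactors hr
  have hq : 1 < Fintype.card K ^ 4 := Nat.one_lt_pow (by decide) Fintype.one_lt_card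
  rw [← hK]
  refine Nat.mem_primeFactors.2 ⟨hp, Int.natCast_dvd_natCast.1 ?_, mul_ne_zero Fintype.card_ne_zero (by omega)⟩
  push_cast [hq.le]
  have := e ▸ List.mem_map_of_mem (f := f) hy
  simp only [List.mem_cons, List.not_mem_nil, or_false] at this
  have hp' := Nat.prime_iff_prime_int.1 hp
  rcases this with e | e <;> rw [e] at hb
  · have := dvd_of_mem_PJ agree_F4 (l := stepsF4.drop 2) (by decide +kernel)
      (US_le_PJ agree_F4 (L := [1, 2]) (by decide +kernel) (h1 ▸ hb)) hp hd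
    simp only [stepsF4, evPoin, List.drop, List.map, List.prod_cons, List.prod_nil, List.foldr,
      Nat.card_eq_fintype_card] at this
    exact hp'.dvd_of_dvd_pow (n := 2) (this.trans ⟨(Fintype.card K : ℤ) * (Fintype.card K - 1) *
      (Fintype.card K ^ 2 + 1), by ring⟩)
  · have := dvd_of_mem_PJ agree_F4 (l := [⟨0, 2, 1, 0x888900008897, 0x10000000000000000000001, 0x1, 0x0, [1, 1]⟩,
      ⟨3, 2, 0, 0x798800009888, 0x1000000, 0x100, 0x300, [1, 1]⟩]) (by decide +kernel)
      (US_le_PJ agree_F4 (L := [0, 3]) (by decide +kernel) (h2 ▸ hb)) hp hd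
    simp only [evPoin, List.map, List.prod_cons, List.prod_nil, List.foldr, Nat.card_eq_fintype_card] at this
    exact hp'.dvd_of_dvd_pow (n := 2) (this.trans ⟨(Fintype.card K : ℤ) * (Fintype.card K - 1) *
      (Fintype.card K ^ 2 + 1) ^ 2, by ring⟩)

end Cfsg.Agent.S2369
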