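import Cfsg.Statements.S2370
import Cfsg.Agent.Lib.Chev.Misc

set_option autoImplicit false
open Cfsg

namespace Cfsg.Agent.S2370

open Cfsg.Agent.ChevM Cfsg.Agent.Chev

/-- Let q = 2^(2m+1) with m ≥ 1. Every element of 2-power order of the large Ree group ²F₄(q) has order at most 32. -/
theorem result {K : Type*} [Field K] [Fintype K] (m : ℕ) (hm : 1 ≤ m) (hK : Fintype.card K = 2 ^ (2 * m + 1))
    (x : ↥(Cfsg.Lie.twistedF4 K (2 ^ m))) (hx : ∃ j : ℕ, orderOf x = 2 ^ j) : orderOf x ≤ 32 := by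
  have : Fact (Nat.Prime 2) := ⟨Nat.prime_two⟩
  have : CharP K 2 := charP_of_card_eq_prime_pow hK
  obtain ⟨j, hj⟩ := hx
  let g : Cfsg.Lie.chevF4.group K := ⟨x, genSubgroup_le_group _ x.2⟩
  have h1 : g ^ 2 ^ j = 1 := by
    apply Subtype.ext
    have := congrArg Subtype.val (hj ▸ pow_orderOf_eq_one x)
    exact this
  obtain ⟨k, -, hk⟩ := exists_conj_mem_U 2 le_top (Subgroup.mem_top g) h1
  have h2 := pow_eq_one_of_mem_U 2 (n := 5) (fun r => by rw [ht_eq_sum]; revert r; decide +kernel) hk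
  rw [conj_pow, mul_inv_eq_one, mul_eq_left] at h2
  refine orderOf_le_of_pow_eq_one (by norm_num) (Subtype.ext ?_)
  have h3 := congrArg Subtype.val h2
  exact h3

end Cfsg.Agent.S2370
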