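import Cfsg.Statements.S2371
import Cfsg.Agent.Lib.Chev.Tori

set_option autoImplicit false
open Cfsg

namespace Cfsg.Agent.S2371

open Cfsg.Agent.ChevM Cfsg.Agent.Chev

/-- The group G₂(q), q ≥ 3, contains a cyclic subgroup of order q² + q + 1 which is its own centralizer. -/
theorem result {F : Type*} [Field F] [Fintype F] (q : ℕ) (hF : Fintype.card F = q) (hq : 3 ≤ q) :
    ∃ H : Subgroup ↥(Cfsg.Lie.chevG2.group F), IsCyclic ↥H ∧ Nat.card ↥H = q ^ 2 + q + 1 ∧
      Subgroup.centralizer (H : Set ↥(Cfsg.Lie.chevG2.group F)) = H := by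
  subst hF
  obtain ⟨H, h1, h2, h3⟩ := exists_selfcent_cyclic (F := F) keyOK_G2 (torInj_G2 _) expC_G2 (l := [6, 11]) (f := [1, 1])
    (P := [[-1, 0], [-1, 1]]) (Q := [[-1, 0], [-1, 1]]) (by decide +kernel) (M := 2) (q₀ := 2) (by decide +kernel)
    (by decide) rfl Fintype.one_lt_card (n := Fintype.card F ^ 2 + Fintype.card F + 1) (by
      change _ = _ ^ 2 + ∑ i : Fin 2, _
      simp [Fin.sum_univ_succ]; ring)
  rw [card_ker_cm center_G2, Nat.gcd_one_left, mul_one] at h2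
  exact ⟨H, h1, h2, h3⟩

end Cfsg.Agent.S2371
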