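import Cfsg.Statements.S2372
import Cfsg.Agent.Lib.Chev.Tori

set_option autoImplicit false
open Cfsg

namespace Cfsg.Agent.S2372

open Cfsg.Agent.ChevM Cfsg.Agent.Chev

/-- The group F₄(q) contains a cyclic subgroup of order q⁴ + 1 which is its own centralizer. -/
theorem result {F : Type*} [Field F] [Fintype F] (q : ℕ) (hF : Fintype.card F = q) :
    ∃ H : Subgroup ↥(Cfsg.Lie.chevF4.group F), IsCyclic ↥H ∧ Nat.card ↥H = q ^ 4 + 1 ∧
      Subgroup.centralizer (H : Set ↥(Cfsg.Lie.chevF4.group F)) = H := by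
  subst hF
  obtain ⟨H, h1, h2, h3⟩ := exists_selfcent_cyclic (F := F) keyOK_F4 (torInj_F4 _) expC_F4 (l := [24, 26, 31, 38])
    (f := [1, 0, 0, 0]) (P := [[-1, -1, 1, 0], [-1, 2, -1, 0], [1, -1, 0, 1], [-1, 0, 1, -1]])
    (Q := [[-1, 0, 1, 1], [-1, 1, 2, 2], [-1, 1, 3, 3], [0, 1, 2, 1]]) (by decide +kernel) (M := 2) (q₀ := 2)
    (by decide +kernel) (by decide) rfl Fintype.one_lt_card (n := Fintype.card F ^ 4 + 1) (by
      change _ = _ ^ 4 + ∑ i : Fin 4, _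
      simp [Fin.sum_univ_succ])
  rw [card_ker_cm center_F4, Nat.gcd_one_left, mul_one] at h2
  exact ⟨H, h1, h2, h3⟩

end Cfsg.Agent.S2372
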