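import Cfsg.Statements.S2373
import Cfsg.Agent.Lib.Chev.Tori

set_option autoImplicit false
open Cfsg

namespace Cfsg.Agent.S2373

open Cfsg.Agent.ChevM Cfsg.Agent.Chev

/-- The group E₆(q) (the simple Chevalley group of type E₆) contains a cyclic subgroup of order (q⁴ − q² + 1)(q² + q + 1)/gcd(3, q − 1) which is its own centralizer. -/
theorem result {F : Type*} [Field F] [Fintype F] (q : ℕ) (hF : Fintype.card F = q) :
    ∃ H : Subgroup ↥(Cfsg.Lie.chevE6.group F), IsCyclic ↥H ∧ Nat.card ↥H = (q ^ 4 - q ^ 2 + 1) * (q ^ 2 + q + 1) / Nat.gcd 3 (q - 1) ∧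
      Subgroup.centralizer (H : Set ↥(Cfsg.Lie.chevE6.group F)) = H := by
  subst hF
  have h0 : Fintype.card F ^ 2 ≤ Fintype.card F ^ 4 := Nat.pow_le_pow_right Fintype.card_pos (by norm_num)
  obtain ⟨H, h1, h2, h3⟩ := exists_selfcent_cyclic (F := F) keyOK_E6 (torInj_E6 _) expC_E6
    (l := [36, 38, 41, 45, 49, 60]) (f := [1, 1, 0, -1, 0, 1])
    (P := [[-1, -1, 0, 1, 0, 0], [0, 0, 0, 0, 0, 1], [0, 0, 0, 0, 1, -1], [0, 0, 0, 1, -1, 0], [0, 1, 1, -1, 0, 0],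
      [1, 0, 0, 0, 0, -1]])
    (Q := [[0, 1, 0, 0, 0, 1], [-1, 0, 1, 1, 0, -1], [1, 1, 0, 0, 1, 1], [0, 1, 1, 1, 0, 0], [0, 1, 1, 0, 0, 0],
      [0, 1, 0, 0, 0, 0]]) (by decide +kernel) (M := 6) (q₀ := 2)
    (by decide +kernel) (by decide) rfl Fintype.one_lt_card
    (n := (Fintype.card F ^ 4 - Fintype.card F ^ 2 + 1) * (Fintype.card F ^ 2 + Fintype.card F + 1)) (by
      change _ = _ ^ 6 + ∑ i : Fin 6, _
      simp [Fin.sum_univ_succ, h0]; ring)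
  rw [card_ker_cm center_E6] at h2
  exact ⟨H, h1, by rw [← h2, Nat.mul_div_cancel _ (Nat.gcd_pos_of_pos_left _ (by norm_num))], h3⟩

end Cfsg.Agent.S2373
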