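import Cfsg.Statements.S2374
import Cfsg.Agent.Lib.Chev.Tori

set_option autoImplicit false
open Cfsg

namespace Cfsg.Agent.S2374

open Cfsg.Agent.ChevM Cfsg.Agent.Chev

/-- The group E₇(q) (the simple Chevalley group of type E₇) contains a cyclic subgroup of order (q⁴ − q² + 1)(q³ + 1)/gcd(2, q − 1) which is its own centralizer. -/
theorem result {F : Type*} [Field F] [Fintype F] (q : ℕ) (hF : Fintype.card F = q) :
    ∃ H : Subgroup ↥(Cfsg.Lie.chevE7.group F), IsCyclic ↥H ∧ Nat.card ↥H = (q ^ 4 - q ^ 2 + 1) * (q ^ 3 + 1) / Nat.gcd 2 (q - 1) ∧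
      Subgroup.centralizer (H : Set ↥(Cfsg.Lie.chevE7.group F)) = H := by
  subst hF
  have h0 : Fintype.card F ^ 2 ≤ Fintype.card F ^ 4 := Nat.pow_le_pow_right Fintype.card_pos (by norm_num)
  obtain ⟨H, h1, h2, h3⟩ := exists_selfcent_cyclic (F := F) keyOK_E7 (torInj_E7 _) expC_E7
    (l := [63, 64, 71, 76, 99, 107, 124]) (f := [1, 0, -1, 1, 1, -1, 0])
    (P := [[-1, -1, -1, 1, 0, 1, 0], [1, 1, 0, 0, -1, -1, 1], [0, -1, -1, 1, 1, 0, -1], [1, 0, 0, -1, 0, 0, 1],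
      [0, 0, 1, 0, 0, 0, -1], [-1, -1, 0, 0, 0, 1, 0], [0, 1, 1, 0, -1, -1, 1]])
    (Q := [[1, 0, 0, 1, 1, -1, 0], [1, -1, -1, 0, 0, -2, 0], [1, -1, 0, 1, 1, -1, 1], [2, -1, 0, 1, 1, -2, 1],
      [1, -2, 0, 1, 0, -2, 1], [2, -1, -1, 1, 1, -2, 0], [1, -1, 0, 1, 0, -1, 1]]) (by decide +kernel) (M := 4) (q₀ := 2)
    (by decide +kernel) (by decide) rfl Fintype.one_lt_card
    (n := (Fintype.card F ^ 4 - Fintype.card F ^ 2 + 1) * (Fintype.card F ^ 3 + 1)) (by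
      change _ = _ ^ 7 + ∑ i : Fin 7, _
      simp [Fin.sum_univ_succ, h0]; ring)
  rw [card_ker_cm center_E7] at h2
  exact ⟨H, h1, by rw [← h2, Nat.mul_div_cancel _ (Nat.gcd_pos_of_pos_left _ (by norm_num))], h3⟩

end Cfsg.Agent.S2374
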