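import Cfsg.Statements.S2375
import Cfsg.Agent.Lib.Chev.Tori

set_option autoImplicit false
open Cfsg

namespace Cfsg.Agent.S2375

open Cfsg.Agent.ChevM Cfsg.Agent.Chev

/-- The group E₈(q) contains a cyclic subgroup of order q⁸ + q⁷ − q⁵ − q⁴ − q³ + q + 1 which is its own centralizer. -/
theorem result {F : Type*} [Field F] [Fintype F] (q : ℕ) (hF : Fintype.card F = q) :
    ∃ H : Subgroup ↥(Cfsg.Lie.chevE8.group F), IsCyclic ↥H ∧ Nat.card ↥H = q ^ 8 + q ^ 7 - q ^ 5 - q ^ 4 - q ^ 3 + q + 1 ∧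
      Subgroup.centralizer (H : Set ↥(Cfsg.Lie.chevE8.group F)) = H := by
  subst hF
  have h0 : Fintype.card F ^ 5 + Fintype.card F ^ 4 + Fintype.card F ^ 3 ≤ Fintype.card F ^ 8 + Fintype.card F ^ 7 := by
    have h1 : 2 ≤ Fintype.card F := Fintype.one_lt_card
    have h2 : ∀ i ≤ 7, Fintype.card F ^ i ≤ Fintype.card F ^ 7 := fun i hi => Nat.pow_le_pow_right (by omega) hi
    have := h2 5 (by norm_num); have := h2 4 (by norm_num); have := h2 3 (by norm_num)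
    have := Nat.mul_le_mul_left (Fintype.card F ^ 7) h1
    rw [pow_succ _ 7]; omega
  obtain ⟨H, h1, h2, h3⟩ := exists_selfcent_cyclic (F := F) keyOK_E8 (torInj_E8 _) expC_E8
    (l := [120, 122, 125, 129, 134, 140, 146, 168]) (f := [1, 1, 0, -1, -1, -1, 0, 1])
    (P := [[-1, -1, 0, 0, 1, 0, 0, 0], [0, -1, -1, 1, 0, 0, 0, 1], [-1, 0, 0, 0, 0, 0, 1, 0], [0, -1, 0, 0, 0, 1, 0, 0],
      [0, 0, -1, 0, 1, 0, 0, 0], [-1, -1, 0, 1, 0, 0, 0, 0], [0, 0, 0, 0, 0, 0, 0, 1], [0, 0, 0, 0, 0, 0, 1, -1]])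
    (Q := [[0, 0, -1, 0, 0, 0, 1, 1], [-1, -1, 0, 0, 1, 1, 1, 0], [0, -1, -1, 0, 0, 1, 2, 1], [-1, -1, -1, 0, 1, 2, 2, 1],
      [0, -1, -1, 0, 1, 1, 2, 1], [-1, -1, 0, 1, 1, 1, 1, 0], [0, 0, 0, 0, 0, 0, 1, 1], [0, 0, 0, 0, 0, 0, 1, 0]])
    (by decide +kernel) (M := 2) (q₀ := 2) (by decide +kernel) (by decide) rfl Fintype.one_lt_card
    (n := Fintype.card F ^ 8 + Fintype.card F ^ 7 - Fintype.card F ^ 5 - Fintype.card F ^ 4 - Fintype.card F ^ 3 +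
      Fintype.card F + 1) (by
      change _ = _ ^ 8 + ∑ i : Fin 8, _
      rw [Nat.sub_sub, Nat.sub_sub, ← add_assoc]
      simp [Fin.sum_univ_succ, h0]; ring)
  rw [card_ker_cm center_E8, Nat.gcd_one_left, mul_one] at h2
  exact ⟨H, h1, h2, h3⟩

end Cfsg.Agent.S2375
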