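import Cfsg.Statements.S2378
import Cfsg.Agent.Lib.Chev.SylowH

set_option autoImplicit false
open Cfsg

namespace Cfsg.Agent.S2378

open Cfsg.Agent.ChevM Cfsg.Agent.Chev

/-- Sylow subgroups for primes away from the characteristic and the Weyl group. Let `G` be the Chevalley group of type G₂, B₂, D₄, F₄, E₆, E₇ or E₈ over a field with `q` elements, with the degrees of its Weyl group listed beside the type (their product is the order of the Weyl group), and let `r` be a prime dividing the order of `G`, not dividing `q` and not dividing the order of the Weyl group. Let `d` be the multiplicative order of `q` modulo `r`, `a` the number of degrees divisible by `d`, and `m` the `r`-part of the value at `q` of the `d`-th cyclotomic polynomial. Then every Sylow `r`-subgroup of `G` is homocyclic: a direct product of `a` cyclic groups of order `m` (in particular abelian). -/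
theorem result {F : Type*} [Field F] [Fintype F] {q : ℕ} (hq : Fintype.card F = q)
    (c : Cfsg.Lie.ChevalleyDatum × List ℕ)
    (hc : c ∈ [(Cfsg.Lie.chevG2, [2, 6]), (Cfsg.Lie.chevB2, [2, 4]), (Cfsg.Lie.chevD4, [2, 4, 4, 6]), (Cfsg.Lie.chevF4, [2, 6, 8, 12]),
      (Cfsg.Lie.chevE6, [2, 5, 6, 8, 9, 12]), (Cfsg.Lie.chevE7, [2, 6, 8, 10, 12, 14, 18]), (Cfsg.Lie.chevE8, [2, 8, 12, 14, 18, 20, 24, 30])])
    (r : ℕ) [Fact r.Prime] (hrq : ¬ r ∣ q) (hrW : ¬ r ∣ c.2.prod) (hrG : r ∣ Nat.card ↥(c.1.group F)) (P : Sylow r ↥(c.1.group F)) :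
    Nonempty (↥(P : Subgroup ↥(c.1.group F)) ≃*
      (Fin (c.2.filter (fun e => orderOf (q : ZMod r) ∣ e)).length →
        Multiplicative (ZMod (r ^ padicValNat r ((Polynomial.cyclotomic (orderOf (q : ZMod r)) ℤ).eval (q : ℤ)).natAbs)))) := by
  obtain ⟨D, dg⟩ := c
  simp only [List.mem_cons, List.not_mem_nil, or_false, Prod.mk.injEq] at hc
  rw [← Nat.card_eq_fintype_card] at hq
  subst hq
  rcases hc with ⟨rfl, rfl⟩ | ⟨rfl, rfl⟩ | ⟨rfl, rfl⟩ | ⟨rfl, rfl⟩ | ⟨rfl, rfl⟩ | ⟨rfl, rfl⟩ | ⟨rfl, rfl⟩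
  · exact sylow_homocyclic degrees_G2 expC_G2 (by decide) hrq hrW P
  · exact sylow_homocyclic degrees_B2 expC_B2 (by decide) hrq hrW P
  · exact sylow_homocyclic degrees_D4 expC_D4 (by decide) hrq hrW P
  · exact sylow_homocyclic degrees_F4 expC_F4 (by decide) hrq hrW P
  · exact sylow_homocyclic degrees_E6 expC_E6 (by decide) hrq hrW P
  · exact sylow_homocyclic degrees_E7 expC_E7 (by decide) hrq hrW P
  · exact sylow_homocyclic degrees_E8 expC_E8 (by decide) hrq hrW P

end Cfsg.Agent.S2378
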