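import Cfsg.Statements.S2381
import Cfsg.Agent.Lib.Forms.Card
import Cfsg.Agent.Lib.GLn.SylowBig

set_option autoImplicit false
open Cfsg

namespace Cfsg.Agent.S2381

open Forms Forms.Form

theorem exists_hom {F : Type*} [Field F] [Fintype F] (n : ℕ) {η m : ℕ} {ε : Bool} (hη : 0 < η)
    (hm : m ∣ tq (Fintype.card F) η ε) :
    ∃ φ : (Fin (n / η) → Multiplicative (ZMod m)) →* Matrix.symplecticGroup (Fin n) F,
      Function.Injective φ := by
  obtain ⟨p, hc⟩ := CharP.exists F
  haveI : Fact p.Prime := ⟨CharP.char_is_prime F p⟩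
  obtain ⟨ζ, h1, h0, h2⟩ := exists_primRoot_of_dvd_tq hη hm
  obtain ⟨g, hg, hg'⟩ := (realz_orb2_ss p h0 h2).exists_sp (spForm_nondeg η)
    (by rw [card_orb2, finrank_plus])
  have ho : orderOf g = m := by
    refine Nat.dvd_antisymm ((Isom.orderOf_dvd_iff p g m).2 ⟨fun α hα => ?_, by simp [hg']⟩) ?_
    · exact pow_eq_of_mem_orb2 h1.pow_eq_one inv_one (one_pow _) (hg ▸ hα)
    · exact h1.dvd_of_pow_eq_one _ (((Isom.orderOf_dvd_iff p g _).1 dvd_rfl).1 ζ
        (hg ▸ self_mem_orb2 hη))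
  subst ho
  obtain ⟨χ, hχ⟩ := GLn.exists_zmod_hom g
  have hpi := pi_nondeg (f := fun _ : Fin (n / η) => spForm η F) fun _ => spForm_nondeg η
  obtain ⟨φ, hφ⟩ := (spForm_nondeg n).sp_embed hpi (by
    rw [Module.finrank_pi_fintype, finrank_plus, finrank_plus]
    simp only [Finset.sum_const, Finset.card_univ, Fintype.card_fin, smul_eq_mul]
    have := Nat.div_mul_le_self n η
    nlinarith)
  exact ⟨(spEquiv n F).symm.toMonoidHom.comp (((spForm_nondeg n).extHom hpi φ hφ).comp
    ((piHom _).comp (χ.compLeft _))), (spEquiv n F).symm.injective.comp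
      (((spForm_nondeg n).extHom_injective hpi φ hφ).comp ((piHom_injective _).comp hχ.comp_left))⟩

theorem card_filter (n η : ℕ) : ((Finset.Icc 1 n).filter (η ∣ ·)).card = n / η :=
  Nat.Ioc_filter_dvd_card_eq_div n η

/-- Sylow subgroups of `Sp_{2n}(q)` for large primes. Let `F` be a field with `q` elements and `r` an odd prime with `r > n` and `r ∤ q` (so `r` does not divide the order `2^n n!` of the Weyl group). Let `d` be the multiplicative order of `q` modulo `r`, `a` the number of `i` with `1 ≤ i ≤ n` and `d ∣ 2i` (the degrees being `2, 4, …, 2n`), and `m` the `r`-part of the value at `q` of the `d`-th cyclotomic polynomial. Then every Sylow `r`-subgroup of the symplectic group `Sp_{2n}(q)` is a direct product of `a` cyclic groups of order `m`. -/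
theorem result {F : Type*} [Field F] [Fintype F] {q : ℕ} (hq : Fintype.card F = q) (n : ℕ)
    (r : ℕ) [Fact r.Prime] (hr2 : r ≠ 2) (hrn : n < r) (hrq : ¬ r ∣ q) (P : Sylow r ↥(Matrix.symplecticGroup (Fin n) F)) :
    Nonempty (↥(P : Subgroup ↥(Matrix.symplecticGroup (Fin n) F)) ≃*
      (Fin ((Finset.Icc 1 n).filter (fun i => orderOf (q : ZMod r) ∣ 2 * i)).card →
        Multiplicative (ZMod (r ^ padicValNat r ((Polynomial.cyclotomic (orderOf (q : ZMod r)) ℤ).eval (q : ℤ)).natAbs)))) := by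
  subst hq
  set q := Fintype.card F with hq
  have hr : r.Prime := Fact.out
  have h1 : 1 < q := Fintype.one_lt_card
  have hd := GLn.orderOf_natCast_pos hr hrq
  rw [GLn.padicValNat_cyclotomic h1 hd]
  set d := orderOf (q : ZMod r) with hdd
  have hdi : ∀ i, r ∣ q ^ i - 1 ↔ d ∣ i := fun i => GLn.dvd_pow_sub_one_iff_orderOf_dvd h1.le r i
  obtain ⟨η, ε, hη, h2, h3, h4⟩ : ∃ η ε, 0 < η ∧ (∀ i, d ∣ 2 * i ↔ η ∣ i) ∧
      r ^ (q ^ d - 1).factorization r ∣ tq q η ε ∧
      ((q ^ 2) ^ η - 1).factorization r = (q ^ d - 1).factorization r := by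
    rcases Nat.even_or_odd' d with ⟨η, h | h⟩
    · refine ⟨η, true, by omega, fun i => by rw [h, Nat.mul_dvd_mul_iff_left two_pos], ?_,
        by rw [← pow_mul, h]⟩
      have h5 : q ^ d - 1 = (q ^ η + 1) * (q ^ η - 1) := by
        rw [h, ← Nat.sq_sub_sq, ← pow_mul, mul_comm, one_pow]
      refine Nat.Coprime.dvd_of_dvd_mul_right (Nat.Coprime.pow_left _ (hr.coprime_iff_not_dvd.2
        fun h6 => ?_)) ((Nat.ordProj_dvd _ r).trans h5.dvd)
      have := Nat.le_of_dvd (by omega) ((hdi η).1 h6)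
      omega
    · have h5 : d.Coprime 2 := (Nat.coprime_two_right.2 ⟨η, h⟩)
      refine ⟨d, false, hd, fun i => h5.dvd_mul_left, Nat.ordProj_dvd _ r, ?_⟩
      have h6 : 1 < q ^ d := Nat.one_lt_pow hd.ne' h1
      rw [← pow_mul, mul_comm, pow_mul, ← one_pow 2, Nat.sq_sub_sq, one_pow,
        Nat.factorization_mul (by omega) (by omega), Finsupp.add_apply,
        Nat.factorization_eq_zero_of_not_dvd (n := q ^ d + 1), zero_add]
      rw [dvd_pow_add_one_iff (by omega) hr hr2]
      exact fun h => h.2 dvd_rfl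
  have h5 : orderOf ((q ^ 2 : ℕ) : ZMod r) = η := by
    refine Nat.dvd_antisymm ?_ ?_
    · rw [orderOf_dvd_iff_pow_eq_one, Nat.cast_pow, ← pow_mul, ← orderOf_dvd_iff_pow_eq_one, h2]
    · rw [← h2, orderOf_dvd_iff_pow_eq_one, pow_mul, ← Nat.cast_pow, pow_orderOf_eq_one]
  rw [Finset.filter_congr fun i _ => h2 i, card_filter]
  obtain ⟨φ, hφ⟩ := exists_hom (F := F) n hη h3
  refine GLn.nonempty_sylow_equiv φ hφ ?_ P
  rw [card_symplecticGroup, Nat.card_fun, Nat.card_congr Multiplicative.toAdd,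
    Nat.card_zmod, Nat.card_eq_fintype_card (α := Fin _), Fintype.card_fin, ← pow_mul,
    Nat.card_eq_fintype_card, ← hq]
  have h6 : ∀ i ∈ Finset.range n, q ^ (2 * (i + 1)) - 1 ≠ 0 := fun i _ => by
    have := Nat.one_lt_pow (n := 2 * (i + 1)) (by omega) h1
    omega
  rw [Nat.factorization_mul (by positivity) (Finset.prod_ne_zero_iff.2 h6), Finsupp.add_apply,
    Nat.factorization_eq_zero_of_not_dvd (fun h => hrq (hr.dvd_of_dvd_pow h)), zero_add,
    Nat.factorization_prod h6, Finsupp.finsetSum_apply, Finset.sum_congr rfl (g := fun i =>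
      if η ∣ i + 1 then (q ^ d - 1).factorization r else 0), ← Finset.sum_filter, Finset.sum_const,
    Nat.card_multiples, smul_eq_mul, mul_comm]
  intro i hi
  rw [pow_mul, GLn.factorization_pow_sub_one (Nat.one_lt_pow two_ne_zero h1) i.succ_pos
    (by simp at hi; omega), h5, h4]

end Cfsg.Agent.S2381
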