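import Cfsg.Statements.S2391
import Cfsg.Agent.Lib.SLn.LinAux

set_option autoImplicit false
open Cfsg

namespace Cfsg.Agent.S2391

open Matrix Cfsg.Agent.SLn

variable {F : Type*} [Field F] {n : ℕ}

/-- the ascending chain of fixed spaces -/
def chain (U : Subgroup (SpecialLinearGroup (Fin n) F)) : ℕ → Submodule F (Fin n → F)
  | 0 => ⊥
  | i + 1 =>
    { carrier := {v | ∀ u ∈ U, u.1 *ᵥ v - v ∈ chain U i}
      add_mem' := fun {a b} ha hb u hu => by
        have := (chain U i).add_mem (ha u hu) (hb u hu)
        rwa [mulVec_add, add_sub_add_comm]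
      zero_mem' := fun u _ => by simp
      smul_mem' := fun c v hv u hu => by
        have := (chain U i).smul_mem c (hv u hu)
        rwa [mulVec_smul, ← smul_sub] }

theorem mem_chain_succ {U : Subgroup (SpecialLinearGroup (Fin n) F)} {i : ℕ} {v : Fin n → F} :
    v ∈ chain U (i + 1) ↔ ∀ u ∈ U, u.1 *ᵥ v - v ∈ chain U i := Iff.rfl

theorem chain_normalizer {U : Subgroup (SpecialLinearGroup (Fin n) F)}
    {g : SpecialLinearGroup (Fin n) F}
    (hg : g ∈ Subgroup.normalizer (U : Set (SpecialLinearGroup (Fin n) F))) (i : ℕ) :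
    ∀ v ∈ chain U i, g.1 *ᵥ v ∈ chain U i := by
  induction i with
  | zero => intro v hv; rw [(Submodule.mem_bot F).1 hv, mulVec_zero]; exact zero_mem _
  | succ i ih =>
    intro v hv u hu
    have h1 : g⁻¹ * u * g ∈ U := by
      have := (Subgroup.mem_normalizer_iff.1 (inv_mem hg) u).1 hu
      rwa [inv_inv] at this
    have h2 := ih _ (hv _ h1)
    rwa [mulVec_sub, mulVec_mulVec, ← Matrix.SpecialLinearGroup.coe_mul,
      show g * (g⁻¹ * u * g) = u * g by group, Matrix.SpecialLinearGroup.coe_mul,
      ← mulVec_mulVec] at h2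

theorem chain_le_succ (U : Subgroup (SpecialLinearGroup (Fin n) F)) (i : ℕ) :
    chain U i ≤ chain U (i + 1) := fun v hv u hu =>
  (chain U i).sub_mem (chain_normalizer (Subgroup.le_normalizer hu) i v hv) hv

theorem chain_lt_succ [Finite F] (p : ℕ) [Fact p.Prime] [CharP F p]
    {U : Subgroup (SpecialLinearGroup (Fin n) F)} (hU : IsPGroup p U) (i : ℕ)
    (h : chain U i ≠ ⊤) : chain U i < chain U (i + 1) := by
  have hinv : ∀ u : U, chain U i ≤ (chain U i).comap (Matrix.mulVecLin u.1.1) := fun u v hv =>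
    chain_normalizer (Subgroup.le_normalizer u.2) i v hv
  let _ : MulAction U ((Fin n → F) ⧸ chain U i) :=
    { smul := fun u x => (chain U i).mapQ (chain U i) (Matrix.mulVecLin u.1.1) (hinv u) x
      one_smul := fun x => by
        induction x using Submodule.Quotient.induction_on with | _ v =>
        change Submodule.Quotient.mk ((1 : Matrix (Fin n) (Fin n) F) *ᵥ v) = _
        rw [one_mulVec]
      mul_smul := fun a b x => by
        induction x using Submodule.Quotient.induction_on with | _ v =>
        change Submodule.Quotient.mk ((a.1.1 * b.1.1) *ᵥ v) =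
          Submodule.Quotient.mk (a.1.1 *ᵥ (b.1.1 *ᵥ v))
        rw [mulVec_mulVec] }
  have := Fintype.ofFinite F
  have hdvd : p ∣ Nat.card ((Fin n → F) ⧸ chain U i) := by
    have : Nontrivial ((Fin n → F) ⧸ chain U i) := Submodule.Quotient.nontrivial_iff.2 h
    have := Fintype.ofFinite ((Fin n → F) ⧸ chain U i)
    rw [Nat.card_eq_fintype_card, Module.card_eq_pow_finrank (K := F)]
    obtain ⟨k, -, hk⟩ := FiniteField.card F p
    rw [hk]
    exact dvd_pow (dvd_pow_self p k.ne_zero) Module.finrank_pos.ne'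
  obtain ⟨b, hb, hb0⟩ := hU.exists_fixed_point_of_prime_dvd_card_of_fixed_point
    ((Fin n → F) ⧸ chain U i) hdvd (a := 0) (fun u => map_zero _)
  induction b using Submodule.Quotient.induction_on with | _ v =>
  refine lt_of_le_of_ne (chain_le_succ U i) fun e => hb0 ?_
  symm
  rw [Submodule.Quotient.mk_eq_zero, e]
  intro u hu
  exact (Submodule.Quotient.eq _).1 (hb ⟨u, hu⟩)

/-- The Borel–Tits property of `SL_n(q)` in flag form: for a field `F` of characteristic `p` with finitely many elements and a non-trivial `p`-subgroup `U` of `SL_n(F)`, there is a flag `0 = V₀ < V₁ < ⋯ < V_{k+1} = F^n` with at least one proper non-zero member such that every element of the normaliser of `U` maps each `V_i` onto itself and every element of `U` acts trivially on each quotient `V_{i+1}/V_i` (so the normaliser lies in the parabolic subgroup of the flag and `U` in its unipotent radical). -/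
theorem result {F : Type*} [Field F] [Fintype F] (p : ℕ) [Fact p.Prime] [CharP F p] (n : ℕ)
    (U : Subgroup (Matrix.SpecialLinearGroup (Fin n) F)) (hU : IsPGroup p ↥U) (hne : U ≠ ⊥) :
    ∃ (k : ℕ) (V : Fin (k + 2) → Submodule F (Fin n → F)), 1 ≤ k ∧ StrictMono V ∧ V 0 = ⊥ ∧ V (Fin.last (k + 1)) = ⊤ ∧
      (∀ g ∈ Subgroup.normalizer (U : Set (Matrix.SpecialLinearGroup (Fin n) F)), ∀ i, (V i).map (Matrix.mulVecLin (g : Matrix (Fin n) (Fin n) F)) = V i) ∧
      (∀ u ∈ U, ∀ i : Fin (k + 1), ∀ v ∈ V i.succ, (u : Matrix (Fin n) (Fin n) F).mulVec v - v ∈ V (Fin.castSucc i)) := by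
  classical
  have hex : ∃ i, chain U i = ⊤ := by
    by_contra h
    push Not at h
    have := strictMono_nat_of_lt_succ fun i => chain_lt_succ p hU i (h i)
    exact not_strictMono_of_wellFoundedGT _ this
  have h1 : chain U 1 ≠ ⊤ := by
    intro h
    apply hne
    rw [eq_bot_iff]
    intro u hu
    rw [Subgroup.mem_bot]
    apply Subtype.ext
    refine Matrix.ext_of_mulVec_single fun j => ?_
    have : (Pi.single j 1 : Fin n → F) ∈ chain U 1 := h ▸ Submodule.mem_top
    have h2 := (Submodule.mem_bot F).1 (this u hu)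
    rw [sub_eq_zero.1 h2, Matrix.SpecialLinearGroup.coe_one, one_mulVec]
  have h2 : 2 ≤ Nat.find hex := by
    by_contra h
    have h3 := Nat.find_spec hex
    apply h1
    rcases (by omega : Nat.find hex = 0 ∨ Nat.find hex = 1) with e | e <;> rw [e] at h3
    · exact eq_top_iff.2 (h3 ▸ chain_le_succ U 0)
    · exact h3
  obtain ⟨k, hk⟩ : ∃ k, Nat.find hex = k + 1 := ⟨Nat.find hex - 1, by omega⟩
  refine ⟨k, fun i => chain U i.val, by omega, ?_, rfl, ?_, ?_, ?_⟩
  · rw [Fin.strictMono_iff_lt_succ]
    intro i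
    exact chain_lt_succ p hU i (Nat.find_min hex (by have := i.2; omega))
  · have := Nat.find_spec hex
    rwa [hk] at this
  · intro g hg i
    refine le_antisymm ?_ fun v hv => ?_
    · rintro _ ⟨v, hv, rfl⟩
      exact chain_normalizer hg _ v hv
    · refine ⟨_, chain_normalizer (inv_mem hg) _ v hv, ?_⟩
      rw [mulVecLin_apply, mulVec_mulVec, coe_mul_inv, one_mulVec]
  · intro u hu i v hv
    exact hv u hu

end Cfsg.Agent.S2391
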