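import Cfsg.Statements.S2392
import Cfsg.Agent.Lib.Deg.Weights
import Cfsg.Agent.Lib.Deg.SLTrans
import Cfsg.Agent.Lib.SLn.MinIndex

set_option autoImplicit false
open scoped MatrixGroups
open Cfsg
open Cfsg.Agent.Deg Cfsg.Agent.SLn Matrix

namespace Cfsg.Agent.S2392

/-- A lower bound for representations in cross characteristic: for `n ≥ 3` and a field `F` with `q` elements, every homomorphism from `SL_n(F)` to `GL_d(K)`, `K` a field of characteristic different from that of `F`, whose kernel is central has `d ≥ q^(n-1) - 1`. -/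
theorem result {F : Type*} [Field F] [Fintype F] {q : ℕ} (hq : Fintype.card F = q) (n : ℕ) (hn : 3 ≤ n)
    {K : Type*} [Field K] (hK : ringChar K ≠ ringChar F) {d : ℕ}
    (ρ : Matrix.SpecialLinearGroup (Fin n) F →* GL (Fin d) K) (hker : ρ.ker ≤ Subgroup.center (Matrix.SpecialLinearGroup (Fin n) F)) :
    q ^ (n - 1) - 1 ≤ d := by
  classical
  have hn' : 3 ≤ Fintype.card (Fin n) := by simpa using hn
  let i₀ : Fin n := ⟨0, by omega⟩
  let i₁ : Fin n := ⟨1, by omega⟩
  have h01 : i₀ ≠ i₁ := by simp [i₀, i₁]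
  let φ : Fin n → F := Pi.single i₀ 1
  have hφ : φ ≠ 0 := by simp [φ]
  have hw : (Pi.single i₁ 1 : Fin n → F) ∈ kerv φ := by simp [mem_kerv, φ, h01]
  obtain ⟨Λ, ⟨f, hf, hf0⟩, hcard, hinv⟩ := exists_dual_weights_GL (F := F) hK ρ
    (tvHom φ (kerv φ) le_rfl) ⟨Multiplicative.ofAdd ⟨_, hw⟩, fun h =>
      tv_notMem_center hw (by simp) hφ (hker h)⟩
  have ext : ∀ f : Module.Dual F (kerv φ), f ≠ 0 →
      ∃ b : Fin n → F, (∀ c : F, b ≠ c • φ) ∧ ∀ w : kerv φ, f w = b ⬝ᵥ w := by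
    intro f hf
    obtain ⟨f', hf'⟩ := LinearMap.exists_extend f
    obtain ⟨b, hb⟩ := exists_dot_eq_dual f'
    have e : ∀ w : kerv φ, f w = b ⬝ᵥ w := fun w => by rw [hb, ← hf']; rfl
    refine ⟨b, fun c hc => hf ?_, e⟩
    ext w
    rw [e, hc, smul_dotProduct, show φ ⬝ᵥ w = 0 from w.2]; simp
  have key : ∀ f' : Module.Dual F (kerv φ), f' ≠ 0 → f' ∈ Λ := by
    intro f' hf'
    obtain ⟨b, hb, e⟩ := ext f hf0
    obtain ⟨b', hb', e'⟩ := ext f' hf'
    obtain ⟨g, h1, h2⟩ := exists_SL_pair_vecMul hn' hφ hb hφ hb'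
    have hg : ∀ w ∈ kerv φ, g.1 *ᵥ w ∈ kerv φ := fun w hw => by
      rw [mem_kerv, dotProduct_mulVec, h1]; exact hw
    have := hinv g⁻¹ ((Matrix.toLin' g.1).restrict hg) (fun a => by
      rw [eq_inv_mul_iff_mul_eq, ← mul_assoc]
      exact tv_conj g a.2 (hg a.1 a.2) rfl h1) f hf
    convert this using 1
    ext w
    rw [e', LinearMap.comp_apply, e, ← h2, ← dotProduct_mulVec]; rfl
  refine le_trans ?_ hcard
  have h3 : Nat.card {f : Module.Dual F (kerv φ) // ¬ f = 0} = q ^ (n - 1) - 1 := by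
    have : Finite (Module.Dual F (kerv φ)) := Module.finite_of_finite F
    have := Fintype.ofFinite (Module.Dual F (kerv φ))
    rw [Nat.card_eq_fintype_card, Fintype.card_subtype_compl, ← Nat.card_eq_fintype_card, card_dual,
      card_kerv hφ, Nat.card_eq_fintype_card, hq]
    simp
  have : Finite (Module.Dual F (kerv φ)) := Module.finite_of_finite F
  rw [← h3]
  exact Nat.card_le_card_of_injective (fun f => (⟨f.1, key f.1 f.2⟩ : Λ))
    fun a b h => Subtype.ext (congrArg (fun x : Λ => x.1) h)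

end Cfsg.Agent.S2392
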