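import Cfsg.Statements.S2393
import Cfsg.Agent.Lib.Deg.Siegel

set_option autoImplicit false
open scoped MatrixGroups
open Cfsg
open Cfsg.Agent.Deg Cfsg.Agent.Forms

namespace Cfsg.Agent.S2393

/-- A lower bound for representations in cross characteristic: for `n ≥ 2` and a field `F` with `q` elements, `q` odd, every homomorphism from the symplectic group `Sp_{2n}(F)` to `GL_d(K)`, `K` a field of characteristic different from that of `F`, whose kernel is central has `d ≥ q^(n-1)(q-1)/2`. -/
theorem result {F : Type*} [Field F] [Fintype F] {q : ℕ} (hq : Fintype.card F = q) (hodd : Odd q) (n : ℕ) (hn : 2 ≤ n)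
    {K : Type*} [Field K] (hK : ringChar K ≠ ringChar F) {d : ℕ}
    (ρ : ↥(Matrix.symplecticGroup (Fin n) F) →* GL (Fin d) K) (hker : ρ.ker ≤ Subgroup.center ↥(Matrix.symplecticGroup (Fin n) F)) :
    q ^ (n - 1) * (q - 1) / 2 ≤ d := by
  classical
  have h2 : (2 : F) ≠ 0 := fun h => by
    have := FiniteField.even_card_iff_char_two.mp (ringChar.eq_iff.mpr
      ((CharP.charP_iff_prime_eq_zero Nat.prime_two).mpr (by exact_mod_cast h)))
    rw [hq] at this
    exact Nat.not_even_iff_odd.mpr hodd (Nat.even_iff.mpr this)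
  have : Nonempty (Fin n) := ⟨⟨0, by omega⟩⟩
  have h := sp_lower' h2 (n := n) (by omega) (K := AlgebraicClosure K)
    (by rwa [← Algebra.ringChar_eq K]) (closureRep ρ) (by
      by_contra hc
      push Not at hc
      obtain ⟨a, b, hab⟩ := sp_not_comm (spForm_nondeg (F := F) n)
      obtain ⟨a, rfl⟩ := (spEquiv n F).surjective a
      obtain ⟨b, rfl⟩ := (spEquiv n F).surjective b
      rw [← map_mul, ← map_mul,
        Subgroup.mem_center_iff.mp (hker (closureRep_eq_one ρ (hc b))) a] at hab
      exact hab rfl)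
  rw [Nat.card_eq_fintype_card, hq, Module.finrank_fin_fun] at h
  obtain ⟨m, rfl⟩ : ∃ m, n = m + 1 := ⟨n - 1, by omega⟩
  have h1 : 1 ≤ q ^ m := Nat.one_le_pow _ _ hodd.pos
  rw [Nat.add_sub_cancel, Nat.mul_sub_one, ← pow_succ]
  omega

end Cfsg.Agent.S2393
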