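import Cfsg.Statements.S2394
import Cfsg.Agent.Lib.Forms.Classify
import Cfsg.Agent.Lib.Forms.OrthTwo
import Cfsg.Agent.Lib.Deg.Weights

set_option autoImplicit false
open scoped MatrixGroups
open Cfsg

namespace Cfsg.Agent.S2394

open Forms Forms.Form Module Deg

theorem exists_half {α : Type*} [Finite α] (σ : α → α) (h1 : ∀ a, σ (σ a) = a) (h2 : ∀ a, σ a ≠ a) :
    ∃ T : Set α, 2 * Nat.card T ≤ Nat.card α ∧ ∀ a, a ∈ T ∨ σ a ∈ T := by
  obtain ⟨n, ⟨e⟩⟩ := Finite.exists_equiv_fin α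
  refine ⟨{a | e a < e (σ a)}, ?_, fun a => ?_⟩
  · rw [two_mul, ← Nat.card_sum]
    refine Nat.card_le_card_of_injective (Sum.elim (fun a => a.1) fun a => σ a.1) ?_
    rintro (⟨a, ha⟩ | ⟨a, ha⟩) (⟨b, hb⟩ | ⟨b, hb⟩) (h : _ = _)
    · simpa using h
    · obtain rfl : a = σ b := h
      exact (lt_asymm hb (by simpa [h1] using ha)).elim
    · obtain rfl : σ a = b := h
      exact (lt_asymm ha (by simpa [h1] using hb)).elim
    · simpa using (Function.Involutive.injective h1) h
  · rcases lt_or_gt_of_ne (e.injective.ne (h2 a)) with h | h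
    exacts [Or.inr (by simpa [h1] using h), Or.inl h]

theorem key {K V G H : Type*} [Field K] [IsAlgClosed K] [AddCommGroup V] [Module K V]
    [FiniteDimensional K V] [Group G] [Group H] (ρ : G →* End K V) (hρ : ∀ g, ρ g = 1 → g = 1) {n : ℕ}
    (J : (Fin n → H) →* G) (hJ : Function.Injective J) {x w : H} (h1 : x * w = w * x⁻¹)
    (h2 : x ^ 2 ≠ 1) {N : ℕ} (hN : (N : K) ≠ 0) (hx : x ^ N = 1) : 2 * n ≤ finrank K V := by
  let j : (Fin n → Subgroup.zpowers x) →* G :=
    J.comp (MonoidHom.compLeft (Subgroup.zpowers x).subtype _)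
  have hc : ∀ a b : Fin n → Subgroup.zpowers x, a * b = b * a := fun a b => funext fun i =>
    mul_comm' (a i) (b i)
  let τ : (Fin n → Subgroup.zpowers x) →* (Fin n → Subgroup.zpowers x) :=
    MonoidHom.mk' (·⁻¹) fun a b => by rw [mul_inv_rev, hc]
  have hτ : ∀ a, j a * J (fun _ => w) = J (fun _ => w) * j (τ a) := fun a => by
    change J _ * _ = _ * J _
    rw [← map_mul, ← map_mul]
    congr 1
    funext i
    obtain ⟨k, hk⟩ := (a i).2
    change (a i).1 * w = w * (a i).1⁻¹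
    rw [← hk, ← inv_zpow]
    exact (SemiconjBy.zpow_right (show SemiconjBy w x⁻¹ x from h1.symm) k).symm
  have := finite_wt ρ j
  let Λ := {l : {l // IsWt ρ j l} // ∃ a, l.1 a ^ 2 ≠ 1}
  have h3 : ∀ (l : (Fin n → Subgroup.zpowers x) →* K) a, l (τ a) = (l a)⁻¹ := fun l a => map_inv l a
  obtain ⟨T, h4, h5⟩ := exists_half (α := Λ) (fun l => ⟨⟨l.1.1.comp τ, l.1.2.conj _ τ hτ⟩,
      l.2.imp fun a ha => by simpa [h3] using ha⟩) (fun l => Subtype.ext (Subtype.ext (MonoidHom.ext fun a => by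
        simp [h3]))) fun l h => by
    obtain ⟨a, ha⟩ := l.2
    have h6 : l.1.1 (τ a) = l.1.1 a := DFunLike.congr_fun (congrArg (fun l : Λ => l.1.1) h) a
    refine ha ?_
    rw [sq]
    nth_rewrite 1 [← h6]
    rw [← map_mul]
    exact (congrArg _ (inv_mul_cancel a)).trans (map_one _)
  have h6 : Nat.card Λ ≤ finrank K V := (Finite.card_subtype_le (fun l : {l // IsWt ρ j l} => ∃ a, l.1 a ^ 2 ≠ 1)).trans
    (card_wt_le ρ j)
  have hN0 : N ≠ 0 := by rintro rfl; simp at hN
  have hf : IsOfFinOrder (x ^ 2) := (isOfFinOrder_iff_pow_eq_one.2 ⟨N, by omega, hx⟩).pow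
  have hs := hf.orderOf_pos
  have : NeZero (orderOf (x ^ 2)) := ⟨hs.ne'⟩
  let ι : (Fin n → Subgroup.zpowers (x ^ 2)) →* (Fin n → Subgroup.zpowers x) :=
    MonoidHom.compLeft (Subgroup.inclusion (Subgroup.zpowers_le.2 (Subgroup.npow_mem_zpowers x 2))) _
  have h7 : ∀ b : Fin n → Subgroup.zpowers (x ^ 2), b ^ orderOf (x ^ 2) = 1 := fun b => funext fun i => by
    rw [← Nat.card_zpowers]; exact pow_card_eq_one'
  let Φ : (Fin n → Subgroup.zpowers (x ^ 2)) →* (T → rootsOfUnity (orderOf (x ^ 2)) K) :=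
    MonoidHom.pi fun l => (l.1.1.1.toHomUnits.comp ι).codRestrict _ fun b => by
      rw [mem_rootsOfUnity, ← map_pow, h7, map_one]
  have h8 : Function.Injective Φ := (injective_iff_map_eq_one Φ).2 fun b hb => by
    obtain ⟨a, ha⟩ : ∃ a, ι b = a ^ 2 := ⟨fun i => ⟨x ^ (b i).2.choose, Subgroup.zpow_mem_zpowers ..⟩,
      funext fun i => Subtype.ext (by
        have : ∀ k : ℤ, (x ^ 2) ^ k = (x ^ k) ^ 2 := fun k => by
          rw [← zpow_natCast, ← zpow_natCast, ← zpow_mul, ← zpow_mul, mul_comm]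
        exact (b i).2.choose_spec.symm.trans (this _))⟩
    have h9 : ∀ l : T, l.1.1.1 (ι b) = 1 := fun l =>
      congrArg (fun u : rootsOfUnity _ K => (u.1 : K)) (congrFun hb l)
    by_contra h0
    obtain ⟨l, h10, h11⟩ := exists_wt_ne_one ρ j hc (a := ι b) hN (funext fun i => Subtype.ext (by
      obtain ⟨k, hk⟩ := (ι b i).2
      change (ι b i).1 ^ N = 1
      rw [← hk, ← zpow_natCast, ← zpow_mul, mul_comm, zpow_mul, zpow_natCast, hx, one_zpow]))
      fun h => h0 (funext fun i => Subtype.ext (congrFun ((map_eq_one_iff J hJ).1 (hρ _ h)) i))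
    rcases h5 ⟨⟨l, h10⟩, a, by rwa [← map_pow, ← ha]⟩ with h | h
    · exact h11 (h9 ⟨_, h⟩)
    · exact h11 (inv_eq_one.1 ((h3 l _).symm.trans (h9 ⟨_, h⟩)))
  have h9 := Nat.card_le_card_of_injective Φ h8
  rw [Nat.card_fun, Nat.card_fun, Nat.card_zpowers, Nat.card_fin] at h9
  have h10 := h9.trans (Nat.pow_le_pow_left (card_rootsOfUnity K _) _)
  have h11 := (Nat.pow_le_pow_iff_right (by have := mt orderOf_eq_one_iff.1 h2; omega)).1 h10
  omega

variable {F : Type*} [Field F]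

/-- An element of `SL₂`. -/
noncomputable def m (α β γ δ : F) (h : α * δ - β * γ = 1) : (hyp (Param.sp F)).Isom :=
  Isom.ofEnd hyp_nondeg (pairMap F (α, γ) (β, δ)) (HypPair.isIsom_pairMap
    ⟨rfl, rfl, by simp [hyp_B]; linear_combination h⟩)

theorem m_apply (α β γ δ : F) (h) (v : F × F) :
    (m α β γ δ h).1 v = (α * v.1 + β * v.2, γ * v.1 + δ * v.2) := by
  simp [m, pairMap_apply, mul_comm]

theorem exists_pair [Fintype F] : ∃ x w : (hyp (Param.sp F)).Isom, x * (w * x) = w ∧ x ^ 2 ≠ 1 ∧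
    ∃ N : ℕ, (N : F) ≠ 0 ∧ x ^ N = 1 := by
  by_cases h2 : (2 : F) = 0
  · refine ⟨m 0 (-1) 1 (-1) (by simp), m 0 1 1 0 (by linear_combination -h2), Isom.ext fun v => ?_,
      fun h => ?_, 3, fun h => one_ne_zero (α := F) (by push_cast at h; linear_combination h - h2),
      Isom.ext fun v => ?_⟩
    · simp [m_apply]
    · simpa [sq, m_apply] using congrArg (fun g => (g.1 (1, 0)).2) h
    · simp [pow_succ, m_apply]
  · obtain ⟨a, b, h⟩ := exists_binary_eq h2 one_ne_zero one_ne_zero (-1 : F)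
    refine ⟨m 0 (-1) 1 0 (by simp), m a b b (-a) (by linear_combination -h), Isom.ext fun v => ?_,
      fun h => h2 ?_, 4, fun h => mul_ne_zero h2 h2 (by push_cast at h; linear_combination h),
      Isom.ext fun v => ?_⟩
    · simp [m_apply, add_comm]
    · have : (-1 : F) = 1 := by
        simpa [sq, m_apply] using congrArg (fun g => (g.1 (1, 0)).1) h
      linear_combination -this
    · simp [pow_succ, m_apply]

/-- The smallest degree of a faithful representation of the symplectic group `Sp_{2n}(q)` over its own field `F_q` is `2n`: every injective homomorphism from `Sp_{2n}(F)` to `GL_d(F)`, `F` the field with `q` elements, has `d ≥ 2n`. -/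
theorem result {F : Type*} [Field F] [Fintype F] (n : ℕ) {d : ℕ}
    (ρ : ↥(Matrix.symplecticGroup (Fin n) F) →* GL (Fin d) F) (hρ : Function.Injective ρ) : 2 * n ≤ d := by
  obtain ⟨x, w, h1, h2, N, h3, h4⟩ := exists_pair (F := F)
  obtain ⟨i⟩ := (pi_nondeg (f := fun _ : Fin n => hyp (Param.sp F)) fun _ => hyp_nondeg).sp_iso
    (spForm_nondeg n) (by rw [finrank_plus, finrank_pi_fintype]; simp [mul_comm])
  simpa using key (closureRep ρ) (fun g h => (map_eq_one_iff ρ hρ).1 (closureRep_eq_one ρ h))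
    (((spEquiv n F).symm.toMonoidHom.comp i.isomEquiv.toMonoidHom).comp (piHom _))
    ((spEquiv n F).symm.injective.comp (i.isomEquiv.injective.comp (piHom_injective _)))
    (x := x) (w := w) (by rw [eq_mul_inv_iff_mul_eq, mul_assoc, h1]) h2 (N := N)
    (by rwa [← map_natCast (algebraMap F _), map_ne_zero]) h4

end Cfsg.Agent.S2394
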