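import Cfsg.Statements.S2401
import Cfsg.Agent.Lib.SLn.Steinberg3

set_option autoImplicit false
open Cfsg

namespace Cfsg.Agent.S2401

open Cfsg.Agent.SLn

/-- The Steinberg presentation of `SL_n` over a finite field for `n ≥ 3`: the group generated by symbols `x_ij(t)` (`i ≠ j`, `t` in the field) subject to `x_ij(t) x_ij(u) = x_ij(t + u)` and, for `i ≠ l`, `x_ij(t) x_kl(u) x_ij(t)⁻¹ x_kl(u)⁻¹ = x_il(tu)` if `j = k` and `= 1` if `j ≠ k`, is isomorphic to `SL_n` by an isomorphism sending `x_ij(t)` to the elementary matrix `1 + t E_ij`. -/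
theorem result {K : Type*} [Field K] [Finite K] (n : ℕ) (hn : 3 ≤ n) :
    ∃ e : PresentedGroup
        ({g : FreeGroup ({ij : Fin n × Fin n // ij.1 ≠ ij.2} × K) | ∃ (a : {ij : Fin n × Fin n // ij.1 ≠ ij.2}) (t u : K),
            g = FreeGroup.of (a, t) * FreeGroup.of (a, u) * (FreeGroup.of (a, t + u))⁻¹} ∪
          {g | ∃ (a b : {ij : Fin n × Fin n // ij.1 ≠ ij.2}) (t u : K), a.1.1 ≠ b.1.2 ∧ a.1.2 ≠ b.1.1 ∧
            g = FreeGroup.of (a, t) * FreeGroup.of (b, u) * (FreeGroup.of (a, t))⁻¹ * (FreeGroup.of (b, u))⁻¹} ∪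
          {g | ∃ (a b : {ij : Fin n × Fin n // ij.1 ≠ ij.2}) (h : a.1.1 ≠ b.1.2) (t u : K), a.1.2 = b.1.1 ∧
            g = FreeGroup.of (a, t) * FreeGroup.of (b, u) * (FreeGroup.of (a, t))⁻¹ * (FreeGroup.of (b, u))⁻¹ *
              (FreeGroup.of (⟨(a.1.1, b.1.2), h⟩, t * u))⁻¹}) ≃* Matrix.SpecialLinearGroup (Fin n) K,
      ∀ (a : {ij : Fin n × Fin n // ij.1 ≠ ij.2}) (t : K), ((e (PresentedGroup.of (a, t)) : Matrix (Fin n) (Fin n) K)) = Matrix.transvection a.1.1 a.1.2 t := by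
  generalize hR : ((_ ∪ _ ∪ _) : Set (FreeGroup ({ij : Fin n × Fin n // ij.1 ≠ ij.2} × K))) = R
  let x : Fin n → Fin n → K → PresentedGroup R := fun i j t =>
    if h : i ≠ j then PresentedGroup.of (⟨(i, j), h⟩, t) else 1
  have hx : ∀ {i j : Fin n} (h : i ≠ j) (t : K), x i j t = PresentedGroup.of (⟨(i, j), h⟩, t) :=
    fun h t => dif_pos h
  have hrel : ∀ r ∈ R, PresentedGroup.mk R r = 1 := fun r hr => PresentedGroup.one_of_mem hr
  have hs : StR x := by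
    refine ⟨fun {i j} hij t u => ?_, fun {i j k l} hij hkl hil hjk t u => ?_,
      fun {i j l} hij hjl hil t u => ?_⟩
    · rw [hx hij, hx hij, hx hij, ← mul_inv_eq_one]
      exact hrel _ (hR ▸ Or.inl (Or.inl ⟨⟨(i, j), hij⟩, t, u, rfl⟩))
    · rw [hx hij, hx hkl, ← commutatorElement_eq_one_iff_commute]
      exact hrel _ (hR ▸ Or.inl (Or.inr ⟨⟨(i, j), hij⟩, ⟨(k, l), hkl⟩, t, u, hil, hjk, rfl⟩))
    · rw [hx hij, hx hjl, hx hil, ← mul_inv_eq_one]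
      exact hrel _ (hR ▸ Or.inr ⟨⟨(i, j), hij⟩, ⟨(j, l), hjl⟩, hil, t, u, rfl, rfl⟩)
  have hf : ∀ r ∈ R, FreeGroup.lift (fun a : {ij : Fin n × Fin n // ij.1 ≠ ij.2} × K =>
      (xSL a.1.1.1 a.1.1.2 a.2 : Matrix.SpecialLinearGroup (Fin n) K)) r = 1 := by
    subst hR
    rintro r ((⟨a, t, u, rfl⟩ | ⟨a, b, t, u, h1, h2, rfl⟩) | ⟨a, b, h, t, u, h1, rfl⟩)
    · simp [stR_xSL.add a.2]
    · simp only [map_mul, map_inv, FreeGroup.lift_apply_of]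
      rw [(stR_xSL.comm a.2 b.2 h1 h2 t u).eq]; group
    · simp only [map_mul, map_inv, FreeGroup.lift_apply_of]
      rw [← h1, stR_xSL.step a.2 (h1 ▸ b.2) h, mul_inv_cancel]
  obtain ⟨f, hf'⟩ := hs.exists_hom (by simpa using hn)
  refine ⟨MonoidHom.toMulEquiv (PresentedGroup.toGroup hf) f ?_ ?_, fun a t => ?_⟩
  · ext ⟨⟨⟨i, j⟩, h⟩, t⟩
    simp [hf' i j h, hx h]
  · refine MonoidHom.eq_of_eqOn_dense (s := {g | ∃ i j, i ≠ j ∧ ∃ t, g = xSL i j t})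
      (eq_top_of_xSL_mem fun i j h t => Subgroup.subset_closure ⟨i, j, h, t, rfl⟩) ?_
    rintro _ ⟨i, j, h, t, rfl⟩
    simp [hf' i j h, hx h]
  · simp [coe_xSL a.2]

end Cfsg.Agent.S2401
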