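import Cfsg.Statements.S2402
import Cfsg.Agent.Lib.SLn.Cycle

set_option autoImplicit false
open Cfsg

namespace Cfsg.Agent.S2402

/-- Explicit two-element generation of `PSL_{n+1}(K)` for a finite field `K` with more than three elements: let `k` generate the multiplicative group of `K`, `h = diag(k, k⁻¹, 1, …, 1)`, `x = 1 + E₁₂` (the elementary transvection) and `w` the monomial matrix with entries `1` in positions `(i, i+1)` and `(−1)^n` in position `(n+1, 1)`. Then `h` and `x·w` generate `SL_{n+1}(K)` modulo its centre: the subgroup they generate together with the centre is everything. -/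
theorem result {K : Type*} [Field K] [Fintype K] (hK : 3 < Fintype.card K) (n : ℕ) (hn : 1 ≤ n)
    (k : Kˣ) (hk : ∀ u : Kˣ, u ∈ Subgroup.zpowers k)
    (h x w : Matrix.SpecialLinearGroup (Fin (n + 1)) K)
    (hh : (h : Matrix (Fin (n + 1)) (Fin (n + 1)) K) =
      Matrix.diagonal (fun i => if i.val = 0 then (k : K) else if i.val = 1 then ((k⁻¹ : Kˣ) : K) else 1))
    (hx : (x : Matrix (Fin (n + 1)) (Fin (n + 1)) K) = Matrix.transvection (0 : Fin (n + 1)) (1 : Fin (n + 1)) 1)
    (hw : (w : Matrix (Fin (n + 1)) (Fin (n + 1)) K) =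
      Matrix.of (fun i j => if j.val = i.val + 1 then 1 else if i.val = n ∧ j.val = 0 then (-1) ^ n else 0)) :
    Subgroup.closure ({h, x * w} : Set (Matrix.SpecialLinearGroup (Fin (n + 1)) K)) ⊔
      Subgroup.center (Matrix.SpecialLinearGroup (Fin (n + 1)) K) = ⊤ := by
  rw [SLn.closure_h_xw hK n hn k hk h x w hh hx hw, top_sup_eq]

end Cfsg.Agent.S2402
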