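import Cfsg.Statements.S2405
import Cfsg.Agent.Lib.Gen2.Basic

set_option autoImplicit false
open Cfsg

namespace Cfsg.Agent.S2405

open Cfsg.Lie Cfsg.Agent.Chev Cfsg.Agent.Gen2

theorem cE6 : checkOne chevE6 [1, 0, 2, 3, 4, 5] false 56 11 [-1, 0, -1, 0, 0, 0]
    [(0, 56, 56, 56, 42), (0, 42, 42, 42, 47), (0, 47, 47, 47, 59), (0, 59, 59, 59, 52), (0, 52, 52, 52, 39), (0, 39, 39, 39, 37), (0, 37, 37, 37, 36), (0, 36, 36, 36, 8), (0, 8, 8, 8, 28), (11, 42, 28, 28, 32), (0, 28, 28, 28, 23), (11, 37, 23, 23, 24), (10, 47, 32, 24, 46), (11, 52, 8, 8, 15), (10, 47, 39, 24, 25), (11, 39, 28, 28, 29), (11, 47, 23, 23, 34), (0, 23, 23, 23, 11), (11, 59, 11, 11, 35)] = true := by decide +kernel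

theorem cE7 : checkOne chevE7 [1, 0, 2, 3, 6, 4, 5] false 69 85 [0, -1, 0, 0, 0, 0, 0]
    [(0, 69, 69, 69, 66), (0, 66, 66, 66, 65), (0, 65, 65, 65, 62), (0, 62, 62, 62, 24), (0, 24, 24, 24, 51), (0, 51, 51, 51, 45), (0, 45, 45, 45, 27), (0, 27, 27, 27, 40), (0, 40, 40, 40, 56), (0, 56, 56, 56, 59), (0, 59, 59, 59, 60), (0, 60, 60, 60, 63), (0, 63, 63, 63, 101), (10, 24, 40, 101, 93), (0, 101, 101, 101, 74), (0, 74, 74, 74, 80), (10, 66, 80, 59, 79), (10, 69, 79, 56, 78), (10, 69, 74, 56, 73), (10, 65, 62, 60, 64), (0, 80, 80, 80, 98), (0, 98, 98, 98, 85), (10, 24, 85, 101, 32), (10, 66, 45, 59, 46), (10, 69, 46, 56, 47), (10, 69, 51, 56, 52), (10, 65, 63, 60, 61)] = true := by decide +kernel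

theorem cE8 : checkOne chevE8 [7, 0, 1, 6, 2, 5, 3, 4] false 162 74 [-1, 0, -1, 0, 0, 0, 0, 0]
    [(0, 162, 162, 162, 135), (0, 135, 135, 135, 142), (0, 142, 142, 142, 168), (0, 168, 168, 168, 150), (0, 150, 150, 150, 175), (0, 175, 175, 175, 190), (0, 190, 190, 190, 154), (0, 154, 154, 154, 182), (0, 182, 182, 182, 189), (0, 189, 189, 189, 153), (0, 153, 153, 153, 180), (0, 180, 180, 180, 139), (0, 139, 139, 139, 144), (0, 144, 144, 144, 165), (0, 165, 165, 165, 77), (0, 77, 77, 77, 104), (0, 104, 104, 104, 97), (0, 97, 97, 97, 71), (0, 71, 71, 71, 89), (0, 89, 89, 89, 64), (0, 64, 64, 64, 49), (0, 49, 49, 49, 85), (0, 85, 85, 85, 57), (0, 57, 57, 57, 50), (0, 50, 50, 50, 86), (0, 86, 86, 86, 59), (0, 59, 59, 59, 100), (10, 150, 100, 89, 141), (10, 150, 154, 89, 130), (10, 168, 180, 71, 143), (10, 142, 143, 97, 126), (10, 182, 59, 57, 123), (10, 154, 86, 85, 121), (10, 190, 50, 49, 120),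 (10, 150, 139, 89, 98), (10, 150, 85, 89, 109), (10, 168, 59, 71, 96), (10, 142, 96, 97, 113), (10, 182, 180, 57, 116), (10, 154, 153, 85, 118), (10, 190, 189, 49, 119)] = true := by decide +kernel

theorem cB2o : checkOne chevB2 [0, 1] true 5 1 [0, -1]
    [(0, 5, 5, 5, 6), (0, 6, 6, 6, 2), (11, 6, 2, 2, 4), (0, 2, 2, 2, 1), (11, 5, 1, 1, 3)] = true := by decide +kernel

theorem cD4 : checkTwo chevD4 [0, 2, 1, 3] false 9 1 13 6 [-1, 0, 0, 0]
    [(0, 13, 13, 13, 19), (0, 9, 9, 9, 11), (0, 11, 11, 11, 22), (0, 22, 22, 22, 14), (10, 9, 19, 14, 18), (0, 14, 14, 14, 12), (0, 19, 19, 19, 17), (0, 17, 17, 17, 10), (0, 10, 10, 10, 4), (10, 9, 4, 14, 5)] = true := by decide +kernel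

theorem cF4 : checkTwo chevF4 [0, 1, 2, 3] false 14 36 22 16 [0, -1, -1, 0]
    [(0, 14, 14, 14, 20), (0, 20, 20, 20, 12), (0, 12, 12, 12, 9), (0, 9, 9, 9, 19), (0, 19, 19, 19, 11), (0, 11, 11, 11, 33), (0, 33, 33, 33, 27), (0, 22, 22, 22, 23), (0, 23, 23, 23, 42), (0, 42, 42, 42, 30), (0, 30, 30, 30, 43), (0, 43, 43, 43, 31), (0, 31, 31, 31, 25), (0, 25, 25, 25, 24)] = true := by decide +kernel

theorem cG2 : checkTwo chevG2 [1, 0] false 5 10 7 9 [-1, -2]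
    [(0, 5, 5, 5, 0), (0, 0, 0, 0, 1), (0, 1, 1, 1, 6), (0, 7, 7, 7, 3), (0, 3, 3, 3, 2), (0, 2, 2, 2, 4)] = true := by decide +kernel

theorem cB2 : checkTwo chevB2 [0, 1] true 2 6 4 7 [-1, -1]
    [(0, 2, 2, 2, 1), (0, 1, 1, 1, 5), (0, 4, 4, 4, 0), (0, 0, 0, 0, 3)] = true := by decide +kernel

theorem cD42 : checkThree chevD4 (collD4 2 fun e => if e = 5 then 1000 else e) [0, 1, 2, 3] 5 14 4 15
    [(0, 5, 5, 5, 9), (0, 9, 9, 9, 1), (0, 1, 1, 1, 18), (0, 18, 18, 18, 14), (10, 5, 9, 18, 4)]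
    [(0, 5, 5, 5, 9), (0, 9, 9, 9, 1), (0, 1, 1, 1, 18), (0, 18, 18, 18, 14), (0, 15, 15, 15, 13), (0, 13, 13, 13, 2), (0, 2, 2, 2, 8), (10, 15, 9, 8, 12), (0, 8, 8, 8, 10), (10, 15, 14, 8, 11)] = true := by decide +kernel

theorem cF42 : checkThree chevF4 (collF4 2 fun e => if e = 22 then 1000 else e) [0, 1, 2, 3] 22 24 21 14
    [(0, 22, 22, 22, 23), (0, 23, 23, 23, 42), (0, 42, 42, 42, 30), (0, 30, 30, 30, 43), (0, 43, 43, 43, 31), (0, 31, 31, 31, 25), (0, 25, 25, 25, 24), (10, 22, 23, 25, 21)]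
    [(0, 14, 14, 14, 20), (0, 20, 20, 20, 12), (0, 12, 12, 12, 9), (0, 9, 9, 9, 19), (0, 19, 19, 19, 11), (0, 11, 11, 11, 33), (0, 33, 33, 33, 27), (0, 22, 22, 22, 23), (0, 23, 23, 23, 42), (0, 42, 42, 42, 30), (0, 30, 30, 30, 43), (0, 43, 43, 43, 31), (0, 31, 31, 31, 25), (0, 25, 25, 25, 24)] = true := by decide +kernel


/-- Each Chevalley group of type G₂, B₂, D₄, F₄, E₆, E₇ or E₈ over a finite field is generated by two of its elements (types B₂ and G₂ over the field with two elements, where the group is not simple, excepted). -/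
theorem result {F : Type*} [Field F] [Finite F] (D : Cfsg.Lie.ChevalleyDatum) (hD : D ∈ [Cfsg.Lie.chevG2, Cfsg.Lie.chevB2, Cfsg.Lie.chevD4, Cfsg.Lie.chevF4, Cfsg.Lie.chevE6, Cfsg.Lie.chevE7, Cfsg.Lie.chevE8])
    (hF : D ∈ [Cfsg.Lie.chevB2, Cfsg.Lie.chevG2] → ∃ x : F, x ≠ 0 ∧ x ≠ 1) :
    ∃ a b : ↥(D.group F), Subgroup.closure ({a, b} : Set ↥(D.group F)) = ⊤ := by
  have h3 : D ∈ [Cfsg.Lie.chevB2, Cfsg.Lie.chevG2] → 3 ≤ Nat.card F := fun h => by
    obtain ⟨t, h0, h1⟩ := hF h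
    by_contra h2
    exact (eq_zero_or_one h2 t).elim h0 h1
  rcases IsTab.cases hD with rfl | rfl | rfl | rfl | rfl | rfl | rfl
  · exact gen_of_two (h3 (by simp)) (by simp) cG2
  · by_cases h4 : 4 ≤ Nat.card F
    · exact gen_of_two (h3 (by simp)) (fun _ => h4) cB2
    · refine gen_of_one (h3 (by simp)) (fun _ h2 => ?_) cB2o
      have h5 : Nat.card F = 3 := by have := h3 (by simp); omega
      cases nonempty_fintype F
      have h6 := FiniteField.cast_card_eq_zero F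
      rw [← Nat.card_eq_fintype_card, h5] at h6
      exact one_ne_zero (α := F) (by push_cast at h6; linear_combination h6 - h2)
  · by_cases h4 : 3 ≤ Nat.card F
    exacts [gen_of_two h4 (by simp) cD4, gen_of_three h4 (collFor_D4 _ _) rfl cD42]
  · by_cases h4 : 3 ≤ Nat.card F
    exacts [gen_of_two h4 (by simp) cF4, gen_of_three h4 (collFor_F4 _ _) rfl cF42]
  · by_cases h4 : 3 ≤ Nat.card F
    exacts [gen_of_one h4 (by simp) cE6, gen_of_one_two h4 cE6]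
  · by_cases h4 : 3 ≤ Nat.card F
    exacts [gen_of_one h4 (by simp) cE7, gen_of_one_two h4 cE7]
  · by_cases h4 : 3 ≤ Nat.card F
    exacts [gen_of_one h4 (by simp) cE8, gen_of_one_two h4 cE8]

end Cfsg.Agent.S2405
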