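import Cfsg.Statements.S2406
import Cfsg.Agent.Lib.Gen2.Tw

set_option autoImplicit false
open Cfsg

namespace Cfsg.Agent.S2406

open Cfsg.Lie Cfsg.Agent.Chev Cfsg.Agent.Gen2

theorem chk : checkT chevE6 twE6 2 (collE6 0) [0, 5, 2, 4, 3, 1] 56 10 [-1, 0, 0, 0, 0, 0]
    [(0, 56, 56, 56, 42), (0, 42, 42, 42, 41), (0, 41, 41, 41, 62), (0, 62, 62, 62, 43), (0, 43, 43, 43, 49), (0, 49, 49, 49, 35), (0, 35, 35, 35, 34), (0, 34, 34, 34, 13), (12, 49, 13, 13, 46), (12, 43, 34, 34, 39), (13, 35, 35, 35, 15), (13, 34, 34, 34, 29), (0, 13, 13, 13, 19), (0, 19, 19, 19, 31), (0, 31, 31, 31, 10), (12, 41, 10, 10, 25), (12, 42, 31, 31, 32)] [56, 42, 46, 39, 15, 29, 25, 32] = true := by decide +kernel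

/-- The twisted group ²E₆(q) (realised inside E₆ over the field with `q²` elements) is generated by two of its elements. -/
theorem result {K : Type*} [Field K] [Fintype K] {q : ℕ} (hq : IsPrimePow q) (hK : Fintype.card K = q ^ 2) :
    ∃ a b : ↥(Cfsg.Lie.twistedE6 K q), Subgroup.closure ({a, b} : Set ↥(Cfsg.Lie.twistedE6 K q)) = ⊤ := by
  obtain ⟨p, _, _, -, φ, hφ, hφk⟩ := exists_frob hq hK
  have h2 := hq.two_le
  exact gen_of_checkT (isTw_adj (twOK_E6 K) φ) per_E6 hφk (exists_trace_ne h2 hφ (by decide) hK)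
    (by rw [Nat.card_eq_fintype_card, hK]; exact le_trans (by decide) (Nat.pow_le_pow_left h2 _)) hφ (collFor_E6 0)
    (fun _ => rfl) (emb_twistedE6 φ hφ hφk) (range_twistedE6 φ hφ hφk).le (IsTw.hrep_E6 _) chk (by decide +kernel)

end Cfsg.Agent.S2406
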