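import Cfsg.Statements.S2407
import Cfsg.Agent.Lib.Gen2.Tw

set_option autoImplicit false
open Cfsg

namespace Cfsg.Agent.S2407

open Cfsg.Lie Cfsg.Agent.Chev Cfsg.Agent.Gen2

theorem chk : checkT chevD4 twD4a 3 (collD4 0) [1, 0, 2, 3] 18 17 [-1, -2, -1, 0]
    [(0, 18, 18, 18, 4), (0, 4, 4, 4, 6), (0, 6, 6, 6, 5), (0, 5, 5, 5, 19), (12, 5, 19, 19, 14), (12, 18, 4, 4, 9)] [18, 14, 5, 9] = true := by decide +kernel

/-- The twisted group ³D₄(q) (realised inside D₄ over the field with `q³` elements) is generated by two of its elements. -/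
theorem result {K : Type*} [Field K] [Fintype K] {q : ℕ} (hq : IsPrimePow q) (hK : Fintype.card K = q ^ 3) :
    ∃ a b : ↥(Cfsg.Lie.twistedD4 K q), Subgroup.closure ({a, b} : Set ↥(Cfsg.Lie.twistedD4 K q)) = ⊤ := by
  obtain ⟨p, _, _, -, φ, hφ, hφk⟩ := exists_frob hq hK
  have h2 := hq.two_le
  exact gen_of_checkT (isTw_adj (twOK_D4a K) φ) per_D4 hφk (exists_trace_ne h2 hφ (by decide) hK)
    (by rw [Nat.card_eq_fintype_card, hK]; exact le_trans (by decide) (Nat.pow_le_pow_left h2 _)) hφ (collFor_D4 0)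
    (fun _ => rfl) (emb_twistedD4 φ hφ hφk) (range_twistedD4 φ hφ hφk).le (IsTw.hrep_D4 _) chk (by decide +kernel)

end Cfsg.Agent.S2407
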