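import Cfsg.Statements.S2408
import Cfsg.Agent.Lib.Gen2.Basic

set_option autoImplicit false
open Cfsg

namespace Cfsg.Agent.S2408

open Cfsg.Lie Cfsg.Agent.Chev Cfsg.Agent.Gen2 Cfsg.Agent.Chev.RSys Cfsg.Agent.Chev.PreRGD

variable {K : Type*} [Field K] [Finite K] [CharP K 2] {G : Type*} [Group G] {x : ℕ → K → G} {φ : K →+* K} {σ : G →* G}

omit [Finite K] in
theorem bW_sq (h : IsTw chevF4 twF4 x φ σ) (hφ2 : ∀ t, φ (φ t) ^ 2 = t) (t u : K) :
    bW x φ 27 25 28 30 t u * bW x φ 27 25 28 30 t u = bW x φ 27 25 28 30 0 (φ t * t) := by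
  have h1 := evS_eq_of_check h.chv.rel (collFor_F4 2 (ordOf chevF4 certF4 [1, 1, 1, 1])) (charOK_of K 2)
    (fun i => [t, φ t, u, φ u].getD i 0) (w := bL 27 25 28 30 ++ bL 27 25 28 30)
    (w' := [(28, [(1, [1, 0])]), (30, [(1, [0, 1, 1])])]) (by decide +kernel)
  rw [evS_append, ← bW_eq] at h1
  rw [h1]
  simp [bW, h.chv.rel.zero (r := 27) (by decide), h.chv.rel.zero (r := 25) (by decide), mul_pow, hφ2, sq (φ t)]

omit [Finite K] in
theorem bW_mul (h : IsTw chevF4 twF4 x φ σ) (t u v : K) :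
    bW x φ 27 25 28 30 t u * bW x φ 27 25 28 30 0 v = bW x φ 27 25 28 30 t (u + v) := by
  have h1 := evS_eq_of_check h.chv.rel (collFor_F4 2 (ordOf chevF4 certF4 [1, 1, 1, 1])) (charOK_of K 2)
    (fun i => [t, φ t, u, φ u, v, φ v].getD i 0) (w := bL 27 25 28 30 ++ [(28, [(1, [4])]), (30, [(1, [5, 5])])])
    (w' := [(27, [(1, [1])]), (25, [(1, [0])]), (28, [(1, [1, 0]), (1, [2]), (1, [4])]),
      (30, [(1, [3, 3]), (1, [5, 5])])]) (by decide +kernel)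
  simpa [bW, bL, h.chv.rel.zero (r := 27) (by decide), h.chv.rel.zero (r := 25) (by decide), add_pow_char, sq,
    mul_assoc, add_assoc, CharTwo.add_mul_self] using h1

omit [CharP K 2] in
theorem exists_mul_eq (hφ2 : ∀ t, φ (φ t) ^ 2 = t) (v : K) : ∃ t, φ t * t = v := by
  refine (Finite.injective_iff_surjective (f := fun t => φ t * t)).mp (fun s t (e : φ s * s = φ t * t) => ?_) v
  by_cases ht : t = 0
  · simpa [ht] using e
  have h1 : φ (s / t) * (s / t) = 1 := by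
    rw [map_div₀, div_mul_div_comm, e, div_self (mul_ne_zero ((map_ne_zero φ).mpr ht) ht)]
  have h2 := hφ2 (s / t)
  have h0 : s / t ≠ 0 := right_ne_zero_of_mul_eq_one h1
  rw [eq_inv_of_mul_eq_one_left h1, map_inv₀, eq_inv_of_mul_eq_one_left h1, inv_inv, sq, mul_eq_left₀ h0] at h2
  exact (div_eq_one_iff_eq ht).mp h2

/-- The Coxeter word. -/
def lw : List ℕ := [0, 3, 1, 2, 1, 2]

theorem hl : allL lw (fun i => decide (i < chevF4.rank)) = true := by decide +kernel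

theorem gen (h : IsTw chevF4 twF4 x φ σ) (hφ2 : ∀ t, φ (φ t) ^ 2 = t) {q : ℕ} (hφ : ∀ t, φ t = t ^ q)
    (h3 : 3 ≤ Nat.card K) (hG : GS chevF4 x = ⊤) (hZ : Subgroup.center G = ⊥) {Γ : Type*} [Group Γ] {f : Γ →* G}
    (E : h.fold.Emb f) (hf : f.range ≤ h.fold.gen) : ∃ a b : Γ, Subgroup.closure ({a, b} : Set Γ) = ⊤ := by
  obtain ⟨ζ, hζ⟩ := IsCyclic.exists_generator (α := Kˣ)
  have hx := h.chv.rel
  obtain ⟨n, ho⟩ := E.exists_over (h.wordW_mem_WF (toFin chevF4 lw) (by rw [map_toFin hl]; decide +kernel))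
  obtain ⟨a, ea⟩ := h.tor_mem_F4 hφ2 E hG hZ (cot chevF4 [1, 2, 3, 2] ζ)
  have ha : ActsBy chevF4 x (f a) _ := ea ▸ hx.actsBy_torus hx.r3_of_finite (dl h.σT 2 (cot chevF4 [1, 2, 3, 2] ζ))
  have hH : f a ∈ hx.pre.H := ea ▸ hx.tor_mem _
  have o1 := h.orbOK_F4 (r := (rs chevF4).simple (repF4 0)) (by decide +kernel)
  obtain ⟨y, hy⟩ := h.exists_bW hφ2 E 1 0
  let r : Fin chevF4.nroots := (rs chevF4).neg ((rs chevF4).simple (repF4 0))
  have hY : ∀ t, f (h.Y E r 2 t) = dl σ 2 (x r t) := fun t => h.map_Y E o1.neg (h.iter_F4 hφ2 _ t)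
  have w1 : (rs chevF4).wordW (toFin chevF4 lw) ⟨32, by decide⟩ = r := Fin.ext (by rw [wordW_toFin hl]; decide +kernel)
  have w2 : (rs chevF4).wordW (toFin chevF4 lw) ⟨31, by decide⟩ = ⟨25, by decide⟩ :=
    Fin.ext (by rw [wordW_toFin hl]; decide +kernel)
  have w3 : (rs chevF4).wordW (toFin chevF4 lw) ⟨25, by decide⟩ = ⟨21, by decide⟩ :=
    Fin.ext (by rw [wordW_toFin hl]; decide +kernel)
  have g0 : ∀ s : Fin chevF4.nroots, unitV false (exN chevF4 twF4 [1, 2, 3, 2] 2 s) = true →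
      Gen (chi chevF4 (dl h.σT 2 (cot chevF4 [1, 2, 3, 2] ζ)) s : K) := fun s hs => by
    rw [h.chi_dl_cot hφ]; exact gen_evQ hφ h3 (by simp) hs hζ
  have g1 : ∀ s : Fin chevF4.nroots, allL (exN chevF4 twF4 [1, 2, 3, 2] 2 s) isZ = true → ∀ t,
      f a * x s t * (f a)⁻¹ = x s t := fun s hs t => by
    rw [ha, h.chi_dl_cot hφ, evQ_zero q hs]; simp
  have c1 := commute_conj hx ho hH
  refine gen_of a (h.Y E r 2 1 * y * n) fun M m1 m2 => ?_
  obtain ⟨a1, a2, a3, a4⟩ := first (Y := h.Y E r 2) (fun t u => E.inj (by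
      rw [map_mul, hY, hY, hY]; exact (h.sl2d_dl o1).y_add t u)) (h := a) (n := n) (y := y)
    (fun u => E.inj (by rw [map_mul, map_mul, map_inv, hY, hY, dl_conj (σ := σ) (E.fix a), ha]))
    (fun u => E.inj (by
      rw [map_mul, map_mul, map_inv, hY, hY, dl_conj (σ := σ) (E.fix _), map_mul, map_mul, map_inv, ← w1,
        scale_conj hx ho ha]))
    (Commute.of_map E.inj (by simpa using c1.1)) (g0 _ (by decide +kernel)) (g0 _ (by decide +kernel)).1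
    (Commute.of_map E.inj (by
      have e : f a * f y * (f a)⁻¹ = f y := by
        rw [hy, bW, ← conj_mul, ← conj_mul, ← conj_mul, g1 ⟨27, by decide⟩ (by decide +kernel),
          g1 ⟨25, by decide⟩ (by decide +kernel), g1 ⟨28, by decide⟩ (by decide +kernel),
          g1 ⟨30, by decide⟩ (by decide +kernel)]
      exact (mul_inv_eq_iff_eq_mul.mp e).symm))
    (fun t => Commute.of_map E.inj (by
      rw [hY, hy, dl_two, h.σ_eq (r := r) (s := 14) (by decide +kernel)]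
      refine hx.commute_of_USub (T := twF4) h.char (S := {s | (s : ℕ) ∈ [27, 25, 28, 30]}) (S' := {s | (s : ℕ) ∈ [23, 14]})
        (by simp only [Set.mem_ofPred_eq]; decide +kernel) (h.UL_F4 ▸ h.bW_mem_UL 1 0)
        (mul_mem (x_mem_USub (by simp only [Set.mem_ofPred_eq]; decide +kernel) _)
          (x_mem_USub (x := x) (r := ⟨14, by decide⟩) (by simp) _)))) m1 m2
  set S := h.filt levOK_F4 E
  have hγ : S.χ 0 (n * a * n⁻¹) ≠ 1 := by
    have := scale_conj hx ho ha ⟨31, by decide⟩ 1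
    rw [w2, mul_one, ← map_inv f n, ← map_mul, ← map_mul] at this
    exact (chiOf_eq (h.chv.x_injective ⟨25, by decide⟩) this).trans_ne (g0 _ (by decide +kernel)).1
  have hδ : Gen (S.χ 0 (n⁻¹ * a * n)) := by
    have := scale_conj' hx ho ha ⟨25, by decide⟩ 1
    rw [w3, mul_one, ← map_inv f n, ← map_mul, ← map_mul] at this
    rw [show S.χ 0 (n⁻¹ * a * n) = _ from chiOf_eq (h.chv.x_injective ⟨25, by decide⟩) this]
    exact g0 _ (by decide +kernel)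
  have H1 : f (n * a * n⁻¹) ∈ hx.pre.H := by simpa using ho.conj_H hH
  have H2 : f (n⁻¹ * a * n) ∈ hx.pre.H := by simpa using ho.inv.conj_H hH
  set A := (h.chv.rel.pre.UL (h.fold.orb (repF4 1))).comap f
  have hA : A ≤ S.F 0 := by rw [h.filt_F_zero]; exact Subgroup.comap_mono (UL_le_U _ _)
  have hA' : ∀ g, f g ∈ hx.pre.H → ∀ b ∈ A, g * b * g⁻¹ ∈ A := fun g hg b hb => by
    rw [Subgroup.mem_comap, map_mul, map_mul, map_inv]
    exact hx.pre.H_conj_US hg hb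
  have yA : y ∈ A := by rw [Subgroup.mem_comap, hy]; exact h.bW_mem_UL 1 0
  have m0 : 0 < S.m := show 0 < 12 by decide
  have zA : (n * a * n⁻¹) * y * (n * a * n⁻¹)⁻¹ * y⁻¹ ∈ A := mul_mem (hA' _ H1 _ yA) (inv_mem yA)
  have k1 : ∀ t, ∃ g ∈ M, g ∈ A ∧ S.c 0 g = t := hδ.all (S := fun t => ∃ g ∈ M, g ∈ A ∧ S.c 0 g = t)
    ⟨1, one_mem _, one_mem _, Filt.c_one m0⟩
    (fun _ _ ⟨g, h1, h2, h3⟩ ⟨g', h1', h2', h3'⟩ =>
      ⟨_, mul_mem h1 h1', mul_mem h2 h2', by rw [S.c_mul 0 m0 _ (hA h2) _ (hA h2'), h3, h3']⟩)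
    (fun _ ⟨g, h1, h2, h3⟩ => ⟨_, mul_mem (mul_mem a4 h1) (inv_mem a4), hA' _ H2 _ h2, by
      rw [S.c_conj _ H2 0 m0 _ (hA h2), h3]⟩)
    (mul_ne_zero (sub_ne_zero.mpr hδ.1) (neg_ne_zero.mpr (mul_ne_zero (sub_ne_zero.mpr hγ) one_ne_zero)))
    ⟨_, by
      have c2 : Commute (n * a * n⁻¹) (n⁻¹ * a * n) := Commute.of_map E.inj (by simpa using c1.2)
      have e : (n⁻¹ * a * n) * ((n * a * n⁻¹) * y * (n * a * n⁻¹)⁻¹ * y⁻¹)⁻¹ * (n⁻¹ * a * n)⁻¹ *
          ((n * a * n⁻¹) * y * (n * a * n⁻¹)⁻¹ * y⁻¹)⁻¹⁻¹ ∈ M := by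
        convert mul_mem (mul_mem (mul_mem a4 a3) (inv_mem a4)) (inv_mem a3) using 1
        have e2 := c2.inv_left.inv_right.eq
        generalize n * a * n⁻¹ = u at e2 ⊢
        generalize n⁻¹ * a * n = v at e2 ⊢
        rw [show v * (u * y * u⁻¹ * y⁻¹)⁻¹ * v⁻¹ * (u * y * u⁻¹ * y⁻¹)⁻¹⁻¹ =
          v * y * u * y⁻¹ * (u⁻¹ * v⁻¹) * u * y * u⁻¹ * y⁻¹ by group, e2]
        group
      exact e, mul_mem (hA' _ H2 _ (inv_mem zA)) (inv_mem (inv_mem zA)), by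
      rw [Filt.c_comm m0 H2 (hA (inv_mem zA)), Filt.c_inv m0 (hA zA), Filt.c_comm m0 H1 (hA yA),
        (h.filt_bW0 E hy).2]⟩
  have k2 : ∀ t, ∃ g ∈ M, ∃ u, f g = bW x φ 27 25 28 30 t u := fun t => by
    obtain ⟨g, h1, h2, h3⟩ := k1 t
    obtain ⟨t', u, e⟩ := h.eq_bW hφ2 E h2
    exact ⟨g, h1, u, by rw [← h3, (h.filt_bW0 E e).2, e]⟩
  have k3 : A ≤ M := fun g hg => by
    obtain ⟨t, u, e⟩ := h.eq_bW hφ2 E hg
    obtain ⟨g1, h1, u1, e1⟩ := k2 t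
    obtain ⟨s, hs⟩ := exists_mul_eq hφ2 (u - u1)
    obtain ⟨g2, h2, u2, e2⟩ := k2 s
    have : g = g1 * (g2 * g2) := E.inj (by
      rw [map_mul, map_mul, e1, e2, bW_sq h hφ2, hs, bW_mul h, add_sub_cancel, e])
    exact this ▸ mul_mem h1 (mul_mem h2 h2)
  have nM : n ∈ M := by simpa using mul_mem (inv_mem (k3 yA)) a2
  have o4 := ((ho.mul ho).mul ho).mul ho
  rw [← map_mul f, ← map_mul f, ← map_mul f] at o4
  have n4 : n * n * n * n ∈ M := mul_mem (mul_mem (mul_mem nM nM) nM) nM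
  have w4 : ∀ s, ((rs chevF4).wordW (toFin chevF4 lw) * (rs chevF4).wordW (toFin chevF4 lw) *
      (rs chevF4).wordW (toFin chevF4 lw) * (rs chevF4).wordW (toFin chevF4 lw)) s = (rs chevF4).neg s := fun s =>
    Fin.ext (by simp only [Equiv.Perm.mul_apply, wordW_toFin hl, rs_neg_val]; revert s; decide +kernel)
  have k4 : ∀ J, ∀ g ∈ hx.pre.UL J, f (n * n * n * n) * g * (f (n * n * n * n))⁻¹ ∈ hx.pre.VL J := fun J g hg =>
    o4.conj_US (S := {r | (rs chevF4).IsPos r ∧ (rs chevF4).InSub J r})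
      (T := {r | ¬ (rs chevF4).IsPos r ∧ (rs chevF4).InSub J r})
      (fun s hs => by rw [w4]; exact ⟨not_isPos_neg_iff.mpr hs.1, inSub_neg.mpr hs.2⟩) hg
  have h8 : h.fold.gen ≤ M.map f := Fold.gen_le_of h.chv.nondeg h.hrep_F4
    (Fin.forall_fin_two.mpr ⟨fun g hg e => by
      obtain ⟨b, hb, -, e'⟩ := o1.neg.exists_dl h.chv.nondeg (o1.VL_eq ▸ k4 _ g hg)
        (Fold.fix_mul (Fold.fix_mul (E.fix _) e) (Fold.fix_inv (E.fix _)))
      obtain ⟨t, rfl⟩ := hx.mem_XS_iff.mp hb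
      have h9 : f (n * n * n * n) * g * (f (n * n * n * n))⁻¹ ∈ M.map f := e' ▸ ⟨_, a1 t, hY t⟩
      have h10 : f (n * n * n * n) ∈ M.map f := ⟨_, n4, rfl⟩
      rwa [mul_mem_cancel_right (inv_mem h10), mul_mem_cancel_left h10] at h9, fun g hg e => by
      obtain ⟨g, rfl⟩ := E.exists_U (UL_le_U _ _ hg) e
      exact ⟨g, k3 hg, rfl⟩⟩)
    (Fin.forall_fin_two.mpr ⟨⟨_, ⟨_, a1 1, rfl⟩, by rw [hY]; exact o1.VL_eq ▸ o1.neg.dl_mem_O (x_mem_XS _ 1), E.fix _,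
      fun e => one_ne_zero (h.chv.eq_zero (o1.neg.eq_one_of_dl h.chv.nondeg (x_mem_XS _ 1) ((hY 1).symm.trans e)))⟩,
      ⟨_, ⟨_, mul_mem (mul_mem n4 (k3 yA)) (inv_mem n4), rfl⟩, by rw [map_mul, map_mul, map_inv]; exact k4 _ _ yA,
        E.fix _, fun e => by
          rw [← map_one f, E.inj.eq_iff, conj_eq_one_iff] at e
          have := (h.filt_bW0 E hy).2
          rw [e, Filt.c_one m0] at this
          exact zero_ne_one this⟩⟩)
  refine eq_top_iff.mpr fun g _ => ?_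
  obtain ⟨g', h9, e⟩ := h8 (hf ⟨g, rfl⟩)
  exact E.inj e ▸ h9

/-- The large Ree group ²F₄(2^(2m+1)) with `m ≥ 1` is generated by two of its elements. -/
theorem result {K : Type*} [Field K] [Fintype K] {m : ℕ} (hm : 1 ≤ m) (hK : Fintype.card K = 2 ^ (2 * m + 1)) :
    ∃ a b : ↥(Cfsg.Lie.twistedF4 K (2 ^ m)), Subgroup.closure ({a, b} : Set ↥(Cfsg.Lie.twistedF4 K (2 ^ m))) = ⊤ := by
  obtain ⟨_, φ, hφ, hφ2⟩ := exists_frob_F4 hK
  exact gen (isTw_adj (twOK_F4 K) φ) hφ2 hφ (by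
    rw [Nat.card_eq_fintype_card, hK]
    exact le_trans (by decide) (Nat.pow_le_pow_right (by decide) (show 3 ≤ 2 * m + 1 by omega))) (GS_xG chevF4 K)
    ChevM.center_eq_bot (emb_twistedF4 φ hφ hφ2) (range_twistedF4 φ hφ hφ2).le

end Cfsg.Agent.S2408
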