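import Cfsg.Statements.S2410
import Cfsg.Agent.Lib.Suz.Borel

set_option autoImplicit false
open Cfsg

namespace Cfsg.Agent.S2410

open Cfsg.Agent.Suz

/-- The Suzuki group over the field with `2^(2m+1)` elements, `m ≥ 1` (realised as the stabiliser in `SL₄` of the Suzuki–Tits ovoid), is generated by two of its elements. -/
theorem result {F : Type*} [Field F] [Fintype F] {m : ℕ} (hm : 1 ≤ m) (hF : Fintype.card F = 2 ^ (2 * m + 1)) :
    ∃ a b : ↥(Cfsg.Sz F m), Subgroup.closure ({a, b} : Set ↥(Cfsg.Sz F m)) = ⊤ := by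
  have := SuzF.of_card hm hF
  obtain ⟨μ, hμ⟩ := IsCyclic.exists_generator (α := Fˣ)
  refine ⟨hh μ, u 1 0 * w, ?_⟩
  set M := Subgroup.closure ({hh μ, u 1 0 * w} : Set ↥(Cfsg.Sz F m))
  have ha : hh μ ∈ M := Subgroup.subset_closure (by simp)
  have hb : u 1 0 * w ∈ M := Subgroup.subset_closure (by simp)
  have hH : ∀ ν : Fˣ, hh ν ∈ M := by
    intro ν
    obtain ⟨n, rfl⟩ := hμ ν
    have : (hh (μ ^ n) : G F m) = hh μ ^ n := map_zpow (hHom F) μ n
    simp only
    rw [this]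
    exact zpow_mem ha n
  obtain ⟨t, ht0, ht1⟩ := exists_ne_zero_one (F := F)
  obtain ⟨d, hd⟩ : ∃ d : F, u (1 + t) d ∈ M := by
    have h1 := mul_mem (mul_mem (mul_mem hb (hH (Units.mk0 t ht0)⁻¹)) (inv_mem hb))
      (inv_mem (hH (Units.mk0 t ht0)))
    have h2 : (u 1 0 * w * hh (Units.mk0 t ht0)⁻¹ * (u 1 0 * w)⁻¹ * (hh (Units.mk0 t ht0))⁻¹ : G F m)
        = u 1 0 * (hh (Units.mk0 t ht0) * (u 1 0)⁻¹ * (hh (Units.mk0 t ht0))⁻¹) := by
      rw [mul_assoc (u 1 0) w, ← hh_mul_w]; group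
    rw [h2, u_inv, hh_conj_u, u_mul_u] at h1
    simp only [Units.val_mk0, mul_one] at h1
    exact ⟨_, h1⟩
  have ht : 1 + t ≠ 0 := by
    intro he; apply ht1
    have := add_self' (1 : F)
    linear_combination he - this
  have h3 : ∀ a : F, ∃ e : F, u a e ∈ M := by
    intro a
    by_cases ha0 : a = 0
    · exact ⟨0, by rw [ha0, u_zero_zero]; exact one_mem _⟩
    · have hν : a / (1 + t) ≠ 0 := div_ne_zero ha0 ht
      have := mul_mem (mul_mem (hH (Units.mk0 _ hν)) hd) (inv_mem (hH (Units.mk0 _ hν)))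
      rw [hh_conj_u] at this
      simp only [Units.val_mk0, div_mul_cancel₀ _ ht] at this
      exact ⟨_, this⟩
  have h4 : ∀ b : F, u 0 b ∈ M := by
    intro b
    obtain ⟨a, rfl⟩ := nm_surjective b
    obtain ⟨e, he⟩ := h3 a
    have := pow_mem he 2
    rwa [u_sq] at this
  have hU : ∀ a b : F, u a b ∈ M := by
    intro a b
    obtain ⟨e, he⟩ := h3 a
    have := mul_mem he (h4 (b - e))
    rw [u_mul_u] at this
    simpa using this
  exact eq_top_of_mem hU hH ((M.mul_mem_cancel_left (hU 1 0)).mp hb)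

end Cfsg.Agent.S2410
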