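import Cfsg.Statements.S2427
import Cfsg.Agent.Lib.SL2.SylowAux

set_option autoImplicit false
open Cfsg

namespace Cfsg.Agent.S2427

set_option backward.isDefEq.respectTransparency false
open SL2 Matrix
open scoped MatrixGroups commutatorElement

/-- The generators of the quaternion subgroup. -/
def qi : SL(2, ZMod 3) := ⟨!![0, 1; 2, 0], by rw [det_fin_two_of]; decide⟩
/-- The generators of the quaternion subgroup. -/
def qj : SL(2, ZMod 3) := ⟨!![1, 1; 1, 2], by rw [det_fin_two_of]; decide⟩

/-- The quaternion group inside `SL₂(3)`. -/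
def qf0 : QuaternionGroup 2 → SL(2, ZMod 3)
  | QuaternionGroup.a k => qi ^ k.val
  | QuaternionGroup.xa k => qj * qi ^ k.val

theorem qf0_mul : ∀ x y : QuaternionGroup 2, qf0 (x * y) = qf0 x * qf0 y := by
  decide +kernel

/-- The quaternion group inside `SL₂(3)`. -/
def qh : QuaternionGroup 2 →* SL(2, ZMod 3) := MonoidHom.mk' qf0 qf0_mul

theorem qh_inj : Function.Injective qh := by
  rw [injective_iff_map_eq_one]
  change ∀ x, qf0 x = 1 → x = 1
  decide +kernel

theorem mem_range_iff (g : SL(2, ZMod 3)) : g ∈ qh.range ↔ IsScal g.1 ∨ g.1.trace = 0 := by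
  constructor
  · rintro ⟨x, rfl⟩
    rw [SL_isScal_iff, trace_fin_two]
    revert x
    change ∀ x, (qf0 x = 1 ∨ qf0 x = -1) ∨ (qf0 x).1 0 0 + (qf0 x).1 1 1 = 0
    decide +kernel
  · have key : ∀ a b c d : ZMod 3, a * d - b * c = 1 → ((b = 0 ∧ c = 0 ∧ a = d) ∨ a + d = 0) →
        ∃ x, (qf0 x).1 = !![a, b; c, d] := by decide +kernel
    intro h
    rw [trace_fin_two] at h
    obtain ⟨x, hx⟩ := key _ _ _ _ (SL_det g) h
    exact ⟨x, SL_ext (hx.trans (eta_fin_two g.1).symm)⟩

instance qh_range_normal : qh.range.Normal := ⟨fun x hx g => by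
  rw [mem_range_iff] at hx ⊢
  rwa [SL_trace_conj, ← SL_isScal_iff_of_isConj (isConj_iff.2 ⟨g, rfl⟩)]⟩

theorem h2 : (2 : ZMod 3) ≠ 0 := by decide

theorem cardG : Nat.card SL(2, ZMod 3) = 24 := by rw [card_SL2]; simp

theorem cardQ : Nat.card qh.range = 8 := by
  rw [← Nat.card_congr (MonoidHom.ofInjective qh_inj).toEquiv, Nat.card_eq_fintype_card,
    QuaternionGroup.card]

theorem range_le {N : Subgroup SL(2, ZMod 3)} (hN : N.Normal) {x : SL(2, ZMod 3)} (hx : x ∈ N)
    (ht : x.1.trace = 0) : qh.range ≤ N := by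
  intro g hg
  rcases (mem_range_iff g).1 hg with h | h
  · rcases SL_isScal_iff.1 h with rfl | rfl
    · exact one_mem _
    · rw [← SL_mul_self_of_trace_eq_zero ht]; exact mul_mem hx hx
  · obtain ⟨c, rfl⟩ := isConj_iff.1 (SL_isConj_of_trace' (ht.trans h.symm) (by rw [ht]; decide))
    exact hN.conj_mem x hx c

theorem comm_eq : commutator SL(2, ZMod 3) = qh.range := by
  apply le_antisymm
  · rw [← Subgroup.Normal.quotient_commutative_iff_commutator_le]
    have : Fact (Nat.Prime 3) := ⟨Nat.prime_three⟩
    have h3 : Nat.card (SL(2, ZMod 3) ⧸ qh.range) = 3 := by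
      have := qh.range.card_mul_index
      rw [cardQ, cardG] at this
      change qh.range.index = 3
      omega
    have := isCyclic_of_prime_card h3
    infer_instance
  · refine range_le inferInstance (x := ⁅up (1 : ZMod 3), qi⁆)
      (Subgroup.commutator_mem_commutator (Subgroup.mem_top _) (Subgroup.mem_top _)) ?_
    rw [commutatorElement_def, SL_coe_mul, SL_coe_mul, SL_coe_mul, SL_coe_inv, SL_coe_inv,
      trace_fin_two]
    decide +kernel

theorem eq_top_of_up {N : Subgroup SL(2, ZMod 3)} (hN : N.Normal) {b : ZMod 3} (hb : b ≠ 0)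
    (h : up b ∈ N) : N = ⊤ := by
  have h1 : ∀ c, up c ∈ N := by
    intro c
    have : ∀ b c : ZMod 3, b ≠ 0 → ∃ n : Fin 3, c = (n.1 : ZMod 3) * b := by decide
    obtain ⟨n, rfl⟩ := this b c hb
    rw [← up_pow]
    exact pow_mem h _
  rw [eq_top_iff]
  intro g hg
  clear hg
  induction g using Matrix.SL2.transvection_induction with
  | htransvec i j hij c =>
    fin_cases i <;> fin_cases j
    · exact absurd rfl hij
    · convert h1 c using 1
      apply SL_ext
      apply mat_ext <;> simp [Matrix.SpecialLinearGroup.transvection_coe]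
    · convert hN.conj_mem _ (h1 (-c)) wt using 1
      apply SL_ext
      rw [SL_coe_mul, SL_coe_mul, SL_coe_inv]
      apply mat_ext <;> simp [Matrix.SpecialLinearGroup.transvection_coe]
    · exact absurd rfl hij
  | hmul A B hA hB => exact mul_mem hA hB

/-- The group SL₂ over the field with 3 elements has order 24 and centre of order 2; its commutator subgroup has order 8, is isomorphic to the quaternion group of order 8 and is complemented by every Sylow 3-subgroup (so the group is a semidirect product of a quaternion group of order 8 by a cyclic group of order 3); and its only normal subgroups besides the trivial subgroup and the whole group are the centre and the commutator subgroup. -/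
theorem result :
    Nat.card (Matrix.SpecialLinearGroup (Fin 2) (ZMod 3)) = 24 ∧
    Nat.card (Subgroup.center (Matrix.SpecialLinearGroup (Fin 2) (ZMod 3))) = 2 ∧
    Nat.card (commutator (Matrix.SpecialLinearGroup (Fin 2) (ZMod 3))) = 8 ∧
    Nonempty (commutator (Matrix.SpecialLinearGroup (Fin 2) (ZMod 3)) ≃* QuaternionGroup 2) ∧
    (∀ P : Sylow 3 (Matrix.SpecialLinearGroup (Fin 2) (ZMod 3)),
      Subgroup.IsComplement' (commutator (Matrix.SpecialLinearGroup (Fin 2) (ZMod 3)))
        (P : Subgroup (Matrix.SpecialLinearGroup (Fin 2) (ZMod 3)))) ∧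
    ∀ N : Subgroup (Matrix.SpecialLinearGroup (Fin 2) (ZMod 3)), N.Normal →
      N = ⊥ ∨ N = ⊤ ∨ N = Subgroup.center (Matrix.SpecialLinearGroup (Fin 2) (ZMod 3)) ∨
        N = commutator (Matrix.SpecialLinearGroup (Fin 2) (ZMod 3)) := by
  refine ⟨cardG, card_center_SL_odd h2, by rw [comm_eq, cardQ],
    ⟨(MulEquiv.subgroupCongr comm_eq).trans (MonoidHom.ofInjective qh_inj).symm⟩,
    fun P => ?_, fun N hN => ?_⟩
  · have : Fact (Nat.Prime 3) := ⟨Nat.prime_three⟩
    have h3 : Nat.card (P : Subgroup SL(2, ZMod 3)) = 3 := by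
      rw [P.card_eq_multiplicity, cardG,
        show Nat.factorization 24 3 = 1 by
          rw [show 24 = 3 * 8 by norm_num, Nat.factorization_mul (by norm_num) (by norm_num)]
          simp [Nat.prime_three.factorization, Nat.factorization_eq_zero_of_not_dvd], pow_one]
    apply Subgroup.isComplement'_of_coprime
    · rw [comm_eq, cardQ, h3, cardG]
    · rw [comm_eq, cardQ, h3]; norm_num
  · by_cases h1 : ∃ x ∈ N, ¬ IsScal x.1 ∧ x.1.trace ≠ 0
    · obtain ⟨x, hx, h3, h4⟩ := h1
      right; left
      have : ∀ t : ZMod 3, t ≠ 0 → t = 2 ∨ t = -2 := by decide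
      rcases this _ h4 with h | h
      · obtain ⟨b, hb, hc⟩ := isConj_up h3 h
        obtain ⟨c, hc⟩ := isConj_iff.1 hc
        exact eq_top_of_up hN hb (hc ▸ hN.conj_mem x hx c)
      · obtain ⟨b, hb, hc⟩ := isConj_neg_up h3 h
        obtain ⟨c, hc⟩ := isConj_iff.1 hc
        have h5 : -up b ∈ N := hc ▸ hN.conj_mem x hx c
        have h6 := mul_mem h5 h5
        rw [neg_mul_neg, up_mul] at h6
        exact eq_top_of_up hN (by rw [← two_mul]; exact mul_ne_zero h2 hb) h6
    push Not at h1
    by_cases h3 : ∃ x ∈ N, ¬ IsScal x.1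
    · obtain ⟨x, hx, h4⟩ := h3
      right; right; right
      rw [comm_eq]
      refine le_antisymm (fun g hg => (mem_range_iff g).2 ?_) (range_le hN hx (h1 x hx h4))
      exact or_iff_not_imp_left.2 (h1 g hg)
    push Not at h3
    by_cases h4 : (-1 : SL(2, ZMod 3)) ∈ N
    · right; right; left
      ext g
      refine ⟨fun hg => SL_mem_center_iff.2 (h3 g hg), fun hg => ?_⟩
      rcases SL_mem_center_iff'.1 hg with rfl | rfl
      · exact one_mem _
      · exact h4
    · left
      rw [eq_bot_iff]
      intro g hg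
      rcases SL_isScal_iff.1 (h3 g hg) with rfl | rfl
      · exact one_mem _
      · exact absurd hg h4

end Cfsg.Agent.S2427
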