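import Cfsg.Statements.S2428
import Cfsg.Agent.Lib.SL2.Nonsplit

set_option autoImplicit false
open Cfsg

namespace Cfsg.Agent.S2428

/-- Let F be a finite field with q elements, q odd, and let d be a diagonal element of SL₂ over F whose diagonal entry a has a² ≠ 1 (such d exist exactly when q > 3). Then the centraliser of d is precisely the diagonal subgroup T; the normaliser of T has order 2(q − 1) and exactly (q + 5)/2 conjugacy classes; and every element of that normaliser outside T has square equal to −1. -/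
theorem result {F : Type*} [Field F] [Fintype F] (hodd : Odd (Fintype.card F))
    (d : Matrix.SpecialLinearGroup (Fin 2) F) (hd01 : (d : Matrix (Fin 2) (Fin 2) F) 0 1 = 0) (hd10 : (d : Matrix (Fin 2) (Fin 2) F) 1 0 = 0) (hda : (d : Matrix (Fin 2) (Fin 2) F) 0 0 ^ 2 ≠ 1) :
    (∀ g : Matrix.SpecialLinearGroup (Fin 2) F, g ∈ Subgroup.centralizer ({d} : Set (Matrix.SpecialLinearGroup (Fin 2) F)) ↔ ((g : Matrix (Fin 2) (Fin 2) F) 0 1 = 0 ∧ (g : Matrix (Fin 2) (Fin 2) F) 1 0 = 0)) ∧
    Nat.card (Subgroup.normalizer ((Subgroup.centralizer ({d} : Set (Matrix.SpecialLinearGroup (Fin 2) F))) : Set (Matrix.SpecialLinearGroup (Fin 2) F))) = 2 * (Fintype.card F - 1) ∧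
    Nat.card (ConjClasses (Subgroup.normalizer ((Subgroup.centralizer ({d} : Set (Matrix.SpecialLinearGroup (Fin 2) F))) : Set (Matrix.SpecialLinearGroup (Fin 2) F)))) = (Fintype.card F + 5) / 2 ∧
    ∀ g : Matrix.SpecialLinearGroup (Fin 2) F, g ∈ Subgroup.normalizer ((Subgroup.centralizer ({d} : Set (Matrix.SpecialLinearGroup (Fin 2) F))) : Set (Matrix.SpecialLinearGroup (Fin 2) F)) →
      g ∉ Subgroup.centralizer ({d} : Set (Matrix.SpecialLinearGroup (Fin 2) F)) → ((g * g) : Matrix (Fin 2) (Fin 2) F) = -1 := by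
  rw [← Nat.card_eq_fintype_card] at hodd ⊢
  have h2 := SL2.odd_card_iff.1 hodd
  have hdet := SL2.SL_det d
  rw [hd01, zero_mul, sub_zero] at hdet
  have hne : d.1 0 0 ≠ d.1 1 1 := fun h => hda (by linear_combination hdet + d.1 0 0 * h)
  have htr : d.1.trace ^ 2 ≠ 4 := by
    have := SL2.disc_ne_of_split hne
    rwa [hdet, mul_one, ← Matrix.trace_fin_two] at this
  have hc := SL2.card_cent_SL_split hne (Matrix.trace_fin_two _) hdet
  refine ⟨fun g => ?_, by rw [SL2.card_normalizer_cent htr, hc], ?_, fun g h1 h3 => ?_⟩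
  · rw [SL2.SL_mem_cent_iff (SL2.SL_not_isScal_of_trace htr), ← SL2.comm_iff
      (SL2.SL_not_isScal_of_trace htr), SL2.mat_ext_iff]
    simp only [SL2.mul_apply2, hd01, hd10, mul_zero, zero_mul, add_zero, zero_add]
    constructor
    · rintro ⟨-, e1, e2, -⟩
      constructor
      · apply mul_right_cancel₀ (sub_ne_zero.2 hne)
        linear_combination -e1
      · apply mul_right_cancel₀ (sub_ne_zero.2 hne)
        linear_combination e2
    · rintro ⟨e1, e2⟩
      simp [e1, e2, mul_comm]
  · have := SL2.card_conjClasses_normalizer_cent h2 htr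
    rw [hc] at this
    have := SL2.one_lt_card (F := F)
    omega
  · exact SL2.SL_coe_congr (SL2.inverter_mul_self htr (SL2.conj_eq_inv_of_mem_normalizer htr h1 h3))

end Cfsg.Agent.S2428
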