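import Cfsg.Statements.S2429
import Cfsg.Agent.Lib.SL2.Nonsplit

set_option autoImplicit false
open Cfsg

namespace Cfsg.Agent.S2429

/-- Let F be a finite field with q elements, q odd. Then SL₂ over F contains a cyclic subgroup T′ of order q + 1 (a non-split torus) with the following properties: T′ is its own centraliser, and indeed the centraliser of each element of T′ other than 1 and −1 is exactly T′; every element of SL₂ having no eigenvector in F² is conjugate to an element of T′; the normaliser of T′ has order 2(q + 1) and exactly (q + 7)/2 conjugacy classes; and every element of that normaliser outside T′ has square −1. -/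
theorem result {F : Type*} [Field F] [Fintype F] (hodd : Odd (Fintype.card F)) :
    ∃ T' : Subgroup (Matrix.SpecialLinearGroup (Fin 2) F), IsCyclic T' ∧ Nat.card T' = Fintype.card F + 1 ∧
      Subgroup.centralizer ((T' : Set (Matrix.SpecialLinearGroup (Fin 2) F))) = T' ∧
      (∀ g : Matrix.SpecialLinearGroup (Fin 2) F, g ∈ T' → (g : Matrix (Fin 2) (Fin 2) F) ≠ 1 → (g : Matrix (Fin 2) (Fin 2) F) ≠ -1 → Subgroup.centralizer ({g} : Set (Matrix.SpecialLinearGroup (Fin 2) F)) = T') ∧
      (∀ g : Matrix.SpecialLinearGroup (Fin 2) F, (∀ (c : F) (v : Fin 2 → F), v ≠ 0 → (g : Matrix (Fin 2) (Fin 2) F).mulVec v ≠ c • v) → ∃ h : Matrix.SpecialLinearGroup (Fin 2) F, h * g * h⁻¹ ∈ T') ∧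
      Nat.card (Subgroup.normalizer (T' : Set (Matrix.SpecialLinearGroup (Fin 2) F))) = 2 * (Fintype.card F + 1) ∧
      Nat.card (ConjClasses (Subgroup.normalizer (T' : Set (Matrix.SpecialLinearGroup (Fin 2) F)))) = (Fintype.card F + 7) / 2 ∧
      ∀ g : Matrix.SpecialLinearGroup (Fin 2) F, g ∈ Subgroup.normalizer (T' : Set (Matrix.SpecialLinearGroup (Fin 2) F)) → g ∉ T' → ((g * g) : Matrix (Fin 2) (Fin 2) F) = -1 := by
  rw [← Nat.card_eq_fintype_card] at hodd ⊢
  have h2 := SL2.odd_card_iff.1 hodd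
  obtain ⟨d, hd⟩ := SL2.exists_SL_noRoot (F := F)
  have htr := SL2.SL_trace_sq_ne_of_noRoot hd
  have hns := SL2.SL_not_isScal_of_trace htr
  have hc := SL2.card_cent_SL_noRoot hd
  refine ⟨Subgroup.centralizer {d}, SL2.isCyclic_cent_SL htr, hc, ?_, ?_, ?_,
    by rw [SL2.card_normalizer_cent htr, hc], ?_, fun g h1 h3 => ?_⟩
  · apply le_antisymm
    · exact Subgroup.centralizer_le (Set.singleton_subset_iff.2 (SL2.self_mem_cent d))
    · intro x hx y hy
      exact SL2.SL_cent_comm hns hy hx
  · intro g hg h1 h3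
    refine SL2.SL_cent_eq_of_mem hns (fun h => ?_) hg
    rcases SL2.SL_isScal_iff.1 h with rfl | rfl
    · exact h1 rfl
    · exact h3 rfl
  · intro g hg
    rw [SL2.SL_noEigen_iff] at hg
    obtain ⟨x, hx, hxg⟩ := SL2.exists_mem_cent_trace_eq hd hg
    obtain ⟨c, hc⟩ := isConj_iff.1 (SL2.SL_isConj_of_trace' hxg.symm
      (SL2.SL_trace_sq_ne_of_noRoot hg))
    exact ⟨c, hc ▸ hx⟩
  · have := SL2.card_conjClasses_normalizer_cent h2 htr
    rw [hc] at this
    omega
  · exact SL2.SL_coe_congr (SL2.inverter_mul_self htr (SL2.conj_eq_inv_of_mem_normalizer htr h1 h3))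

end Cfsg.Agent.S2429
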