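import Cfsg.Statements.S2430
import Cfsg.Agent.Lib.SL2.SylowAux

set_option autoImplicit false
open Cfsg

namespace Cfsg.Agent.S2430

/-- Let F be a finite field with q elements, q odd, ℓ an odd prime, and P a Sylow ℓ-subgroup of SL₂ over F. If ℓ divides q − 1, the centraliser of P is cyclic of order q − 1 (a split torus) and the normaliser of P has order 2(q − 1); if ℓ divides q + 1, the centraliser of P is cyclic of order q + 1 (a non-split torus) and the normaliser of P has order 2(q + 1). -/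
theorem result {F : Type*} [Field F] [Fintype F] (hodd : Odd (Fintype.card F)) (ℓ : ℕ) [Fact ℓ.Prime] (hℓ : ℓ ≠ 2)
    (P : Sylow ℓ (Matrix.SpecialLinearGroup (Fin 2) F)) :
    (ℓ ∣ Fintype.card F - 1 →
      Nat.card (Subgroup.centralizer ((P : Subgroup (Matrix.SpecialLinearGroup (Fin 2) F)) : Set (Matrix.SpecialLinearGroup (Fin 2) F))) = Fintype.card F - 1 ∧
      IsCyclic (Subgroup.centralizer ((P : Subgroup (Matrix.SpecialLinearGroup (Fin 2) F)) : Set (Matrix.SpecialLinearGroup (Fin 2) F))) ∧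
      Nat.card (Subgroup.normalizer ((P : Subgroup (Matrix.SpecialLinearGroup (Fin 2) F)) : Set (Matrix.SpecialLinearGroup (Fin 2) F))) = 2 * (Fintype.card F - 1)) ∧
    (ℓ ∣ Fintype.card F + 1 →
      Nat.card (Subgroup.centralizer ((P : Subgroup (Matrix.SpecialLinearGroup (Fin 2) F)) : Set (Matrix.SpecialLinearGroup (Fin 2) F))) = Fintype.card F + 1 ∧
      IsCyclic (Subgroup.centralizer ((P : Subgroup (Matrix.SpecialLinearGroup (Fin 2) F)) : Set (Matrix.SpecialLinearGroup (Fin 2) F))) ∧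
      Nat.card (Subgroup.normalizer ((P : Subgroup (Matrix.SpecialLinearGroup (Fin 2) F)) : Set (Matrix.SpecialLinearGroup (Fin 2) F))) = 2 * (Fintype.card F + 1)) := by
  rw [← Nat.card_eq_fintype_card] at hodd ⊢
  have hl : ℓ.Prime := Fact.out
  have hq := SL2.one_lt_card (F := F)
  have h2 : ¬ (ℓ ∣ Nat.card F - 1 ∧ ℓ ∣ Nat.card F + 1) := by
    rintro ⟨h1, h3⟩
    have : ℓ ∣ 2 := by
      have := Nat.dvd_sub h3 h1
      rwa [show Nat.card F + 1 - (Nat.card F - 1) = 2 by omega] at this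
    exact hℓ ((Nat.prime_dvd_prime_iff_eq hl Nat.prime_two).1 this)
  have key : (ℓ ∣ Nat.card F - 1 ∨ ℓ ∣ Nat.card F + 1) →
      ∃ x ∈ (P : Subgroup (Matrix.SpecialLinearGroup (Fin 2) F)), x.1.trace ^ 2 ≠ 4 ∧
      (P : Subgroup (Matrix.SpecialLinearGroup (Fin 2) F)) ≤ Subgroup.centralizer {x} ∧
      ℓ ∣ Nat.card (Subgroup.centralizer ({x} : Set (Matrix.SpecialLinearGroup (Fin 2) F))) := by
    intro h
    have hG : ℓ ∣ Nat.card (Matrix.SpecialLinearGroup (Fin 2) F) := by
      rw [SL2.card_SL2']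
      rcases h with h | h
      · exact (h.mul_left _).mul_right _
      · exact h.mul_left _
    have hq' : ¬ ℓ ∣ Nat.card F := by
      intro h'
      apply hl.one_lt.ne'
      rcases h with h | h
      · have := Nat.dvd_sub h' h
        rwa [show Nat.card F - (Nat.card F - 1) = 1 by omega, Nat.dvd_one] at this
      · have := Nat.dvd_sub h h'
        rwa [show Nat.card F + 1 - Nat.card F = 1 by omega, Nat.dvd_one] at this
    obtain ⟨x, hxP, hx, hc⟩ := SL2.exists_central_of_isPGroup P.isPGroup' (P.ne_bot_of_dvd_card hG)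
    refine ⟨x, hxP, SL2.trace_sq_ne_of_prime_order hl hℓ hq' hx,
      fun y hy => SL2.mem_cent_iff.2 (hc y hy), ?_⟩
    rw [← hx]
    exact Subgroup.orderOf_dvd_natCard _ (SL2.self_mem_cent x)
  constructor
  · intro h
    obtain ⟨x, hxP, hd, hP, hdiv⟩ := key (Or.inl h)
    rw [SL2.centralizer_eq_of_le (SL2.SL_not_isScal_of_trace hd) hxP hP,
      SL2.normalizer_eq_of_le hd hxP hP, SL2.card_normalizer_cent hd]
    have := (SL2.card_cent_regular hd).resolve_right fun h' => h2 ⟨h, h' ▸ hdiv⟩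
    exact ⟨this, SL2.isCyclic_cent_SL hd, by rw [this]⟩
  · intro h
    obtain ⟨x, hxP, hd, hP, hdiv⟩ := key (Or.inr h)
    rw [SL2.centralizer_eq_of_le (SL2.SL_not_isScal_of_trace hd) hxP hP,
      SL2.normalizer_eq_of_le hd hxP hP, SL2.card_normalizer_cent hd]
    have := (SL2.card_cent_regular hd).resolve_left fun h' => h2 ⟨h' ▸ hdiv, h⟩
    exact ⟨this, SL2.isCyclic_cent_SL hd, by rw [this]⟩

end Cfsg.Agent.S2430
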