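import Cfsg.Statements.S2434
import Cfsg.Agent.Lib.Char.SL2D

set_option autoImplicit false
open Cfsg
open Cfsg.Agent.Char Cfsg.Agent.SL2 Cfsg.Agent.Ch2

namespace Cfsg.Agent.S2434

/-- Let F be a finite field with q elements, q odd, and C a cyclic subgroup of order q + 1 of SL₂ over F (a non-split torus; it contains the centre). For every homomorphism θ from C to the non-zero complex numbers with θ² ≠ 1 there is an irreducible complex character χ of degree q − 1 such that χ(c) = −θ(c) − θ(c)⁻¹ for every non-central c in C, χ(zg) = θ(z)χ(g) for central z in C, χ vanishes at diagonal elements with entry a, a² ≠ 1, and χ takes the value −1 at every upper unitriangular element other than 1. Conversely every irreducible character of degree q − 1 has, for some such θ, the values −θ(c) − θ(c)⁻¹ at the non-central elements c of C (for q ≥ 5 these are exactly the cuspidal characters of degree q − 1). -/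
theorem result {F : Type*} [Field F] [Fintype F] (hodd : Odd (Fintype.card F))
    (C : Subgroup (Matrix.SpecialLinearGroup (Fin 2) F)) (hC : IsCyclic C) (hcard : Nat.card C = Fintype.card F + 1) :
    (∀ θ : C →* ℂˣ, (∃ c : C, θ c ^ 2 ≠ 1) →
      ∃ χ : Matrix.SpecialLinearGroup (Fin 2) F → ℂ, Cfsg.IsIrrCharacter (Matrix.SpecialLinearGroup (Fin 2) F) χ ∧ χ 1 = (Fintype.card F : ℂ) - 1 ∧
        (∀ c : C, (c : Matrix.SpecialLinearGroup (Fin 2) F) ∉ Subgroup.center (Matrix.SpecialLinearGroup (Fin 2) F) → χ c = -((θ c).val + (θ c)⁻¹.val)) ∧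
        (∀ c : C, (c : Matrix.SpecialLinearGroup (Fin 2) F) ∈ Subgroup.center (Matrix.SpecialLinearGroup (Fin 2) F) → ∀ g : Matrix.SpecialLinearGroup (Fin 2) F, χ ((c : Matrix.SpecialLinearGroup (Fin 2) F) * g) = (θ c).val * χ g) ∧
        (∀ g : Matrix.SpecialLinearGroup (Fin 2) F, (g : Matrix (Fin 2) (Fin 2) F) 0 1 = 0 → (g : Matrix (Fin 2) (Fin 2) F) 1 0 = 0 → (g : Matrix (Fin 2) (Fin 2) F) 0 0 ^ 2 ≠ 1 → χ g = 0) ∧
        (∀ g : Matrix.SpecialLinearGroup (Fin 2) F, (g : Matrix (Fin 2) (Fin 2) F) 1 0 = 0 → (g : Matrix (Fin 2) (Fin 2) F) 0 0 = 1 → (g : Matrix (Fin 2) (Fin 2) F) 1 1 = 1 → (g : Matrix (Fin 2) (Fin 2) F) 0 1 ≠ 0 → χ g = -1)) ∧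
    (∀ χ : Matrix.SpecialLinearGroup (Fin 2) F → ℂ, Cfsg.IsIrrCharacter (Matrix.SpecialLinearGroup (Fin 2) F) χ → χ 1 = (Fintype.card F : ℂ) - 1 →
      ∃ θ : C →* ℂˣ, (∃ c : C, θ c ^ 2 ≠ 1) ∧
        ∀ c : C, (c : Matrix.SpecialLinearGroup (Fin 2) F) ∉ Subgroup.center (Matrix.SpecialLinearGroup (Fin 2) F) → χ c = -((θ c).val + (θ c)⁻¹.val)) := by
  classical
  obtain ⟨c₀, hc, rfl⟩ := exists_eq_Ct hodd C hC hcard
  have h2 := two_ne_zero_of_odd hodd
  have h1 := Fintype.one_lt_card (α := F)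
  obtain ⟨k, hk⟩ := id hodd
  constructor
  · intro θ hθ
    rw [← hom_sq_ne_one_iff] at hθ
    have hirr := isIrr_R hc hθ
    refine ⟨R θ, hirr, R_one hc θ, fun c hz => R_ell hc θ c (by rwa [← SL_mem_center_iff]),
      fun c hz g => ?_, fun g _ h10 hsq => R_split hc θ h10 (split_of_diag h10 hsq),
      fun g h10 h00 h11 h01 => ?_⟩
    · have hs := SL_mem_center_iff.mp hz
      rw [irr_central_mul hirr hz, R_scal hc θ hs, R_one hc, extChar_spec θ c hs,
        mul_div_cancel_left₀ _ q_sub_one_ne_zero]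
    · rw [R_par hc θ h10 (h00.trans h11.symm) h01, h00, map_one]
  · intro χ hχ hd
    rcases irr_cases_deg hc hχ (hd.trans cast_q_sub_one.symm) with ⟨_, e⟩ | ⟨_, e⟩ | ⟨_, e⟩ |
      ⟨⟨θ, hθ, rfl⟩, e⟩ | ⟨⟨α, χ', -, -, H⟩, e⟩ | ⟨_, e⟩
    any_goals omega
    · exact ⟨θ, hom_sq_ne_one_iff.mp hθ, fun c hz => R_ell hc θ c (by rwa [← SL_mem_center_iff])⟩
    · have h3 : Fintype.card F = 3 := by omega
      have : ∃ θ : Ct c₀ →* ℂˣ, θ ^ 2 ≠ 1 := by
        by_contra hcon
        push Not at hcon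
        have e1 := card_unitsHom_sq_eq_one (G := Ct c₀) (by rw [hcard, h3]; decide)
        rw [Nat.card_congr (Equiv.subtypeUnivEquiv hcon), card_unitsHom, hcard, h3] at e1
        omega
      obtain ⟨θ, hθ⟩ := this
      refine ⟨θ, hom_sq_ne_one_iff.mp hθ, fun c hz => ?_⟩
      rw [SL_mem_center_iff] at hz
      have hn := noRoot_of_mem_Ct hc c.2 hz
      rw [theta_add_inv_of_three h3 hc hθ c hz,
        H.apply_ss h2 (SL_trace_sq_ne_of_noRoot ((SL_noRoot_iff _).mp hn)), W_noRoot α hn]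
      simp

end Cfsg.Agent.S2434
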