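import Cfsg.Statements.S2435
import Cfsg.Agent.Lib.Char.SL2D

set_option autoImplicit false
open Cfsg
open Cfsg.Agent.Char Cfsg.Agent.SL2 Cfsg.Agent.Ch2

namespace Cfsg.Agent.S2435

/-- Let F be a finite field with q elements, q odd and q ≥ 5, and χ an irreducible complex character of SL₂ over F. If χ has degree (q + 1)/2, then at a diagonal element with entry a, a² ≠ 1, χ takes the value 1 when a is a square in F and −1 otherwise. If χ has degree (q − 1)/2, then at an element g with no eigenvector in F² (so g has order dividing q + 1), χ takes the value −1 when g raised to the power (q + 1)/2 is the identity and the value 1 otherwise. -/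
theorem result {F : Type*} [Field F] [Fintype F] (hodd : Odd (Fintype.card F)) (hq : 5 ≤ Fintype.card F)
    (χ : Matrix.SpecialLinearGroup (Fin 2) F → ℂ) (hχ : Cfsg.IsIrrCharacter (Matrix.SpecialLinearGroup (Fin 2) F) χ) (g : Matrix.SpecialLinearGroup (Fin 2) F) :
    (χ 1 = (((Fintype.card F + 1) / 2 : ℕ) : ℂ) → (g : Matrix (Fin 2) (Fin 2) F) 0 1 = 0 → (g : Matrix (Fin 2) (Fin 2) F) 1 0 = 0 → (g : Matrix (Fin 2) (Fin 2) F) 0 0 ^ 2 ≠ 1 →
      (IsSquare ((g : Matrix (Fin 2) (Fin 2) F) 0 0) → χ g = 1) ∧ (¬ IsSquare ((g : Matrix (Fin 2) (Fin 2) F) 0 0) → χ g = -1)) ∧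
    (χ 1 = (((Fintype.card F - 1) / 2 : ℕ) : ℂ) → (∀ (c : F) (v : Fin 2 → F), v ≠ 0 → (g : Matrix (Fin 2) (Fin 2) F).mulVec v ≠ c • v) →
      (((g ^ ((Fintype.card F + 1) / 2)) : Matrix (Fin 2) (Fin 2) F) = 1 → χ g = -1) ∧ (((g ^ ((Fintype.card F + 1) / 2)) : Matrix (Fin 2) (Fin 2) F) ≠ 1 → χ g = 1)) := by
  classical
  have h2 := two_ne_zero_of_odd hodd
  constructor
  · intro hd _ h10 hsq
    have hne := split_of_diag h10 hsq
    obtain ⟨α, χ', ha, ha1, H⟩ := halves_W_of_degree hodd hq hχ hd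
    have h0 := SL_upper_ne_zero h10
    have e : χ g = α (g.1 0 0) := by
      rw [H.apply_ss h2 (SL_trace_sq_ne_of_split h10 hne), W_split α h10 hne, SL_upper_11 h10,
        ← MulChar.inv_apply', ← inv_eq_self_iff_sq.mpr ha]
      ring
    rw [e]
    exact mulChar_order_two_apply ha ha1 h0
  · intro hd hg
    rw [noRoot_iff] at hg
    have := isCyclic_Ct hg
    obtain ⟨θ, χ', ha, ha1, H⟩ := halves_R_of_degree hg hodd hq hχ hd
    have e : χ g = -(θ ⟨g, self_mem_cent g⟩ : ℂ) := by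
      have := R_ell hg θ ⟨g, self_mem_cent g⟩ (not_isScal_of_noRoot hg)
      rw [H.apply_ss h2 (SL_trace_sq_ne_of_noRoot ((SL_noRoot_iff _).mp hg)), this,
        ← MonoidHom.inv_apply, ← hom_eq_inv_self_iff.mpr ha]
      ring
    have hk := unitsHom_order_two_apply (m := (Fintype.card F + 1) / 2)
      (by rw [card_Ct hg]; obtain ⟨k, hk⟩ := hodd; omega) ha ha1 ⟨g, self_mem_cent g⟩
    have hiff : (⟨g, self_mem_cent g⟩ : Ct g) ^ ((Fintype.card F + 1) / 2) = 1 ↔
        (g : Matrix (Fin 2) (Fin 2) F) ^ ((Fintype.card F + 1) / 2) = 1 := by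
      exact Subtype.ext_iff.trans (Matrix.SpecialLinearGroup.ext_iff _ _ |>.trans Matrix.ext_iff)
    rw [e]
    exact ⟨fun h => by rw [hk.1 (hiff.mpr h)]; simp, fun h => by rw [hk.2 (mt hiff.mp h)]; simp⟩

end Cfsg.Agent.S2435
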