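import Cfsg.Statements.S2437
import Cfsg.Agent.Lib.SL2.Borel

set_option autoImplicit false
open Cfsg

namespace Cfsg.Agent.S2437

open SL2 in
theorem isConj_iff_aux {F : Type*} [Field F] (g h : bor F) :
    IsConj g h ↔ g.1.1 0 0 = h.1.1 0 0 ∧
      (g.1.1 0 0 ^ 2 = 1 → ∃ a : F, a ≠ 0 ∧ h.1.1 0 1 = a ^ 2 * g.1.1 0 1) := by
  have g0 := mem_bor_iff.1 g.2
  have h0 := mem_bor_iff.1 h.2
  have g1 := bor_diag g0
  have h1 := bor_diag h0
  rw [isConj_iff]
  constructor
  · rintro ⟨c, hc⟩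
    have c0 := mem_bor_iff.1 c.2
    have c1 := bor_diag c0
    rw [mul_inv_eq_iff_eq_mul] at hc
    obtain ⟨e1, e2, -, e4⟩ := mat_ext_iff.1 (SL_coe_congr (congrArg Subtype.val hc))
    simp only [Subgroup.coe_mul, SL_coe_mul, mul_apply2, g0, h0, c0, mul_zero, zero_mul,
      add_zero, zero_add] at e1 e2 e4
    have e5 : g.1.1 0 0 = h.1.1 0 0 := by
      apply mul_left_cancel₀ (bor_ne_zero c0)
      rw [e1, mul_comm]
    refine ⟨e5, fun hs => ⟨c.1.1 0 0, bor_ne_zero c0, ?_⟩⟩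
    have e6 : g.1.1 1 1 = g.1.1 0 0 := by
      apply mul_left_cancel₀ (bor_ne_zero g0)
      linear_combination g1 - hs
    rw [e6, e5] at e2
    linear_combination (-c.1.1 0 0) * e2 - h.1.1 0 1 * c1
  · rintro ⟨e1, e2⟩
    have e3 : g.1.1 1 1 = h.1.1 1 1 := by
      apply mul_left_cancel₀ (bor_ne_zero g0)
      rw [g1, e1, h1]
    by_cases hs : g.1.1 0 0 ^ 2 = 1
    · obtain ⟨a, ha, e4⟩ := e2 hs
      refine ⟨⟨dg (Units.mk0 a ha), dg_mem_bor _⟩, ?_⟩
      rw [mul_inv_eq_iff_eq_mul]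
      apply Subtype.ext
      apply SL_ext
      apply mat_ext <;> simp [mul_apply2, g0, h0, e1, e3, e4, mul_comm]
      field_simp
    · have hne : g.1.1 1 1 - g.1.1 0 0 ≠ 0 := fun h => hs (by
        linear_combination g1 - g.1.1 0 0 * h)
      refine ⟨⟨up ((h.1.1 0 1 - g.1.1 0 1) / (g.1.1 1 1 - g.1.1 0 0)), up_mem_bor _⟩, ?_⟩
      rw [mul_inv_eq_iff_eq_mul]
      apply Subtype.ext
      apply SL_ext
      apply mat_ext <;> simp [mul_apply2, g0, h0, ← e1, ← e3]
      field_simp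
      ring

open SL2 in
theorem aux {F : Type*} [Field F] [Finite F] (h2 : (2 : F) ≠ 0) :
    Nat.card (ConjClasses (bor F)) = Nat.card F + 3 := by
  classical
  have h11 : (-1 : F) ≠ 1 := fun h => h2 (by linear_combination -h)
  let f : bor F → {a : F // a ≠ 0} ⊕ (Bool × Bool) := fun g =>
    if g.1.1 0 0 ^ 2 = 1 ∧ g.1.1 0 1 ≠ 0 then
      Sum.inr (decide (g.1.1 0 0 = 1), decide (IsSquare (g.1.1 0 1)))
    else Sum.inl ⟨g.1.1 0 0, bor_ne_zero (mem_bor_iff.1 g.2)⟩
  rw [card_conjClasses_of_invariant' f]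
  · rw [Nat.card_sum, card_ne_zero]
    have := one_lt_card (F := F)
    simp only [Nat.card_eq_fintype_card, Fintype.card_prod, Fintype.card_bool] 
    omega
  · intro g h
    rw [isConj_iff_aux]
    constructor
    · rintro ⟨e1, e2⟩
      by_cases hs : g.1.1 0 0 ^ 2 = 1
      · obtain ⟨a, ha, e3⟩ := e2 hs
        by_cases hb : g.1.1 0 1 = 0
        · simp [f, ← e1, e3, hb]
        · have : IsSquare (a ^ 2 * g.1.1 0 1) ↔ IsSquare (g.1.1 0 1) := by
            rw [isSquare_mul_iff (pow_ne_zero _ ha) hb]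
            exact ⟨fun h => h.1 ⟨a, sq a⟩, fun h => iff_of_true ⟨a, sq a⟩ h⟩
          simp [f, ← e1, e3, hb, ha, this]
      · simp only [f, ← e1, hs, false_and, ↓reduceIte]
    · intro e
      by_cases c1 : g.1.1 0 0 ^ 2 = 1 ∧ g.1.1 0 1 ≠ 0 <;>
        by_cases c2 : h.1.1 0 0 ^ 2 = 1 ∧ h.1.1 0 1 ≠ 0 <;>
        simp only [f, c1, c2, ↓reduceIte, reduceCtorEq, not_false_eq_true, and_self, ne_eq,
          Sum.inr.injEq, Prod.mk.injEq, decide_eq_decide, Sum.inl.injEq, Subtype.mk.injEq] at e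
      · constructor
        · rcases sq_eq_one_iff_of_ne_zero_aux c1.1 with e1 | e1 <;>
            rcases sq_eq_one_iff_of_ne_zero_aux c2.1 with e2 | e2 <;> simp_all
        · intro _
          obtain ⟨r, hr⟩ := (isSquare_mul_iff c1.2 c2.2).2 e.2
          have := c1.2
          refine ⟨r / g.1.1 0 1, div_ne_zero ?_ c1.2, ?_⟩
          · rintro rfl
            exact mul_ne_zero c1.2 c2.2 (by simpa using hr)
          · field_simp
            linear_combination hr
      · refine ⟨e, fun hs => ⟨1, one_ne_zero, ?_⟩⟩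
        have a1 : g.1.1 0 1 = 0 := by simpa [hs] using c1
        have a2 : h.1.1 0 1 = 0 := by simpa [← e, hs] using c2
        simp [a1, a2]
  · obtain ⟨n, hn0, hn⟩ := exists_not_isSquare h2
    have nb : ∀ b : F, -up (-b) ∈ bor F := fun b => mem_bor_iff.2 (by simp)
    rintro (⟨a, ha⟩ | ⟨_ | _, _ | _⟩)
    · exact ⟨⟨dg (Units.mk0 a ha), dg_mem_bor _⟩, by simp [f]⟩
    · exact ⟨⟨_, nb n⟩, by simp [f, hn, hn0, h11]⟩
    · exact ⟨⟨_, nb 1⟩, by simp [f, h11]⟩
    · exact ⟨⟨_, up_mem_bor n⟩, by simp [f, hn, hn0]⟩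
    · exact ⟨⟨_, up_mem_bor 1⟩, by simp [f]⟩

/-- Over a finite field F with q elements, q odd, the upper triangular subgroup of SL₂ (a Borel subgroup, of order q(q − 1)) has exactly q + 3 conjugacy classes. -/
theorem result {F : Type*} [Field F] [Fintype F] (hodd : Odd (Fintype.card F)) :
    Nat.card (ConjClasses ((Cfsg.upperTriangularGL 2 F).comap Matrix.SpecialLinearGroup.toGL)) = Fintype.card F + 3 := by
  rw [← Nat.card_eq_fintype_card] at hodd ⊢
  exact aux (SL2.odd_card_iff.1 hodd)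

end Cfsg.Agent.S2437
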