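import Cfsg.Statements.S2436
import Cfsg.Agent.S2431
import Cfsg.Agent.S2437
import Cfsg.Agent.S2325
import Cfsg.Agent.Lib.Char.SL2C
import Cfsg.Agent.Lib.SL2.PSL

set_option autoImplicit false
open Cfsg

namespace Cfsg.Agent.S2436

open Cfsg.Agent.Char Cfsg.Agent.SL2 Cfsg.Agent.Ch2 Matrix Subgroup
open scoped MatrixGroups

section General
variable {G : Type*} [Group G]

/-- number of irreducible characters of `ℓ'`-degree -/
noncomputable def cnt (l : ℕ) (G : Type*) [Group G] : ℕ :=
  Nat.card {χ : IrrCharacter G // ¬ l ∣ charDegree (χ : G → ℂ)}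

/-- number of irreducible characters of degree `d` -/
noncomputable def mu (G : Type*) [Group G] (d : ℕ) : ℕ :=
  Nat.card {χ : IrrCharacter G // (χ : G → ℂ) 1 = d}

lemma deg_eq {χ : G → ℂ} {n : ℕ} (h : χ 1 = n) : charDegree χ = n := by
  simp [charDegree, h]

lemma deg_spec (χ : IrrCharacter G) : (χ : G → ℂ) 1 = charDegree (χ : G → ℂ) := by
  obtain ⟨n, hn⟩ := exists_nat_degree (isChar_of_irr χ.2)
  rw [deg_eq hn, hn]

lemma deg_pos (χ : IrrCharacter G) : 0 < charDegree (χ : G → ℂ) := by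
  obtain ⟨n, h0, hn⟩ := exists_pos_degree χ.2
  rwa [deg_eq hn]

lemma cnt_congr {H : Type*} [Group H] (l : ℕ) (e : G ≃* H) : cnt l G = cnt l H := by
  refine Nat.card_congr (Equiv.subtypeEquiv
    ⟨fun χ => ⟨fun h => χ.1 (e.symm h), isIrr_comp e.symm.toMonoidHom e.symm.surjective χ.2⟩,
     fun χ => ⟨fun h => χ.1 (e h), isIrr_comp e.toMonoidHom e.surjective χ.2⟩,
     fun χ => by ext; simp, fun χ => by ext; simp⟩ fun χ => ?_)
  simp [charDegree]

lemma sum_deg [Finite G] [Fintype (IrrCharacter G)] (D : Finset ℕ)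
    (hD : ∀ χ : IrrCharacter G, charDegree (χ : G → ℂ) ∈ D) (f : ℕ → ℕ) :
    ∑ χ : IrrCharacter G, f (charDegree (χ : G → ℂ)) = ∑ d ∈ D, mu G d * f d := by
  classical
  rw [← Finset.sum_fiberwise_of_maps_to (s := Finset.univ) (t := D)
    (g := fun χ : IrrCharacter G => charDegree (χ : G → ℂ)) (fun χ _ => hD χ)]
  refine Finset.sum_congr rfl fun d _ => ?_
  rw [Finset.sum_congr rfl (g := fun _ => f d) (fun χ hχ => by rw [(Finset.mem_filter.1 hχ).2]),
    Finset.sum_const, smul_eq_mul, mu, Nat.card_eq_fintype_card, Fintype.card_subtype]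
  congr 2
  ext χ
  simp only [Finset.mem_filter, Finset.mem_univ, true_and]
  exact ⟨fun h => h ▸ deg_spec χ, deg_eq⟩

lemma cnt_eq [Finite G] (l : ℕ) (D : Finset ℕ) (hD : ∀ χ : IrrCharacter G, charDegree (χ : G → ℂ) ∈ D) :
    cnt l G = ∑ d ∈ D, mu G d * if l ∣ d then 0 else 1 := by
  classical
  have := Fintype.ofFinite (IrrCharacter G)
  rw [← sum_deg D hD (fun d => if l ∣ d then 0 else 1), cnt, Nat.card_eq_fintype_card,
    Fintype.card_subtype, Finset.card_filter]
  refine Finset.sum_congr rfl fun χ _ => ?_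
  split_ifs <;> rfl

lemma sum_sq_nat [Finite G] [Fintype (IrrCharacter G)] :
    ∑ χ : IrrCharacter G, charDegree (χ : G → ℂ) ^ 2 = Nat.card G := by
  have := Fintype.ofFinite G
  have h := sum_degree_sq (G := G)
  simp only [deg_spec] at h
  exact_mod_cast h

lemma card_eq_sum [Finite G] (D : Finset ℕ) (hD : ∀ χ : IrrCharacter G, charDegree (χ : G → ℂ) ∈ D) :
    Nat.card G = ∑ d ∈ D, mu G d * d ^ 2 := by
  have := Fintype.ofFinite (IrrCharacter G)
  rw [← sum_deg D hD (fun d => d ^ 2), sum_sq_nat]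

lemma classes_eq_sum [Finite G] (D : Finset ℕ) (hD : ∀ χ : IrrCharacter G, charDegree (χ : G → ℂ) ∈ D) :
    Nat.card (ConjClasses G) = ∑ d ∈ D, mu G d := by
  have := Fintype.ofFinite (IrrCharacter G)
  have h := sum_deg D hD (fun _ => 1)
  simp only [mul_one] at h
  rw [← h, ← card_irr_eq_card_conjClasses]; simp

lemma cnt_of_all [Finite G] (l : ℕ) (h : ∀ χ : IrrCharacter G, ¬ l ∣ charDegree (χ : G → ℂ)) :
    cnt l G = Nat.card (ConjClasses G) := by
  rw [← card_irr_eq_card_conjClasses, cnt]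
  exact Nat.card_congr (Equiv.subtypeUnivEquiv h)

lemma deg_le_index [Finite G] (H : Subgroup G) (hH : ∀ x ∈ H, ∀ y ∈ H, x * y = y * x)
    (χ : IrrCharacter G) : charDegree (χ : G → ℂ) ≤ H.index := by
  have := Fintype.ofFinite G
  have := Fintype.ofFinite H
  have : IsMulCommutative H := ⟨⟨fun x y => Subtype.ext (hH _ x.2 _ y.2)⟩⟩
  obtain ⟨l, hl, h⟩ := exists_irr_inner_ne_zero (isClass_restrict H (isClass_of_irr χ.2))
    (fun h => irr_one_ne_zero χ.2 (congrFun h 1))
  rw [← inner_indFun_right H l (isClass_of_irr χ.2),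
    inner_char_comm (isChar_of_irr χ.2) (isChar_indFun H (isChar_of_irr hl))] at h
  refine degree_le_of_inner_ne_zero (isChar_indFun H (isChar_of_irr hl)) χ.2 h ?_ (deg_spec χ)
  rw [indFun_apply_one, irr_degree_one_of_comm hl, mul_one]

lemma mu_one (G : Type*) [Group G] : mu G 1 = Nat.card (G →* ℂˣ) := by
  rw [Nat.card_congr (homEquivDegreeOne G), mu]; simp

lemma card_inf_cent_modEq [Finite G] {p : ℕ} [Fact p.Prime] (R : Subgroup G) {x : G}
    (hx : x ^ p = 1) (hn : x ∈ normalizer (R : Set G)) :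
    Nat.card R ≡ Nat.card (R ⊓ centralizer {x} : Subgroup G) [MOD p] := by
  classical
  have := Fintype.ofFinite R
  let φ : MulAut R := R.normalizerMonoidHom ⟨x, hn⟩
  have hφ : φ ^ p ^ 1 = 1 := by
    rw [← map_pow]
    have : (⟨x, hn⟩ : normalizer (R : Set G)) ^ p ^ 1 = 1 := Subtype.ext (by simpa using hx)
    rw [this, map_one]
  let f : Function.End R := MulAction.toEndHom φ
  have hf : f ^ p ^ 1 = 1 := by rw [← map_pow, hφ, map_one]
  have h := Equiv.Perm.card_fixedPoints_modEq hf
  simp only [← Nat.card_eq_fintype_card] at h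
  convert h using 1
  refine Nat.card_congr ⟨fun y => ⟨⟨y.1, y.2.1⟩, Subtype.ext ?_⟩, fun y => ⟨y.1.1, y.1.2, ?_⟩,
    fun _ => rfl, fun _ => rfl⟩
  · exact mul_inv_eq_iff_eq_mul.2 (mem_cent_iff.1 y.2.2).symm
  · have : x * y.1.1 * x⁻¹ = y.1.1 := congrArg Subtype.val y.2
    exact mem_cent_iff.2 (mul_inv_eq_iff_eq_mul.1 this).symm

lemma card_le_mul_aux [Finite G] (S K : Subgroup G) (h : G) (hK : ∀ s ∈ S, s⁻¹ * (h * s * h⁻¹) ∈ K) :
    Nat.card S ≤ Nat.card (S ⊓ centralizer {h} : Subgroup G) * Nat.card K := by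
  classical
  have := Fintype.ofFinite G
  let f : G → G := fun s => s⁻¹ * (h * s * h⁻¹)
  have h1 := Finset.card_le_mul_card_image_of_maps_to (f := f)
    (s := Finset.univ.filter (· ∈ S)) (t := Finset.univ.filter (· ∈ K)) (by
      intro s hs
      simp only [Finset.mem_filter, Finset.mem_univ, true_and] at hs ⊢
      exact hK s hs) (Nat.card (S ⊓ centralizer {h} : Subgroup G)) (by
      intro k _
      rw [Nat.card_eq_fintype_card, Fintype.card_subtype]
      by_cases hne : (Finset.filter (fun a => f a = k) (Finset.univ.filter (· ∈ S))).Nonempty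
      · obtain ⟨s0, hs0⟩ := hne
        simp only [Finset.mem_filter, Finset.mem_univ, true_and] at hs0
        refine Finset.card_le_card_of_injOn (fun s => s * s0⁻¹) ?_ (fun a _ b _ hab => mul_right_cancel hab)
        intro s hs
        simp only [Finset.coe_filter, Finset.mem_filter, Finset.mem_univ, true_and, Set.mem_ofPred_eq] at hs ⊢
        refine ⟨S.mul_mem hs.1 (S.inv_mem hs0.1), mem_cent_iff.2 ?_⟩
        have e : s⁻¹ * (h * s * h⁻¹) = s0⁻¹ * (h * s0 * h⁻¹) := hs.2.trans hs0.2.symm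
        calc s * s0⁻¹ * h = s * (s0⁻¹ * (h * s0 * h⁻¹)) * h * s0⁻¹ := by group
          _ = _ := by rw [← e]; group
      · rw [Finset.not_nonempty_iff_eq_empty.1 hne]; simp)
  rwa [← Fintype.card_subtype, ← Fintype.card_subtype, ← Nat.card_eq_fintype_card,
    ← Nat.card_eq_fintype_card] at h1

lemma normalizer_equiv {p : ℕ} [Fact p.Prime] [Finite G] (S T : Sylow p G) :
    Nonempty (normalizer ((S : Subgroup G) : Set G) ≃* normalizer ((T : Subgroup G) : Set G)) := by
  obtain ⟨g, rfl⟩ := MulAction.exists_smul_eq G S T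
  refine ⟨((MulAut.conj g).subgroupMap _).trans (MulEquiv.subgroupCongr ?_)⟩
  exact Subgroup.map_equiv_normalizer_eq (S : Subgroup G) (MulAut.conj g)

end General

variable {F : Type*} [Field F] [Fintype F]

lemma deg_cases (χ : IrrCharacter SL(2, F)) : (χ.1 = 1 ∧ charDegree χ.1 = 1) ∨ charDegree χ.1 = Fintype.card F ∨
    charDegree χ.1 = Fintype.card F + 1 ∨ charDegree χ.1 + 1 = Fintype.card F ∨
    2 * charDegree χ.1 = Fintype.card F + 1 ∨ 2 * charDegree χ.1 + 1 = Fintype.card F := by
  classical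
  obtain ⟨c, hc⟩ := exists_noRoot_SL (F := F)
  have := irr_cases_deg hc χ.2 (deg_spec χ)
  tauto

lemma cnt_SL (hodd : Odd (Fintype.card F)) (hq : 5 ≤ Fintype.card F) (l : ℕ) (hl : l.Prime)
    (hlq : ¬ l ∣ Fintype.card F) : cnt l SL(2, F) = 2 +
      (Fintype.card F - 3) / 2 * (if l ∣ Fintype.card F + 1 then 0 else 1) +
      (Fintype.card F - 1) / 2 * (if l ∣ Fintype.card F - 1 then 0 else 1) +
      2 * (if l ∣ (Fintype.card F + 1) / 2 then 0 else 1) +
      2 * (if l ∣ (Fintype.card F - 1) / 2 then 0 else 1) := by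
  classical
  have h1 := card_degree_one (F := F) (by omega)
  have h2 := card_degree_q (F := F)
  have h3 := card_degree_add hodd
  have h4 := card_degree_sub hodd (by omega)
  have h5 := card_degree_half_add hodd hq
  have h6 := card_degree_half_sub hodd hq
  rw [← cast_q_sub_one] at h4
  rw [cnt_eq l {1, Fintype.card F, Fintype.card F + 1, Fintype.card F - 1, (Fintype.card F + 1) / 2,
    (Fintype.card F - 1) / 2} (fun χ => by
      have := deg_cases χ
      simp only [Finset.mem_insert, Finset.mem_singleton]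
      omega)]
  obtain ⟨k, hk⟩ := hodd
  rw [Finset.sum_insert, Finset.sum_insert, Finset.sum_insert, Finset.sum_insert, Finset.sum_insert,
    Finset.sum_singleton]
  · simp only [mu, Nat.cast_one, Nat.cast_add, h1, h2, h3, h4, h5, h6, hlq, hl.not_dvd_one, if_false]
    ring
  all_goals simp only [Finset.mem_insert, Finset.mem_singleton]; omega

lemma cnt_SL_char (hodd : Odd (Fintype.card F)) (l : ℕ) (hl : l.Prime) (hlq : l ∣ Fintype.card F) :
    cnt l SL(2, F) = Fintype.card F + 3 := by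
  classical
  have h1 := S2325.result hodd
  rw [← card_irr_eq_card_conjClasses] at h1
  have h2 := card_degree_q (F := F)
  have h3 : cnt l SL(2, F) = Nat.card {χ : IrrCharacter SL(2, F) // ¬ χ.1 1 = (Fintype.card F : ℂ)} := by
    refine Nat.card_congr (Equiv.subtypeEquivRight fun χ => not_congr ⟨fun h => ?_, fun h => ?_⟩)
    · have h1 : ∀ n, l ∣ n → n ≠ Fintype.card F + 1 ∧ n + 1 ≠ Fintype.card F ∧ n ≠ 1 := by
        intro n hn
        refine ⟨?_, ?_, ?_⟩ <;> intro h
        · exact hl.not_dvd_one ((Nat.dvd_add_right hlq).1 (h ▸ hn))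
        · exact hl.not_dvd_one ((Nat.dvd_add_right hn).1 (h ▸ hlq))
        · exact hl.not_dvd_one (h ▸ hn)
      have h2 := h1 _ h
      have h3 := h1 _ (h.mul_left 2)
      have := deg_cases χ
      rw [deg_spec]
      congr 1
      omega
    · rwa [deg_eq h]
  rw [h3, card_subtype_not, h1, h2]
  omega

lemma cnt_bor (hodd : Odd (Fintype.card F)) (l : ℕ) (hl : l.Prime) (hlq : l ∣ Fintype.card F) :
    cnt l (bor F) = Fintype.card F + 3 := by
  classical
  have h2 := two_ne_zero_of_odd hodd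
  have hk := S2437.result hodd
  rw [← hk]
  apply cnt_of_all
  rw [← card_irr_eq_card_conjClasses] at hk
  obtain ⟨k, hq⟩ := hodd
  have hk1 : 1 ≤ k := by have := Fintype.one_lt_card (α := F); omega
  -- the abelian subgroup
  have hle : centralizer ({up (1 : F)} : Set SL(2, F)) ≤ bor F := by
    intro x hx
    have := congrFun (congrFun (SL_coe_congr (mem_cent_iff.1 hx)) 0) 0
    simp only [SL_coe_mul, mul_apply2] at this
    rw [mem_bor_iff]
    simpa using this
  have hns : ¬ IsScal (up (1 : F)).1 := by rw [isScal_up_iff]; exact one_ne_zero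
  have hidx : ((centralizer ({up (1 : F)} : Set SL(2, F))).subgroupOf (bor F)).index = k := by
    have := ((centralizer ({up (1 : F)} : Set SL(2, F))).subgroupOf (bor F)).index_mul_card
    rw [Nat.card_congr (subgroupOfEquivOfLe hle).toEquiv, card_bor,
      card_cent_SL_double_odd h2 hns (by rw [trace_up]; norm_num), Nat.card_eq_fintype_card, hq] at this
    apply Nat.eq_of_mul_eq_mul_right (show 0 < 2 * (2 * k + 1) by omega)
    rw [this, Nat.add_sub_cancel]; ring
  have hdeg : ∀ χ : IrrCharacter (bor F), charDegree χ.1 ≤ k := fun χ =>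
    (deg_le_index ((centralizer ({up (1 : F)} : Set SL(2, F))).subgroupOf (bor F))
      (fun x hx y hy => Subtype.ext (SL_cent_comm hns hx hy)) χ).trans hidx.le
  have := Fintype.ofFinite (IrrCharacter (bor F))
  have := Fintype.ofFinite (MulChar F ℂ)
  let lin : MulChar F ℂ → IrrCharacter (bor F) := fun α => ⟨_, isIrr_borelChar α⟩
  have hlin : Function.Injective lin := by
    intro α β h
    ext a
    have := congrFun (congrArg Subtype.val h) ⟨dg a, dg_mem_bor a⟩
    simpa [lin] using this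
  let L := Finset.univ.image lin
  have hL : L.card = 2 * k := by
    rw [Finset.card_image_of_injective _ hlin, Finset.card_univ, ← Nat.card_eq_fintype_card, card_mulChar,
      Nat.card_eq_fintype_card, hq, Nat.add_sub_cancel]
  have hL1 : ∀ χ ∈ L, charDegree χ.1 = 1 := by
    intro χ hχ
    obtain ⟨α, -, rfl⟩ := Finset.mem_image.1 hχ
    exact deg_eq (by simp [lin, SL_coe_one])
  have hs := sum_sq_nat (G := bor F)
  rw [← Finset.sum_add_sum_compl L, Finset.sum_congr rfl (g := fun _ => 1) (fun χ hχ => by rw [hL1 χ hχ]; rfl),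
    card_bor, Nat.card_eq_fintype_card, hq] at hs
  simp only [Finset.sum_const, smul_eq_mul, mul_one, hL, Nat.add_sub_cancel] at hs
  have hc : Lᶜ.card = 4 := by
    rw [Finset.card_compl, ← Nat.card_eq_fintype_card, hk, hL, hq]; omega
  have heq := (Finset.sum_eq_sum_iff_of_le (s := Lᶜ) (f := fun χ => charDegree χ.1 ^ 2) (g := fun _ => k ^ 2)
    (fun χ _ => Nat.pow_le_pow_left (hdeg χ) 2)).1 (by
      rw [Finset.sum_const, hc, smul_eq_mul]; nlinarith)
  intro χ h
  by_cases hχ : χ ∈ L
  · exact hl.not_dvd_one (hL1 χ hχ ▸ h)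
  · have h3 := Nat.pow_left_injective two_ne_zero (heq χ (Finset.mem_compl.2 hχ))
    rw [h3] at h
    rw [hq] at hlq
    exact hl.not_dvd_one ((Nat.dvd_add_right (h.mul_left 2)).1 hlq)

lemma case_char (hodd : Odd (Fintype.card F)) (l : ℕ) [hl : Fact l.Prime] (hlq : l ∣ Fintype.card F)
    (S : Sylow l SL(2, F)) :
    cnt l (normalizer ((S : Subgroup SL(2, F)) : Set SL(2, F))) = Fintype.card F + 3 := by
  obtain ⟨p, hp, hc⟩ := exists_char (F := F)
  have := Fact.mk hp
  obtain rfl := eq_char_of_prime_dvd_card p hl.out (by rwa [Nat.card_eq_fintype_card (α := F)])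
  obtain ⟨n, -, hn⟩ := FiniteField.card F l
  have hU : Nat.card (upHom (F := F)).range = Fintype.card F := by
    rw [← Nat.card_congr (MonoidHom.ofInjective (f := upHom (F := F)) (up_injective (F := F))).toEquiv]
    simp
  have hi : ¬ l ∣ (upHom (F := F)).range.index := by
    have := (upHom (F := F)).range.index_mul_card
    rw [hU, card_SL2, Nat.card_eq_fintype_card, mul_comm] at this
    rw [Nat.eq_of_mul_eq_mul_left Fintype.card_pos this]
    intro h
    have h1 : l ∣ Fintype.card F ^ 2 := hlq.trans (dvd_pow_self _ two_ne_zero)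
    have h2 := Nat.dvd_sub h1 h
    have : 1 ≤ Fintype.card F ^ 2 := Nat.one_le_pow _ _ Fintype.card_pos
    rw [show Fintype.card F ^ 2 - (Fintype.card F ^ 2 - 1) = 1 by omega] at h2
    exact hl.out.not_dvd_one h2
  let U : Sylow l SL(2, F) := (IsPGroup.of_card (hU.trans hn)).toSylow hi
  obtain ⟨e⟩ := normalizer_equiv S U
  have hN : normalizer ((U : Subgroup SL(2, F)) : Set SL(2, F)) = bor F := by
    have hm : ∀ z : SL(2, F), z ∈ (U : Subgroup SL(2, F)) ↔ z.1 0 0 = 1 ∧ z.1 1 1 = 1 ∧ z.1 1 0 = 0 := by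
      intro z
      constructor
      · rintro ⟨b, rfl⟩; simp
      · rintro ⟨h1, h2, h3⟩
        exact ⟨Multiplicative.ofAdd (z.1 0 1), (eq_up_of_entries h1 h2 h3).symm⟩
    have k : ∀ z w : SL(2, F), z.1 1 0 = 0 → w ∈ (U : Subgroup SL(2, F)) →
        z * w * z⁻¹ ∈ (U : Subgroup SL(2, F)) := by
      intro z w hz hw
      have hd := bor_diag hz
      rw [hm] at hw ⊢
      simp only [SL_coe_mul, SL_coe_inv, mul_apply2, of_apply, cons_val', cons_val_zero,
        cons_val_one, cons_val_fin_one, hz, hw.1, hw.2.1, hw.2.2]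
      refine ⟨by linear_combination hd, by linear_combination hd, by ring⟩
    ext z
    rw [mem_bor_iff]
    constructor
    · intro hz
      have := ((hm _).1 ((hz (up 1)).1 ((hm _).2 (by simp)))).2.2
      simp only [SL_coe_mul, SL_coe_inv, mul_apply2, of_apply, cons_val', cons_val_zero,
        cons_val_one, cons_val_fin_one, coe_up] at this
      have h3 : z.1 1 0 ^ 2 = 0 := by linear_combination -this
      exact pow_eq_zero_iff two_ne_zero |>.1 h3
    · intro hz w
      refine ⟨k z w hz, fun h => ?_⟩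
      have := k z⁻¹ _ (by rw [SL_coe_inv]; simp [hz]) h
      rwa [show z⁻¹ * (z * w * z⁻¹) * z⁻¹⁻¹ = w by group] at this
  rw [cnt_congr l (e.trans (MulEquiv.subgroupCongr hN)), cnt_bor hodd l hl.out hlq]

lemma case_odd (hodd : Odd (Fintype.card F)) (l : ℕ) [hl : Fact l.Prime] (hl2 : l ≠ 2)
    (hlq : ¬ l ∣ Fintype.card F) (S : Sylow l SL(2, F)) (hS : (S : Subgroup SL(2, F)) ≠ ⊥) :
    cnt l SL(2, F) = cnt l (normalizer ((S : Subgroup SL(2, F)) : Set SL(2, F))) := by
  have h2 := two_ne_zero_of_odd hodd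
  obtain ⟨x, hxS, hx, hc⟩ := exists_central_of_isPGroup S.2 hS
  have hd := trace_sq_ne_of_prime_order hl.out hl2 (by rwa [Nat.card_eq_fintype_card]) hx
  rw [normalizer_eq_of_le hd hxS (fun y hy => mem_cent_iff.2 (hc y hy))]
  have h3 : 3 ≤ l := by have := hl.out.two_le; omega
  rw [cnt_of_all (G := normalizer _) l (fun χ h => by
    have h1 := deg_le_index ((centralizer ({x} : Set SL(2, F))).subgroupOf _)
      (fun a ha b hb => Subtype.ext (SL_cent_comm (SL_not_isScal_of_trace hd) ha hb)) χ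
    rw [index_cent_normalizer hd] at h1
    have := Nat.le_of_dvd (deg_pos χ) h
    omega)]
  have hk := card_conjClasses_normalizer_cent h2 hd
  have hdvd : l ∣ Nat.card (centralizer ({x} : Set SL(2, F))) :=
    hx ▸ Subgroup.orderOf_dvd_natCard _ (self_mem_cent x)
  have hlodd : Nat.Coprime l 2 := (Nat.coprime_primes hl.out Nat.prime_two).2 hl2
  have hq1 := Fintype.one_lt_card (α := F)
  obtain ⟨k, hq⟩ := id hodd
  have e1 : l ∣ Fintype.card F + 1 ↔ l ∣ k + 1 := by
    rw [hq, show 2 * k + 1 + 1 = (k + 1) * 2 by ring]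
    exact ⟨hlodd.dvd_of_dvd_mul_right, fun h => h.mul_right 2⟩
  have e2 : l ∣ Fintype.card F - 1 ↔ l ∣ k := by
    rw [hq, show 2 * k + 1 - 1 = k * 2 by omega]
    exact ⟨hlodd.dvd_of_dvd_mul_right, fun h => h.mul_right 2⟩
  have e3 : (Fintype.card F + 1) / 2 = k + 1 := by omega
  have e4 : (Fintype.card F - 1) / 2 = k := by omega
  have e5 : ¬ (l ∣ k ∧ l ∣ k + 1) := fun h => hl.out.not_dvd_one ((Nat.dvd_add_right h.1).1 h.2)
  rcases card_cent_regular hd with h | h <;> rw [h, Nat.card_eq_fintype_card (α := F)] at hk hdvd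
  · rw [e2] at hdvd
    have := Nat.le_of_dvd (by omega) hdvd
    rw [cnt_SL hodd (by omega) l hl.out hlq]
    simp only [e1, e2, e3, e4, if_pos hdvd, if_neg (fun h => e5 ⟨hdvd, h⟩)]
    omega
  · rw [e1] at hdvd
    have := Nat.le_of_dvd (by omega) hdvd
    rw [cnt_SL hodd (by omega) l hl.out hlq]
    simp only [e1, e2, e3, e4, if_pos hdvd, if_neg (fun h => e5 ⟨h, hdvd⟩)]
    omega

lemma cnt_two_SL (hodd : Odd (Fintype.card F)) (hq : 5 ≤ Fintype.card F) : cnt 2 SL(2, F) = 4 := by
  rw [cnt_SL hodd hq 2 Nat.prime_two hodd.not_two_dvd_nat]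
  obtain ⟨k, hk⟩ := hodd
  split_ifs <;> omega

lemma cnt_sylow (hodd : Odd (Fintype.card F)) (S : Sylow 2 SL(2, F)) : cnt 2 S = 4 := by
  have h2 := two_ne_zero_of_odd hodd
  obtain ⟨g, hd, hc, hi, hle⟩ := exists_two_torus_ge h2 S.2
  have hg := SL_not_isScal_of_trace hd
  set T := centralizer ({g} : Set SL(2, F)) with hT
  have hidx : (T.subgroupOf S).index = 2 := by
    have h1 : T.relIndex S ∣ 2 := by
      have : (T.subgroupOf (normalizer (T : Set SL(2, F)))).Normal := inferInstance
      have h3 := Subgroup.relIndex_dvd_index_of_normal (T.subgroupOf (normalizer (T : Set SL(2, F))))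
        ((S : Subgroup SL(2, F)).subgroupOf _)
      rwa [Subgroup.relIndex_subgroupOf hle, index_cent_normalizer hd] at h3
    refine ((Nat.dvd_prime Nat.prime_two).1 h1).resolve_left fun h => ?_
    rw [Subgroup.relIndex_eq_one] at h
    apply S.not_dvd_index
    refine Dvd.dvd.trans ?_ (Subgroup.index_dvd_of_le h)
    rw [← Subgroup.relIndex_mul_index (le_normalizer (H := T))]
    exact Dvd.dvd.mul_right (index_cent_normalizer hd).symm.dvd _
  have hm1 : (-1 : SL(2, F)) ∈ (S : Subgroup SL(2, F)) :=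
    mem_sylow_of_mem_normalizer (k := 1) S (center_le_normalizer _ (SL_mem_center_iff'.2 (Or.inr rfl)))
      (by simp)
  have hcomm : ∀ x ∈ T.subgroupOf S, ∀ y ∈ T.subgroupOf S, x * y = y * x :=
    fun a ha b hb => Subtype.ext (SL_cent_comm hg ha hb)
  have hk := card_conjClasses_dicyclic (T.subgroupOf S) hidx hcomm
    (fun n hn x hx => Subtype.ext (inverter_inverts hg (conj_eq_inv_of_mem_normalizer hd (hle n.2) hn) hx))
    ⟨-1, hm1⟩ (neg_one_mem_cent g) (fun h => SL_neg_one_ne_one h2 (congrArg Subtype.val h))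
    (Subtype.ext (by simp)) (fun x _ hx => by
      rcases SL_sq_eq_one h2 (congrArg Subtype.val hx) with h | h
      · exact Or.inl (Subtype.ext h)
      · exact Or.inr (Subtype.ext h))
  have hD : ∀ χ : IrrCharacter S, charDegree χ.1 ∈ ({1, 2} : Finset ℕ) := fun χ => by
    have h1 := deg_le_index _ hcomm χ
    have := deg_pos χ
    simp only [Finset.mem_insert, Finset.mem_singleton]; omega
  have e1 := cnt_eq 2 _ hD
  have e2 := card_eq_sum _ hD
  have e3 := classes_eq_sum _ hD
  have e4 := (T.subgroupOf S).index_mul_card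
  rw [Finset.sum_pair (by norm_num)] at e1 e2 e3
  rw [hidx] at e4
  norm_num at e1 e2
  change Nat.card (S : Subgroup SL(2, F)) = _ at e2
  omega

lemma cnt_24 (hodd : Odd (Fintype.card F)) (S : Sylow 2 SL(2, F)) (h8 : Nat.card S = 8)
    (h24 : Nat.card (normalizer ((S : Subgroup SL(2, F)) : Set SL(2, F))) = 24) :
    cnt 2 (normalizer ((S : Subgroup SL(2, F)) : Set SL(2, F))) = 4 := by
  classical
  have h2 := two_ne_zero_of_odd hodd
  have hZ := (S2431.result hodd S).1
  set N := normalizer ((S : Subgroup SL(2, F)) : Set SL(2, F)) with hN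
  have : Fact (Nat.Prime 3) := ⟨Nat.prime_three⟩
  obtain ⟨h, hh⟩ := exists_prime_orderOf_dvd_card' (G := N) 3 (by rw [h24]; norm_num)
  have hh3 : (h : SL(2, F)) ^ 3 = 1 := by
    have := pow_orderOf_eq_one h
    rw [hh] at this
    exact congrArg Subtype.val this
  have hC : Nat.card ((S : Subgroup SL(2, F)) ⊓ centralizer {(h : SL(2, F))} : Subgroup SL(2, F)) = 2 := by
    have h1 := card_inf_cent_modEq (p := 3) (S : Subgroup SL(2, F)) hh3 h.2
    have h3 : Nat.card ((S : Subgroup SL(2, F)) ⊓ centralizer {(h : SL(2, F))} : Subgroup SL(2, F)) ∣ 8 :=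
      (card_dvd_of_le inf_le_left).trans h8.dvd
    have h4 : Nat.card ((S : Subgroup SL(2, F)) ⊓ centralizer {(h : SL(2, F))} : Subgroup SL(2, F)) ≠ 8 := by
      intro h4
      have h5 := eq_of_le_of_card_ge (inf_le_left : (S : Subgroup SL(2, F)) ⊓ centralizer {(h : SL(2, F))} ≤ _)
        (h8.trans h4.symm).le
      have h6 : (h : SL(2, F)) ∈ center SL(2, F) := by
        rw [← hZ]
        intro s hs
        have : s ∈ (S : Subgroup SL(2, F)) ⊓ centralizer {(h : SL(2, F))} := h5.symm ▸ hs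
        exact mem_cent_iff.1 this.2
      have h7 := SL_sq_of_isScal (SL_mem_center_iff.1 h6)
      have h9 : orderOf h ∣ 2 := orderOf_dvd_of_pow_eq_one (Subtype.ext h7)
      rw [hh] at h9; norm_num at h9
    change Nat.card (S : Subgroup SL(2, F)) = 8 at h8
    rw [h8] at h1
    have := Nat.le_of_dvd (by norm_num) h3
    generalize Nat.card ((S : Subgroup SL(2, F)) ⊓ centralizer {(h : SL(2, F))} : Subgroup SL(2, F)) = m at *
    unfold Nat.ModEq at h1
    interval_cases m <;> omega
  have hker : ∀ θ : N →* ℂˣ, (S : Subgroup SL(2, F)).subgroupOf N ≤ θ.ker := by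
    intro θ
    set K : Subgroup SL(2, F) := (S : Subgroup SL(2, F)) ⊓ θ.ker.map N.subtype with hK
    have hK4 : 8 ≤ 2 * Nat.card K := by
      have h0 : ∀ (a b : N), a⁻¹ * (b * a * b⁻¹) ∈ θ.ker := fun a b => by
        rw [MonoidHom.mem_ker, map_mul, map_mul, map_mul, map_inv, map_inv, mul_inv_cancel_comm, inv_mul_cancel]
      have h1 := card_le_mul_aux (S : Subgroup SL(2, F)) K h (fun s hs =>
        ⟨(S : Subgroup SL(2, F)).mul_mem ((S : Subgroup SL(2, F)).inv_mem hs) ((h.2 s).1 hs),
          Subgroup.mem_map_of_mem N.subtype (h0 ⟨s, le_normalizer hs⟩ h)⟩)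
      rw [hC] at h1
      exact h8.symm.le.trans h1
    have hK8 : Nat.card K ∣ 8 := (card_dvd_of_le inf_le_left).trans h8.dvd
    have hKn : (h : SL(2, F)) ∈ normalizer (K : Set SL(2, F)) := by
      have k : ∀ z : N, ∀ w ∈ K, (z : SL(2, F)) * w * (z : SL(2, F))⁻¹ ∈ K := by
        rintro z _ ⟨hw, w, hw', rfl⟩
        exact ⟨(z.2 _).1 hw, ⟨_, θ.normal_ker.conj_mem w hw' z, rfl⟩⟩
      intro w
      refine ⟨k h w, fun hw => ?_⟩
      simpa [mul_assoc] using k h⁻¹ _ hw
    have hK4' : Nat.card K ≠ 4 := by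
      intro h4
      have h1 := card_inf_cent_modEq (p := 3) K hh3 hKn
      have h3 : Nat.card (K ⊓ centralizer {(h : SL(2, F))} : Subgroup SL(2, F)) ∣ 2 :=
        (card_dvd_of_le (inf_le_inf_right _ inf_le_left)).trans hC.dvd
      obtain ⟨z, hz⟩ := exists_prime_orderOf_dvd_card' (G := K) 2 (by rw [h4]; norm_num)
      have hz' : (z : SL(2, F)) = -1 := by
        have h5 := pow_orderOf_eq_one z
        rw [hz, sq] at h5
        refine (SL_sq_eq_one h2 (congrArg Subtype.val h5)).resolve_left fun h6 => ?_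
        rw [(Subtype.ext h6 : z = 1)] at hz; simp at hz
      have h5 : Nat.card (K ⊓ centralizer {(h : SL(2, F))} : Subgroup SL(2, F)) ≠ 1 := by
        rw [Ne, card_eq_one, eq_bot_iff]
        intro h6
        exact SL_neg_one_ne_one h2 (h6 ⟨hz' ▸ z.2, neg_one_mem_cent _⟩)
      rw [((Nat.dvd_prime Nat.prime_two).1 h3).resolve_left h5, h4] at h1
      exact absurd h1 (by decide)
    have hK' : Nat.card K = 8 := by
      have := Nat.le_of_dvd (by norm_num) hK8
      generalize Nat.card K = m at *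
      interval_cases m <;> omega
    have h5 := eq_of_le_of_card_ge (inf_le_left : K ≤ _) (h8.trans hK'.symm).le
    intro s hs
    have : (s : SL(2, F)) ∈ K := h5.ge hs
    obtain ⟨-, w, hw, e⟩ := this
    rwa [← (Subtype.ext e : w = s)]
  have hi : ((S : Subgroup SL(2, F)).subgroupOf N).index = 3 := by
    have := ((S : Subgroup SL(2, F)).subgroupOf N).index_mul_card
    rw [Nat.card_congr (subgroupOfEquivOfLe le_normalizer).toEquiv, h24] at this
    rw [h8] at this
    omega
  have hmu : mu N 1 = 3 := by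
    rw [mu_one]
    have hc : IsCyclic (N ⧸ (S : Subgroup SL(2, F)).subgroupOf N) := isCyclic_of_prime_card (p := 3) hi
    have hc' : IsMulCommutative (N ⧸ (S : Subgroup SL(2, F)).subgroupOf N) := IsCyclic.isMulCommutative
    rw [← hi, index, ← card_unitsHom (G := N ⧸ (S : Subgroup SL(2, F)).subgroupOf N)]
    refine Nat.card_congr ⟨fun θ => QuotientGroup.lift _ θ (hker θ), fun θ => θ.comp (QuotientGroup.mk' _),
      fun θ => by ext; simp, fun θ => by ext; simp⟩
  have hD : ∀ χ : IrrCharacter N, charDegree χ.1 ∈ ({1, 2, 3, 4} : Finset ℕ) := fun χ => by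
    have := Fintype.ofFinite (IrrCharacter N)
    have h1 := Finset.single_le_sum (f := fun χ : IrrCharacter N => charDegree χ.1 ^ 2)
      (fun _ _ => Nat.zero_le _) (Finset.mem_univ χ)
    rw [sum_sq_nat, h24] at h1
    have := deg_pos χ
    have : charDegree χ.1 < 5 := by by_contra h; nlinarith
    simp only [Finset.mem_insert, Finset.mem_singleton]; omega
  have e1 := cnt_eq 2 _ hD
  have e2 := card_eq_sum _ hD
  rw [Finset.sum_insert (by decide), Finset.sum_insert (by decide), Finset.sum_pair (by decide), hmu] at e1 e2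
  rw [h24] at e2
  norm_num at e1 e2
  omega

lemma card_sylow_two (h : Fintype.card F % 8 = 3 ∨ Fintype.card F % 8 = 5) (S : Sylow 2 SL(2, F)) :
    Nat.card S = 8 := by
  have h1 := (S : Subgroup SL(2, F)).index_mul_card
  have h2 := S.not_dvd_index
  obtain ⟨k, hk⟩ := IsPGroup.iff_card.1 S.2
  rw [card_SL2', Nat.card_eq_fintype_card (α := F), hk] at h1
  change Nat.card (S : Subgroup SL(2, F)) = 8
  rw [hk]
  have h3 : (Fintype.card F * (Fintype.card F - 1) * (Fintype.card F + 1)) % 16 = 8 := by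
    obtain ⟨m, hm⟩ : ∃ m, Fintype.card F = m + 1 := ⟨Fintype.card F - 1, by omega⟩
    rw [hm, Nat.add_sub_cancel]
    have : m % 16 = 2 ∨ m % 16 = 4 ∨ m % 16 = 10 ∨ m % 16 = 12 := by omega
    rcases this with h | h | h | h <;> simp [Nat.mul_mod, Nat.add_mod, h]
  rw [← h1] at h3
  by_cases hk4 : 4 ≤ k
  · obtain ⟨j, rfl⟩ := Nat.exists_eq_add_of_le hk4
    rw [pow_add, mul_left_comm] at h3
    omega
  · interval_cases k <;> omega

/-- Let F be a finite field with q elements, q odd, ℓ any prime and S a Sylow ℓ-subgroup of SL₂ over F with normaliser N. Then SL₂ and N have the same number of irreducible complex characters of degree not divisible by ℓ (the McKay equality holds for SL₂ over F at every prime). -/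
theorem result {F : Type*} [Field F] [Fintype F] (hodd : Odd (Fintype.card F)) (ℓ : ℕ) [Fact ℓ.Prime] (S : Sylow ℓ (Matrix.SpecialLinearGroup (Fin 2) F)) :
    Nat.card {χ : Cfsg.IrrCharacter (Matrix.SpecialLinearGroup (Fin 2) F) // ¬ ℓ ∣ Cfsg.charDegree (χ : Matrix.SpecialLinearGroup (Fin 2) F → ℂ)} =
      Nat.card {ψ : Cfsg.IrrCharacter (Subgroup.normalizer ((S : Subgroup (Matrix.SpecialLinearGroup (Fin 2) F)) : Set (Matrix.SpecialLinearGroup (Fin 2) F))) //
        ¬ ℓ ∣ Cfsg.charDegree (ψ : Subgroup.normalizer ((S : Subgroup (Matrix.SpecialLinearGroup (Fin 2) F)) : Set (Matrix.SpecialLinearGroup (Fin 2) F)) → ℂ)} := by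
  change cnt ℓ _ = cnt ℓ _
  by_cases htop : normalizer ((S : Subgroup SL(2, F)) : Set SL(2, F)) = ⊤
  · exact (cnt_congr ℓ ((MulEquiv.subgroupCongr htop).trans Subgroup.topEquiv)).symm
  by_cases hq : ℓ ∣ Fintype.card F
  · rw [case_char hodd ℓ hq S, cnt_SL_char hodd ℓ Fact.out hq]
  by_cases h2 : ℓ = 2
  · subst h2
    obtain ⟨-, h1, h3⟩ := S2431.result hodd S
    have hq1 := Fintype.one_lt_card (α := F)
    obtain ⟨k, hk⟩ := id hodd
    by_cases h8 : Fintype.card F % 8 = 3 ∨ Fintype.card F % 8 = 5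
    · have h4 := h3 h8
      rw [card_sylow_two h8 S] at h4
      rw [cnt_24 hodd S (card_sylow_two h8 S) h4, cnt_two_SL hodd]
      by_contra h5
      apply htop
      apply Subgroup.eq_top_of_card_eq
      rw [h4, card_SL2, Nat.card_eq_fintype_card, show Fintype.card F = 3 by omega]
      rfl
    · rw [cnt_congr 2 (MulEquiv.subgroupCongr (h1 (by omega))), cnt_two_SL hodd (by omega)]
      exact (cnt_sylow hodd S).symm
  · refine case_odd hodd ℓ h2 hq S fun h => htop ?_
    rw [h, normalizer_eq_top]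

end Cfsg.Agent.S2436
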