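import Cfsg.Statements.S2439
import Cfsg.Agent.Lib.Char.SL2C
import Cfsg.Agent.Lib.Char.Block

set_option autoImplicit false
open Cfsg
open Cfsg.Agent.Char Cfsg.Agent.SL2 Cfsg.Agent.Ch2
open scoped MatrixGroups

namespace Cfsg.Agent.S2439

section Aux

variable {F : Type*} [Field F] [Fintype F] {p : ℕ} [Fact p.Prime] [CharP F p]

theorem p_dvd_q : p ∣ Fintype.card F := by
  obtain ⟨n, -, hn⟩ := FiniteField.card F p
  rw [hn]; exact dvd_pow_self p n.ne_zero

theorem neg_one_central : (-1 : SL(2, F)) ∈ Subgroup.center SL(2, F) :=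
  SL_mem_center_iff'.mpr (Or.inr rfl)

theorem sign_cases {χ : SL(2, F) → ℂ} (hχ : IsIrrCharacter _ χ) :
    χ (-1) = χ 1 ∨ χ (-1) = -χ 1 := by
  have h := irr_central_mul hχ neg_one_central (-1)
  have h0 := irr_one_ne_zero hχ
  rw [neg_mul_neg, one_mul] at h
  field_simp at h
  exact sq_eq_sq_iff_eq_or_eq_neg.mp h.symm

theorem degree_coprime {χ : SL(2, F) → ℂ} (hχ : IsIrrCharacter _ χ)
    (h : χ 1 ≠ (Fintype.card F : ℂ)) : ∃ n : ℕ, χ 1 = n ∧ ¬ p ∣ n := by
  classical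
  obtain ⟨n, hn⟩ := exists_nat_degree (isChar_of_irr hχ)
  obtain ⟨c, hc⟩ := exists_noRoot_SL (F := F)
  refine ⟨n, hn, fun hp => (Fact.out : p.Prime).one_lt.ne' (Nat.dvd_one.mp ?_)⟩
  have hq := p_dvd_q (F := F) (p := p)
  rcases irr_cases_deg hc hχ hn with ⟨_, e⟩ | ⟨_, e⟩ | ⟨_, e⟩ | ⟨_, e⟩ | ⟨_, e⟩ | ⟨_, e⟩
  · exact e ▸ hp
  · exact absurd (e ▸ hn) h
  · exact (Nat.dvd_add_right hq).mp (e ▸ hp)
  · exact (Nat.dvd_add_right hp).mp (e ▸ hq)
  · exact (Nat.dvd_add_right hq).mp (e ▸ hp.mul_left 2)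
  · exact (Nat.dvd_add_right (hp.mul_left 2)).mp (e ▸ hq)

theorem not_dvd_succ : ¬ p ∣ Fintype.card F + 1 := fun h =>
  (Fact.out : p.Prime).one_lt.ne' (Nat.dvd_one.mp ((Nat.dvd_add_right p_dvd_q).mp h))

theorem not_dvd_pred : ¬ p ∣ Fintype.card F - 1 := fun h =>
  (Fact.out : p.Prime).one_lt.ne' (Nat.dvd_one.mp ((Nat.dvd_add_right h).mp
    (by rw [Nat.sub_add_cancel Fintype.card_pos]; exact p_dvd_q)))

theorem dvd_index {g : SL(2, F)} (h : ¬ p ∣ Nat.card (Subgroup.centralizer ({g} : Set SL(2, F)))) :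
    p ∣ (Subgroup.centralizer ({g} : Set SL(2, F))).index := by
  refine ((Fact.out : p.Prime).dvd_mul.mp ?_).resolve_left h
  rw [Subgroup.card_mul_index, card_SL2', Nat.card_eq_fintype_card, mul_assoc]
  exact p_dvd_q.mul_right _

variable {M : Ideal AlgInt}

theorem sameBlock_of (hM : IsPModular p M) {χ ψ : SL(2, F) → ℂ} (hχ : IsIrrCharacter _ χ)
    (hψ : IsIrrCharacter _ ψ) (h1 : χ 1 ≠ (Fintype.card F : ℂ)) (h2 : ψ 1 ≠ (Fintype.card F : ℂ))
    (h : χ (-1) / χ 1 = ψ (-1) / ψ 1) : SameBlock M χ ψ := by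
  have := hM.2.1.isPrime
  obtain ⟨n, hn, hpn⟩ := degree_coprime (p := p) hχ h1
  obtain ⟨m, hm, hpm⟩ := degree_coprime (p := p) hψ h2
  intro g
  have key : ¬ p ∣ Nat.card (Subgroup.centralizer ({g} : Set SL(2, F))) →
      MemLocalIdeal M (centralChar χ g - centralChar ψ g) := fun hg =>
    locIdeal_sub (centralChar_of_dvd_index hM (isChar_of_irr hχ) hn hpn (dvd_index hg))
      (centralChar_of_dvd_index hM (isChar_of_irr hψ) hm hpm (dvd_index hg))
  have key2 : ∀ z u : SL(2, F), z ∈ Subgroup.center SL(2, F) → u.1.trace = 2 →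
      χ z / χ 1 = ψ z / ψ 1 → MemLocalIdeal M (centralChar χ (z * u) - centralChar ψ (z * u)) := by
    intro z u hz hu e
    have hu' : u ^ p ^ 1 = 1 := by rw [pow_one, SL_pow_char_eq_one_iff, hu]
    have := locIdeal_sub (centralChar_central_mul hM hχ hn hpn hz hu')
      (centralChar_central_mul hM hψ hm hpm hz hu')
    rwa [e, sub_sub_sub_cancel_right] at this
  rcases SL_trace_cases g.1.trace with ht | ⟨a, ha, ht⟩ | ht
  · exact key (by rw [card_cent_SL_noRoot ht, Nat.card_eq_fintype_card]; exact not_dvd_succ)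
  · exact key (by rw [card_cent_SL_split' ha ht, Nat.card_eq_fintype_card]; exact not_dvd_pred)
  · have : (g.1.trace - 2) * (g.1.trace + 2) = 0 := by linear_combination ht
    rcases mul_eq_zero.mp this with h3 | h3
    · have := key2 1 g (Subgroup.one_mem _) (by linear_combination h3) (by
        rw [div_self (irr_one_ne_zero hχ), div_self (irr_one_ne_zero hψ)])
      rwa [one_mul] at this
    · have := key2 (-1) (-g) neg_one_central (by
        rw [SL_coe_neg, Matrix.trace_neg]; linear_combination -h3) h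
      rwa [neg_mul_neg, one_mul] at this

theorem not_sameBlock_St (hp : p ≠ 2) (hM : IsPModular p M) {χ ψ : SL(2, F) → ℂ}
    (hχ : IsIrrCharacter _ χ) (hψ : IsIrrCharacter _ ψ) (h1 : χ 1 ≠ (Fintype.card F : ℂ))
    (h2 : ψ 1 = (Fintype.card F : ℂ)) : ¬ SameBlock M χ ψ := by
  classical
  have := hM.2.1.isPrime
  intro h
  obtain ⟨n, hn, hpn⟩ := degree_coprime (p := p) hχ h1
  have h3 := h (up 1)
  have e : centralChar ψ (up 1) = 0 := by
    rw [centralChar, eq_St_of_degree hψ h2, St_par (by simp) (by simp) (by simp)]; simp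
  have hu' : (up 1 : SL(2, F)) ^ p ^ 1 = 1 := by rw [pow_one, SL_pow_char_eq_one_iff, trace_up]
  have h4 := centralChar_central_mul hM hχ hn hpn (Subgroup.one_mem _) hu'
  rw [one_mul, div_self (irr_one_ne_zero hχ), mul_one] at h4
  have h5 := locIdeal_sub h3 h4
  rw [e, sub_zero, sub_sub_cancel, locIdeal_natCast_iff hM] at h5
  have h6 := (Subgroup.centralizer ({up 1} : Set SL(2, F))).card_mul_index
  rw [card_cent_SL_double_odd (two_ne_zero_of_char p hp) (by simp [IsScal])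
    (by rw [trace_up]; norm_num), card_SL2', Nat.card_eq_fintype_card, mul_comm 2, mul_assoc,
    mul_assoc] at h6
  have h7 := Nat.eq_of_mul_eq_mul_left Fintype.card_pos h6
  have h8 : p ∣ (Fintype.card F - 1) * (Fintype.card F + 1) := h7 ▸ h5.mul_left 2
  exact ((Fact.out : p.Prime).dvd_mul.mp h8).elim not_dvd_pred not_dvd_succ

theorem not_locIdeal_two (hp : p ≠ 2) (hM : IsPModular p M) : ¬ MemLocalIdeal M 2 := by
  have := (locIdeal_natCast_iff hM 2).not.mpr fun h =>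
    hp ((Nat.prime_dvd_prime_iff_eq Fact.out Nat.prime_two).mp h)
  simpa using this

theorem central_of_sameBlock (hp : p ≠ 2) (hM : IsPModular p M) {χ ψ : SL(2, F) → ℂ}
    (hχ : IsIrrCharacter _ χ) (hψ : IsIrrCharacter _ ψ) (h : SameBlock M χ ψ) :
    χ (-1) / χ 1 = ψ (-1) / ψ 1 := by
  have := hM.2.1.isPrime
  have h1 := h (-1)
  rw [centralChar_central _ neg_one_central, centralChar_central _ neg_one_central] at h1
  have h2 := not_locIdeal_two hp hM
  have h3 := irr_one_ne_zero hχ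
  have h4 := irr_one_ne_zero hψ
  rcases sign_cases hχ with e | e <;> rcases sign_cases hψ with e' | e' <;>
    simp only [e, e', neg_div, div_self h3, div_self h4] at h1 ⊢
  · exact absurd (by convert h1 using 1; norm_num) h2
  · exact absurd (by convert locIdeal_neg h1 using 1; norm_num) h2

open scoped Classical in
/-- The label of the block of a character. -/
noncomputable def lab (χ : IrrCharacter SL(2, F)) : Fin 3 :=
  if (χ : SL(2, F) → ℂ) 1 = (Fintype.card F : ℂ) then 0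
  else if (χ : SL(2, F) → ℂ) (-1) = (χ : SL(2, F) → ℂ) 1 then 1 else 2

theorem St_neg_one {χ : SL(2, F) → ℂ} (hχ : IsIrrCharacter _ χ) (h : χ 1 = (Fintype.card F : ℂ)) :
    χ (-1) = χ 1 := by
  classical
  rw [eq_St_of_degree hχ h, St_one, St_scal (SL_isScal_iff.mpr (Or.inr rfl))]

theorem not_both {χ : SL(2, F) → ℂ} (hχ : IsIrrCharacter _ χ) (h : χ (-1) = χ 1) :
    χ (-1) ≠ -χ 1 := fun h' => irr_one_ne_zero hχ (by linear_combination (h'  - h) / 2)

theorem lab_zero (χ : IrrCharacter SL(2, F)) :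
    lab χ = 0 ↔ (χ : SL(2, F) → ℂ) 1 = (Fintype.card F : ℂ) := by
  unfold lab; split_ifs <;> simp [*]

theorem lab_one (χ : IrrCharacter SL(2, F)) :
    lab χ = 1 ↔ (χ : SL(2, F) → ℂ) (-1) = (χ : SL(2, F) → ℂ) 1 ∧
      (χ : SL(2, F) → ℂ) 1 ≠ (Fintype.card F : ℂ) := by
  unfold lab; split_ifs <;> simp [*]

theorem lab_two (χ : IrrCharacter SL(2, F)) :
    lab χ = 2 ↔ (χ : SL(2, F) → ℂ) (-1) = -(χ : SL(2, F) → ℂ) 1 := by
  unfold lab
  split_ifs with h1 h2
  · simpa using not_both χ.2 (St_neg_one χ.2 h1)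
  · simpa using not_both χ.2 h2
  · simpa using (sign_cases χ.2).resolve_left h2

theorem sameBlock_iff (hp : p ≠ 2) (hM : IsPModular p M) (χ ψ : IrrCharacter SL(2, F)) :
    SameBlock M (χ : SL(2, F) → ℂ) ψ ↔ lab χ = lab ψ := by
  classical
  have := hM.2.1.isPrime
  have h3 := irr_one_ne_zero χ.2
  have h4 := irr_one_ne_zero ψ.2
  by_cases h1 : (χ : SL(2, F) → ℂ) 1 = (Fintype.card F : ℂ) <;>
  by_cases h2 : (ψ : SL(2, F) → ℂ) 1 = (Fintype.card F : ℂ)
  · obtain rfl : χ = ψ := Subtype.ext ((eq_St_of_degree χ.2 h1).trans (eq_St_of_degree ψ.2 h2).symm)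
    simp [sameBlock_refl]
  · refine iff_of_false (fun h => not_sameBlock_St hp hM ψ.2 χ.2 h2 h1 (sameBlock_symm h)) ?_
    rw [(lab_zero χ).mpr h1, eq_comm, lab_zero]; exact h2
  · refine iff_of_false (not_sameBlock_St hp hM χ.2 ψ.2 h1 h2) ?_
    rw [(lab_zero ψ).mpr h2, lab_zero]; exact h1
  · have e : SameBlock M (χ : SL(2, F) → ℂ) ψ ↔ χ.1 (-1) / χ.1 1 = ψ.1 (-1) / ψ.1 1 :=
      ⟨central_of_sameBlock hp hM χ.2 ψ.2, sameBlock_of hM χ.2 ψ.2 h1 h2⟩
    rw [e]
    rcases sign_cases χ.2 with e1 | e1 <;> rcases sign_cases ψ.2 with e2 | e2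
    · simp [(lab_one χ).mpr ⟨e1, h1⟩, (lab_one ψ).mpr ⟨e2, h2⟩, e1, e2, h3, h4]
    · simp [(lab_one χ).mpr ⟨e1, h1⟩, (lab_two ψ).mpr e2, e1, e2, h3, h4, neg_div]; norm_num
    · simp [(lab_one ψ).mpr ⟨e2, h2⟩, (lab_two χ).mpr e1, e1, e2, h3, h4, neg_div]; norm_num
    · simp [(lab_two χ).mpr e1, (lab_two ψ).mpr e2, e1, e2, h3, h4, neg_div]

theorem sums (h2 : (2 : F) ≠ 0) [Fintype (IrrCharacter SL(2, F))] :
    (∑ χ : IrrCharacter SL(2, F), if lab χ = 2 then (χ : SL(2, F) → ℂ) 1 ^ 2 else 0) =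
      Nat.card SL(2, F) / 2 ∧
    (∑ χ : IrrCharacter SL(2, F), if lab χ = 1 then (χ : SL(2, F) → ℂ) 1 ^ 2 else 0) =
      Nat.card SL(2, F) / 2 - (Fintype.card F : ℂ) ^ 2 := by
  classical
  have e1 := sum_degree_sq (G := SL(2, F))
  have e2 := sum_degree_mul (G := SL(2, F)) (-1)
  rw [regChar_of_ne (SL_neg_one_ne_one h2)] at e2
  have e0 : (∑ χ : IrrCharacter SL(2, F), if lab χ = 0 then (χ : SL(2, F) → ℂ) 1 ^ 2 else 0) =
      (Fintype.card F : ℂ) ^ 2 := by
    rw [Finset.sum_eq_single ⟨St F, isIrr_St⟩]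
    · rw [if_pos ((lab_zero _).mpr St_one)]; exact congrArg (· ^ 2) St_one
    · intro χ _ h
      exact if_neg fun h' => h (Subtype.ext (eq_St_of_degree χ.2 ((lab_zero _).mp h')))
    · simp
  have e3 : ∀ χ : IrrCharacter SL(2, F), (χ : SL(2, F) → ℂ) 1 ^ 2 =
      (if lab χ = 0 then (χ : SL(2, F) → ℂ) 1 ^ 2 else 0) +
      (if lab χ = 1 then (χ : SL(2, F) → ℂ) 1 ^ 2 else 0) +
      (if lab χ = 2 then (χ : SL(2, F) → ℂ) 1 ^ 2 else 0) := fun χ => by
    generalize lab χ = i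
    fin_cases i <;> simp
  have e4 : ∀ χ : IrrCharacter SL(2, F), (χ : SL(2, F) → ℂ) 1 * (χ : SL(2, F) → ℂ) (-1) =
      (if lab χ = 0 then (χ : SL(2, F) → ℂ) 1 ^ 2 else 0) +
      (if lab χ = 1 then (χ : SL(2, F) → ℂ) 1 ^ 2 else 0) -
      (if lab χ = 2 then (χ : SL(2, F) → ℂ) 1 ^ 2 else 0) := fun χ => by
    obtain ⟨i, hi⟩ : ∃ i, lab χ = i := ⟨_, rfl⟩
    fin_cases i
    · simp [hi, St_neg_one χ.2 ((lab_zero _).mp hi), sq]
    · simp [hi, ((lab_one _).mp hi).1, sq]
    · simp [hi, (lab_two _).mp hi, sq]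
  rw [Finset.sum_congr rfl fun χ _ => e3 χ, Finset.sum_add_distrib, Finset.sum_add_distrib, e0] at e1
  rw [Finset.sum_congr rfl fun χ _ => e4 χ, Finset.sum_sub_distrib, Finset.sum_add_distrib, e0] at e2
  constructor
  · linear_combination (e1 - e2) / 2
  · linear_combination (e1 + e2) / 2

theorem lab_surj (h2 : (2 : F) ≠ 0) : Function.Surjective (lab (F := F)) := by
  classical
  have := Fintype.ofFinite (IrrCharacter SL(2, F))
  intro i
  fin_cases i
  · exact ⟨⟨St F, isIrr_St⟩, (lab_zero _).mpr St_one⟩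
  · exact ⟨⟨1, isIrr_one⟩, (lab_one _).mpr ⟨rfl, fun h => q_sub_one_ne_zero (F := F) (by
      rw [← h]; simp)⟩⟩
  · by_contra hcon
    push Not at hcon
    have h := (sums h2).1
    rw [Finset.sum_eq_zero fun χ _ => if_neg (show ¬ lab χ = 2 from hcon χ)] at h
    exact natCard_ne_zero (G := SL(2, F)) (by linear_combination -2 * h)

end Aux

/-- Let F be a finite field with q elements of odd characteristic p, and M a maximal ideal of the algebraic integers containing p. Then SL₂ over F has exactly three p-blocks relative to M: the irreducible character of degree q (the Steinberg character) alone; the other irreducible characters taking the same value at −1 as at 1 (the principal block); and the irreducible characters χ with χ(−1) = −χ(1). Every Sylow p-subgroup is a defect group of each of the last two blocks. -/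
theorem result {F : Type*} [Field F] [Fintype F] (p : ℕ) [Fact p.Prime] [CharP F p] (hp : p ≠ 2)
    (M : Ideal Cfsg.AlgInt) (hM : Cfsg.IsPModular p M) :
    (∀ B : Set (Cfsg.IrrCharacter (Matrix.SpecialLinearGroup (Fin 2) F)), Cfsg.IsPBlock M B ↔
      (B = {χ : Cfsg.IrrCharacter (Matrix.SpecialLinearGroup (Fin 2) F) | (χ : Matrix.SpecialLinearGroup (Fin 2) F → ℂ) 1 = (Fintype.card F : ℂ)} ∨
       B = {χ : Cfsg.IrrCharacter (Matrix.SpecialLinearGroup (Fin 2) F) | (χ : Matrix.SpecialLinearGroup (Fin 2) F → ℂ) (-1) = (χ : Matrix.SpecialLinearGroup (Fin 2) F → ℂ) 1 ∧ (χ : Matrix.SpecialLinearGroup (Fin 2) F → ℂ) 1 ≠ (Fintype.card F : ℂ)} ∨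
       B = {χ : Cfsg.IrrCharacter (Matrix.SpecialLinearGroup (Fin 2) F) | (χ : Matrix.SpecialLinearGroup (Fin 2) F → ℂ) (-1) = -(χ : Matrix.SpecialLinearGroup (Fin 2) F → ℂ) 1})) ∧
    Nat.card {B : Set (Cfsg.IrrCharacter (Matrix.SpecialLinearGroup (Fin 2) F)) // Cfsg.IsPBlock M B} = 3 ∧
    ∀ P : Sylow p (Matrix.SpecialLinearGroup (Fin 2) F),
      Cfsg.IsDefectGroup p M {χ : Cfsg.IrrCharacter (Matrix.SpecialLinearGroup (Fin 2) F) | (χ : Matrix.SpecialLinearGroup (Fin 2) F → ℂ) (-1) = (χ : Matrix.SpecialLinearGroup (Fin 2) F → ℂ) 1 ∧ (χ : Matrix.SpecialLinearGroup (Fin 2) F → ℂ) 1 ≠ (Fintype.card F : ℂ)} (P : Subgroup (Matrix.SpecialLinearGroup (Fin 2) F)) ∧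
      Cfsg.IsDefectGroup p M {χ : Cfsg.IrrCharacter (Matrix.SpecialLinearGroup (Fin 2) F) | (χ : Matrix.SpecialLinearGroup (Fin 2) F → ℂ) (-1) = -(χ : Matrix.SpecialLinearGroup (Fin 2) F → ℂ) 1} (P : Subgroup (Matrix.SpecialLinearGroup (Fin 2) F)) := by
  classical
  have h2 : (2 : F) ≠ 0 := two_ne_zero_of_char p hp
  have := hM.2.1.isPrime
  have := Fintype.ofFinite (IrrCharacter SL(2, F))
  have hs := (lab_surj h2).range_eq
  have hG := natCard_ne_zero (G := SL(2, F))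
  have h2' : MemLocalRing M (2 : ℂ)⁻¹ := locRing_inv (by simpa using locRing_natCast 2)
    (not_locIdeal_two hp hM)
  have h2'' : ¬ MemLocalIdeal M (2 : ℂ)⁻¹ := not_locIdeal_inv (by simpa using locRing_natCast 2)
    two_ne_zero
  refine ⟨fun B => ?_, ?_, fun P => ⟨?_, ?_⟩⟩
  · rw [isPBlock_iff lab (sameBlock_iff hp hM), hs]
    simp only [Set.mem_univ, true_and, Fin.exists_fin_succ, IsEmpty.exists_iff, or_false,
      ← lab_zero, ← lab_two]
    simp only [lab_zero, ← lab_one]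
    rfl
  · rw [card_isPBlock lab (sameBlock_iff hp hM), hs]; simp
  · simp only [← lab_one]
    have e : blockCoeff {χ : IrrCharacter SL(2, F) | lab χ = 1} 1 = 2⁻¹ -
        (Fintype.card F : ℂ) * (((Fintype.card F - 1 : ℕ) : ℂ)⁻¹ *
          ((Fintype.card F + 1 : ℕ) : ℂ)⁻¹) := by
      rw [blockCoeff_one]
      simp only [Set.mem_ofPred_eq]
      rw [(sums h2).2, cast_card_SL2, cast_q_sub_one]
      have := q_ne_zero (F := F)
      have := q_sub_one_ne_zero (F := F)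
      have := q_add_one_ne_zero (F := F)
      push_cast
      field_simp
    have h3 : MemLocalIdeal M ((Fintype.card F : ℂ) * (((Fintype.card F - 1 : ℕ) : ℂ)⁻¹ *
          ((Fintype.card F + 1 : ℕ) : ℂ)⁻¹)) :=
      locIdeal_mul_right ((locIdeal_natCast_iff hM _).mpr p_dvd_q)
        (locRing_mul (locRing_inv_natCast hM not_dvd_pred) (locRing_inv_natCast hM not_dvd_succ))
    refine isDefectGroup_sylow ?_ ?_ P <;> rw [e]
    · exact locRing_sub h2' (locRing_of_locIdeal h3)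
    · exact fun h => h2'' (by simpa using locIdeal_add h h3)
  · simp only [← lab_two]
    have e : blockCoeff {χ : IrrCharacter SL(2, F) | lab χ = 2} 1 = 2⁻¹ := by
      rw [blockCoeff_one]
      simp only [Set.mem_ofPred_eq]
      rw [(sums h2).1]
      field_simp
    refine isDefectGroup_sylow ?_ ?_ P <;> rw [e] <;> assumption

end Cfsg.Agent.S2439
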