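import Cfsg.Statements.S2440
import Cfsg.Agent.Lib.TypeA.Blocks
import Cfsg.Agent.Lib.TypeA.SL
import Cfsg.Agent.Lib.GLn.ClassBounds

set_option autoImplicit false
open Cfsg
open Cfsg.Agent.TypeA Cfsg.Agent.Chev Cfsg.Agent.SLn Matrix Matrix.SpecialLinearGroup

namespace Cfsg.Agent.S2440

section
variable {l : ℕ} {F : Type*} [Field F]

theorem exists_mem_UJ (J : Set (Fin l)) (k : Fin l) (hk : k ∉ J) (t : Rt l → F) (S : Finset (Rt l))
    (hS : ∀ r ∈ S, r.1.1.val ≤ k.val ∧ k.val < r.1.2.val) :
    ∃ u ∈ (PA l F).UJ J, u.1 = 1 + ∑ r ∈ S, single r.1.1 r.1.2 (t r) := by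
  classical
  induction S using Finset.induction_on with
  | empty => exact ⟨1, one_mem _, by simp⟩
  | insert r S hr ih =>
    obtain ⟨u, hu, e⟩ := ih fun s hs => hS s (Finset.mem_insert_of_mem hs)
    obtain ⟨h1, h2⟩ := hS r (Finset.mem_insert_self _ _)
    have h3 : r.1.1 < r.1.2 := by rw [Fin.lt_def]; omega
    refine ⟨xA r (t r) * u, mul_mem (mem_USub (S := {r | (RA l).IsPos r ∧ ¬ (RA l).InSub J r})
      ⟨(isPos_iff r).2 h3, fun h => hk ((inSub_iff h3).1 h k h1 h2)⟩ (xA_mem r _)) hu, ?_⟩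
    rw [coe_mul, e, coe_xA, Finset.sum_insert hr, add_mul, one_mul, mul_add, mul_one, Finset.mul_sum,
      Finset.sum_eq_zero (s := S) (f := fun s => single r.1.1 r.1.2 (t r) * single s.1.1 s.1.2 (t s))
        fun s hs => single_mul_single_of_ne _ _ _ _ (fun h : r.1.2 = s.1.1 => by
        have := (hS s (Finset.mem_insert_of_mem hs)).1
        rw [h] at h2; omega) _]
    abel

theorem central_mul_of_commute (J : Set (Fin l)) (hJ : J ≠ Set.univ) (g : SLA l F)
    (h : ∀ u ∈ (PA l F).UJ J, Commute g u) : ∃ z ∈ Subgroup.center (SLA l F), z⁻¹ * g ∈ (PA l F).UJ J := by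
  classical
  obtain ⟨k, hk⟩ := (Set.ne_univ_iff_exists_notMem J).1 hJ
  have key : ∀ a b : Fin (l + 1), a.val ≤ k.val → k.val < b.val → ∀ i j,
      (if j = b then g.1 i a else 0) = if i = a then g.1 b j else 0 := fun a b ha hb i j => by
    have h3 : a < b := by rw [Fin.lt_def]; omega
    have h4 := (h (xA ⟨(a, b), h3.ne⟩ 1) (mem_USub (S := {r | (RA l).IsPos r ∧ ¬ (RA l).InSub J r})
      ⟨(isPos_iff _).2 h3, fun h => hk ((inSub_iff h3).1 h k ha hb)⟩ (xA_mem _ _))).eq
    have h5 := congrArg (fun x : SLA l F => x.1) h4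
    simp only [coe_mul, coe_xA, mul_add, add_mul, mul_one, one_mul, add_right_inj] at h5
    have h6 := congrFun (congrFun h5 i) j
    by_cases hj : j = b <;> by_cases hi : i = a
    · subst hj hi; simpa using h6
    · subst hj; simpa [hi] using h6
    · subst hi; simpa [hj] using h6
    · simp [hi, hj]
  have hd : ∀ a, g.1 a a = g.1 0 0 := fun a => by
    have h0 := key 0 k.succ (Nat.zero_le _) (by simp) 0 k.succ
    rcases le_or_gt a.val k.val with h1 | h1
    · have := key a k.succ h1 (by simp) a k.succ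
      simp only [if_true] at this h0
      rw [this, h0]
    · simpa using (key 0 a (Nat.zero_le _) h1 0 a).symm
  have hz : ∀ i j, i ≠ j → ¬ (i.val ≤ k.val ∧ k.val < j.val) → g.1 i j = 0 := fun i j hij h1 => by
    rcases le_or_gt j.val k.val with h2 | h2
    · simpa [hij] using key j k.succ h2 (by simp) i k.succ
    · simpa [hij.symm] using (key 0 i (Nat.zero_le _) (by omega) 0 j).symm
  have hdet : g.1 0 0 ^ (l + 1) = 1 := by
    have := g.2
    rw [det_of_isUpperTriangular fun i j (hij : j < i) => hz i j hij.ne' (by rw [Fin.lt_def] at hij; omega)] at this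
    simpa [hd] using this
  have hc : g.1 0 0 ≠ 0 := fun h0 => by simp [h0] at hdet
  obtain ⟨u, hu, e⟩ := exists_mem_UJ J k hk (fun r => (g.1 0 0)⁻¹ * g.1 r.1.1 r.1.2)
    (Finset.univ.filter fun r => r.1.1.val ≤ k.val ∧ k.val < r.1.2.val) (by simp)
  let z : SLA l F := ⟨scalar _ (g.1 0 0), by simpa using hdet⟩
  refine ⟨z, mem_center_iff.2 ⟨g.1 0 0, by simpa using hdet, rfl⟩, ?_⟩
  have : g = z * u := by
    refine Subtype.ext (Matrix.ext fun i j => ?_)
    rw [coe_mul, e]
    rw [show z.1 = diagonal (fun _ => g.1 0 0) from rfl, diagonal_mul, Matrix.add_apply, Matrix.sum_apply]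
    by_cases hij : i = j
    · subst hij
      rw [Finset.sum_eq_zero fun r _ => by
        rw [single_apply, if_neg]; rintro ⟨h1, h2⟩; exact r.2 (h1.trans h2.symm)]
      simp [hd i]
    by_cases h1 : i.val ≤ k.val ∧ k.val < j.val
    · rw [Finset.sum_eq_single ⟨(i, j), hij⟩ (fun r _ hr => by
        rw [single_apply, if_neg]; rintro ⟨rfl, rfl⟩; exact hr rfl) (by simp [h1])]
      simp [hij, hc]
    · rw [Finset.sum_eq_zero fun r hr => by
        rw [single_apply, if_neg]; rintro ⟨rfl, rfl⟩; exact h1 (by simpa using hr)]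
      simp [hij, hz i j hij h1]
  rw [this, inv_mul_cancel_left]
  exact hu

theorem not_dvd_card_HA (p : ℕ) [hp : Fact p.Prime] : ¬ p ∣ Nat.card (HA l (ZMod p)) := fun h => by
  obtain ⟨⟨g, d, hd⟩, hg⟩ := exists_prime_orderOf_dvd_card' p h
  have h1 : g ^ (p - 1) = 1 := by
    refine Subtype.ext ?_
    rw [coe_pow, hd, monoMat_one, diagonal_pow, coe_one, ← diagonal_one]
    congr 1
    ext i
    exact ZMod.pow_card_sub_one_eq_one (ne_zero_of_monoMat hd i)
  rw [← Subgroup.orderOf_coe] at hg
  have h2 := orderOf_dvd_of_pow_eq_one h1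
  rw [show orderOf g = p from hg] at h2
  have := Nat.le_of_dvd (by have := hp.out.two_le; omega) h2
  have := hp.out.two_le
  omega

end

/-- For a prime p and n ≥ 2, the group SL_n over the field with p elements has exactly gcd(n, p − 1) + 1 p-blocks relative to any maximal ideal of the algebraic integers containing p, that is, one more than the order of its centre (only this total is asserted; it arises as the defect-zero block of the Steinberg character plus as many blocks of maximal defect as the order of the centre). -/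
theorem result (p : ℕ) [Fact p.Prime] (n : ℕ) (hn : 2 ≤ n) (M : Ideal Cfsg.AlgInt) (hM : Cfsg.IsPModular p M) :
    Nat.card {B : Set (Cfsg.IrrCharacter (Matrix.SpecialLinearGroup (Fin n) (ZMod p))) // Cfsg.IsPBlock M B} =
      Nat.gcd n (p - 1) + 1 := by
  classical
  obtain ⟨l, rfl⟩ : ∃ l, n = l + 1 := ⟨n - 1, by omega⟩
  have hX : ∀ r, Nat.card ((PA l (ZMod p)).X r) = p ^ 1 := fun r => by rw [card_X, Nat.card_zmod, pow_one]
  have hU : IsPGroup p (PA l (ZMod p)).U :=
    IsPGroup.of_card (by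
      rw [PreRGD.U, nondeg.card_US_of_const hX RSys.halfSpace_pos RSys.closed_pos, ← pow_mul])
  have hZH : Subgroup.center (SLA l (ZMod p)) ≤ (PA l (ZMod p)).H := fun z hz => by
    obtain ⟨r, -, e⟩ := mem_center_iff.1 hz
    exact ⟨fun _ => r, by rw [monoMat_one, ← e]; rfl⟩
  rw [card_blocks_center nondeg PA_full hU (not_dvd_index_U' nondeg PA_full one_pos hX (not_dvd_card_HA p))
    (fun K => eq_top_of_normal) central_mul_of_commute (fun h => ?_) hZH
    (fun h => not_dvd_card_HA p (h.trans (Subgroup.card_dvd_of_le hZH))) hM, GLn.card_center_SL]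
  · simp
  · exact nondeg.X_ne_bot _ (eq_bot_iff.2 (((PA l (ZMod p)).X_le_U ((RA l).isPos_simple ⟨0, by omega⟩)).trans h.le))

end Cfsg.Agent.S2440
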