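import Cfsg.Statements.S2441
import Cfsg.Agent.Lib.Chev.St2

set_option autoImplicit false
open Cfsg

namespace Cfsg.Agent.S2441

open Cfsg.Agent.ChevM Cfsg.Agent.Chev

/-- For a prime p, the Chevalley groups of types G₂, F₄ and E₈ over the field with p elements (types for which the simply connected and adjoint groups coincide, so the group has trivial centre) each have exactly two p-blocks relative to any maximal ideal of the algebraic integers containing p (only the count is asserted; it arises as the defect-zero block of the Steinberg character plus a single block of maximal defect). -/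
theorem result (p : ℕ) [Fact p.Prime] (M : Ideal Cfsg.AlgInt) (hM : Cfsg.IsPModular p M) :
    Nat.card {B : Set (Cfsg.IrrCharacter (Cfsg.Lie.chevG2.group (ZMod p))) // Cfsg.IsPBlock M B} = 2 ∧
    Nat.card {B : Set (Cfsg.IrrCharacter (Cfsg.Lie.chevF4.group (ZMod p))) // Cfsg.IsPBlock M B} = 2 ∧
    Nat.card {B : Set (Cfsg.IrrCharacter (Cfsg.Lie.chevE8.group (ZMod p))) // Cfsg.IsPBlock M B} = 2 := by
  have key : ∀ D : Cfsg.Lie.ChevalleyDatum, IsTab D → 0 < D.rank →
      Nat.card {B : Set (Cfsg.IrrCharacter (D.group (ZMod p))) // Cfsg.IsPBlock M B} = 2 := fun D hD hr => by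
    have : Tab D := ⟨hD⟩
    have := Fintype.ofFinite (D.group (ZMod p))
    refine (nondeg D (ZMod p)).card_blocks PG_full (isPGroup_U p) (not_dvd_index_U p)
      (fun K => eq_top_of_normal) (fun J hJ g => mem_UJ_of_commute hJ) (fun h => ?_) hM
    have := xG_mem_U (F := ZMod p) ((rs D).isPos_simple ⟨0, hr⟩) 1
    rw [h] at this
    exact xG_ne_one _ one_ne_zero this
  exact ⟨key _ (by simp [IsTab]) (by decide), key _ (by simp [IsTab]) (by decide), key _ (by simp [IsTab]) (by decide)⟩

end Cfsg.Agent.S2441
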